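import Cfsg.Agent.Helper6.DefectOne2
import Cfsg.Agent.Helper6.Laradji
import Cfsg.Agent.Helper25.BlockSection
import Cfsg.Agent.Helper25.BlockRankTrace
import Cfsg.Agent.Helper25.BlockPPrime
import Cfsg.Agent.S0936
import Cfsg.Agent.S0925

set_option autoImplicit false
set_option linter.unusedSectionVars false

/-!
# The principal `2`-block for a Klein four Sylow subgroup (helper6)
-/

namespace Cfsg.Agent.Helper6

open Cfsg
open scoped ComplexConjugate

section KleinFour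

variable {G : Type*} [Group G] [Fintype G] {M : Ideal AlgInt}

/-- Structure of a `2`-block of defect two around a height-zero character. -/
theorem d2_struct [Fintype (IrrCharacter G)] (hpM : IsPModular 2 M)
    (B : Set (IrrCharacter G)) (hB : IsPBlock M B) (hd2 : blockDefect 2 B = 2)
    (χ : IrrCharacter G) (hχ : χ ∈ B) (h0 : blockHeight 2 B (χ : G → ℂ) = 0) :
    ∃ (m : ℤ) (ψ₁ ψ₂ ψ₃ : IrrCharacter G) (s₁ s₂ s₃ : ℤ),
      (m = 1 ∨ m = 3) ∧ (s₁ = 1 ∨ s₁ = -1) ∧ (s₂ = 1 ∨ s₂ = -1) ∧ (s₃ = 1 ∨ s₃ = -1) ∧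
      ψ₁ ≠ χ ∧ ψ₂ ≠ χ ∧ ψ₃ ≠ χ ∧ ψ₁ ≠ ψ₂ ∧ ψ₁ ≠ ψ₃ ∧ ψ₂ ≠ ψ₃ ∧
      (∀ φ : IrrCharacter G, φ ∈ B ↔ φ = χ ∨ φ = ψ₁ ∨ φ = ψ₂ ∨ φ = ψ₃) ∧
      Helper10.irrCoeff (Helper25.tildeFun 2 (χ : G → ℂ)) (χ : G → ℂ)
        = (2 : ℤ) ^ (charDegree (χ : G → ℂ)).factorization 2 * m ∧
      Helper10.irrCoeff (Helper25.tildeFun 2 (χ : G → ℂ)) (ψ₁ : G → ℂ)
        = (2 : ℤ) ^ (charDegree (χ : G → ℂ)).factorization 2 * s₁ ∧
      Helper10.irrCoeff (Helper25.tildeFun 2 (χ : G → ℂ)) (ψ₂ : G → ℂ)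
        = (2 : ℤ) ^ (charDegree (χ : G → ℂ)).factorization 2 * s₂ ∧
      Helper10.irrCoeff (Helper25.tildeFun 2 (χ : G → ℂ)) (ψ₃ : G → ℂ)
        = (2 : ℤ) ^ (charDegree (χ : G → ℂ)).factorization 2 * s₃ ∧
      (∀ φ : IrrCharacter G, φ ∈ B → blockHeight 2 B (φ : G → ℂ) = 0) := by
  classical
  haveI : Fact (Nat.Prime 2) := ⟨Nat.prime_two⟩
  have hM := hpM.2.1.isPrime
  have hsInf : sInf ((fun ψ : IrrCharacter G => (charDegree (ψ : G → ℂ)).factorization 2) '' B)
      = (charDegree (χ : G → ℂ)).factorization 2 := by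
    refine le_antisymm (Nat.sInf_le ⟨χ, hχ, rfl⟩) ?_
    unfold blockHeight at h0
    exact Nat.sub_eq_zero_iff_le.1 h0
  have hea : (charDegree (χ : G → ℂ)).factorization 2 ≤ (Nat.card G).factorization 2 :=
    (Nat.factorization_le_iff_dvd (Helper25.charDegree_irr_ne_zero χ) Nat.card_pos.ne').2
      (Helper2.irr_degree_dvd_card χ.2) 2
  have hval : ∀ ψ : IrrCharacter G, ψ ∈ B → (charDegree (ψ : G → ℂ)).factorization 2
      = (charDegree (χ : G → ℂ)).factorization 2 + blockHeight 2 B (ψ : G → ℂ) := by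
    intro ψ hψ
    have h1 := Helper25.height_zero_le_of_mem χ ψ hψ h0
    unfold blockHeight
    rw [hsInf]
    omega
  have hda : 2 + (charDegree (χ : G → ℂ)).factorization 2 = (Nat.card G).factorization 2 := by
    unfold blockDefect at hd2
    rw [hsInf] at hd2
    omega
  obtain ⟨a, ha⟩ : ∃ a, a = (Nat.card G).factorization 2 := ⟨_, rfl⟩
  obtain ⟨e, he⟩ : ∃ e, e = (charDegree (χ : G → ℂ)).factorization 2 := ⟨_, rfl⟩
  rw [← ha, ← he] at hda
  rw [← he]
  obtain ⟨n, hn⟩ : ∃ n : IrrCharacter G → ℤ, n = fun ψ : IrrCharacter G =>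
      Helper10.irrCoeff (Helper25.tildeFun 2 (χ : G → ℂ)) (ψ : G → ℂ) := ⟨_, rfl⟩
  have hn' : ∀ φ : IrrCharacter G,
      n φ = Helper10.irrCoeff (Helper25.tildeFun 2 (χ : G → ℂ)) (φ : G → ℂ) := by
    intro φ
    rw [hn]
  simp only [← hn']
  have hnspec : ∀ ψ : IrrCharacter G,
      classInner (Helper25.tildeFun 2 (χ : G → ℂ)) (ψ : G → ℂ) = (n ψ : ℂ) := by
    intro ψ
    rw [hn' ψ]
    exact Helper25.tildeFun_inner χ ψ
  have hpars : ((2 : ℤ) ^ a) * n χ = ∑ φ : IrrCharacter G, n φ * n φ := by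
    have h := bf2_parseval (p := 2) χ
    rw [← ha] at h
    simp only [hn']
    exact_mod_cast h
  have hzero : ∀ ψ : IrrCharacter G, ψ ∉ B → n ψ = 0 := by
    intro ψ hψ
    have hns : ¬ SameBlock M (χ : G → ℂ) (ψ : G → ℂ) :=
      fun hs => hψ (Helper25.mem_block_of_sameBlock hM hB hχ hs)
    have h1 := Helper25.classInner_tildeFun_eq_zero hpM χ ψ hns
    rw [hnspec] at h1
    exact_mod_cast h1
  have hin : ∀ ψ : IrrCharacter G, ψ ∈ B → ∃ k : ℤ, k ≠ 0 ∧ n ψ = (2 : ℤ) ^ e * k ∧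
      (2 : ℤ) ^ blockHeight 2 B (ψ : G → ℂ) ∣ k := by
    intro ψ hψ
    have h1 := hb_tilde_dvd hpM χ ψ (n ψ) (hnspec ψ)
    rw [hval ψ hψ, ← he, pow_add] at h1
    obtain ⟨m, hm⟩ := h1
    refine ⟨(2 : ℤ) ^ blockHeight 2 B (ψ : G → ℂ) * m, ?_, ?_, Dvd.intro _ rfl⟩
    · intro hz
      have h3 := Helper25.height_zero_ratio_not_mem hpM hB χ hχ h0 ψ hψ
      apply h3
      have h4 : n ψ = 0 := by
        rw [hm]
        push_cast
        rw [mul_assoc, hz, mul_zero]
      rw [hnspec, h4, Int.cast_zero, zero_div]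
      exact Helper25.MemLocalIdeal.zero hM.ne_top
    · rw [hm]
      push_cast
      ring
  obtain ⟨F, hF⟩ : ∃ F : Finset (IrrCharacter G), F = Finset.univ.filter (· ∈ B) := ⟨_, rfl⟩
  have hmemF : ∀ φ : IrrCharacter G, φ ∈ F ↔ φ ∈ B := by
    intro φ
    rw [hF]
    simp
  have hχF : χ ∈ F := (hmemF χ).2 hχ
  have hsumF : ∑ φ : IrrCharacter G, n φ * n φ = ∑ φ ∈ F, n φ * n φ := by
    rw [hF, Finset.sum_filter]
    refine Finset.sum_congr rfl fun φ _ => ?_
    split_ifs with h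
    · rfl
    · rw [hzero φ h, mul_zero]
  obtain ⟨m, hm0, hm, -⟩ := hin χ hχ
  have hP : (0 : ℤ) < (2 : ℤ) ^ e := pow_pos (by norm_num) e
  have hPP : (0 : ℤ) < (2 : ℤ) ^ e * (2 : ℤ) ^ e := mul_pos hP hP
  have hmpos : 0 < m := by
    have h1 := tilde_self_pos (p := 2) χ
    rw [← hn' χ, hm] at h1
    exact (mul_pos_iff_of_pos_left hP).1 h1
  have hsplit : ∑ φ ∈ F, n φ * n φ = n χ * n χ + ∑ φ ∈ F.erase χ, n φ * n φ :=
    (Finset.add_sum_erase F _ hχF).symm
  have hrest : ∑ φ ∈ F.erase χ, n φ * n φ = ((2 : ℤ) ^ e * (2 : ℤ) ^ e) * (4 * m - m * m) := by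
    have h1 : (2 : ℤ) ^ a * n χ = n χ * n χ + ∑ φ ∈ F.erase χ, n φ * n φ := by
      rw [hpars, hsumF, hsplit]
    rw [← hda, pow_add, hm] at h1
    linarith
  have hnonneg : (0 : ℤ) ≤ ∑ φ ∈ F.erase χ, n φ * n φ :=
    Finset.sum_nonneg fun φ _ => mul_self_nonneg _
  have hdegχ : (χ : G → ℂ) 1 = (charDegree (χ : G → ℂ) : ℂ) := Helper25.irr_one_eq_degree χ
  have hdeg0 : charDegree (χ : G → ℂ) ≠ 0 := Helper25.charDegree_irr_ne_zero χ
  have hmodd : ¬ (2 : ℤ) ∣ m := by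
    rintro ⟨m', rfl⟩
    have h3 := Helper25.height_zero_ratio_not_mem hpM hB χ hχ h0 χ hχ
    apply h3
    rw [hnspec, hm, hdegχ]
    have h4 : (((2 : ℤ) ^ e * (2 * m') : ℤ) : ℂ) / (charDegree (χ : G → ℂ) : ℂ)
        = (((2 ^ e : ℕ) : ℂ) / (charDegree (χ : G → ℂ) : ℂ)) * (((2 : ℕ) : ℂ) * (m' : ℂ)) := by
      push_cast
      ring
    rw [h4]
    refine Helper25.MemLocalIdeal.mul_left hM
      (Helper25.natCast_div_memLocalRing hpM hdeg0 ?_)
      (Helper25.MemLocalIdeal.mul_right hM ((Helper25.memLocalIdeal_natCast_iff hpM 2).2 dvd_rfl)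
        (intCast_mem (Helper25.localRing M hM) m'))
    rw [← he, Nat.factorization_pow]
    simp [Nat.Prime.factorization_self Nat.prime_two]
  have hm13 : m = 1 ∨ m = 3 := by
    have h1 : 0 ≤ 4 * m - m * m := by
      rw [hrest] at hnonneg
      exact nonneg_of_mul_nonneg_right hnonneg hPP
    have h2 : m ≤ 4 := by nlinarith
    have h3 : m ≠ 2 := by
      rintro rfl
      exact hmodd (dvd_refl 2)
    have h4 : m ≠ 4 := by
      rintro rfl
      exact hmodd ⟨2, by norm_num⟩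
    omega
  have hrest3 : ∑ φ ∈ F.erase χ, n φ * n φ = 3 * ((2 : ℤ) ^ e * (2 : ℤ) ^ e) := by
    rw [hrest]
    rcases hm13 with rfl | rfl <;> ring
  have hSdata : ∀ φ ∈ F.erase χ, ∃ s : ℤ, (s = 1 ∨ s = -1) ∧ n φ = (2 : ℤ) ^ e * s ∧
      blockHeight 2 B (φ : G → ℂ) = 0 := by
    intro φ hφ
    have hφB : φ ∈ B := (hmemF φ).1 (Finset.mem_of_mem_erase hφ)
    obtain ⟨k, hk0, hk, hkh⟩ := hin φ hφB
    have hle : n φ * n φ ≤ 3 * ((2 : ℤ) ^ e * (2 : ℤ) ^ e) := by
      rw [← hrest3]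
      exact Finset.single_le_sum (f := fun φ => n φ * n φ)
        (fun ψ _ => mul_self_nonneg _) hφ
    have hk2 : k * k ≤ 3 := by
      rw [hk] at hle
      have h1 : (k * k) * ((2 : ℤ) ^ e * (2 : ℤ) ^ e) ≤ 3 * ((2 : ℤ) ^ e * (2 : ℤ) ^ e) := by
        linarith
      exact le_of_mul_le_mul_right h1 hPP
    have hk1 : k = 1 ∨ k = -1 := by
      have h1 : k ≤ 1 := by nlinarith
      have h2 : -1 ≤ k := by nlinarith
      omega
    refine ⟨k, hk1, hk, ?_⟩
    by_contra hh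
    have h2 : (2 : ℤ) ∣ k := by
      refine dvd_trans ?_ hkh
      exact dvd_pow_self 2 hh
    rcases hk1 with rfl | rfl <;> omega
  have hcard : (F.erase χ).card = 3 := by
    have h1 : ∑ φ ∈ F.erase χ, n φ * n φ
        = ∑ φ ∈ F.erase χ, ((2 : ℤ) ^ e * (2 : ℤ) ^ e) := by
      refine Finset.sum_congr rfl fun φ hφ => ?_
      obtain ⟨s, hs, hns, -⟩ := hSdata φ hφ
      rw [hns]
      rcases hs with rfl | rfl <;> ring
    rw [hrest3, Finset.sum_const, nsmul_eq_mul] at h1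
    have h2 : ((F.erase χ).card : ℤ) = 3 := by
      have h3 : ((F.erase χ).card : ℤ) * ((2 : ℤ) ^ e * (2 : ℤ) ^ e)
          = 3 * ((2 : ℤ) ^ e * (2 : ℤ) ^ e) := h1.symm
      exact mul_right_cancel₀ hPP.ne' h3
    exact_mod_cast h2
  obtain ⟨ψ₁, ψ₂, ψ₃, h12, h13, h23, hS⟩ := Finset.card_eq_three.1 hcard
  have hψ₁ : ψ₁ ∈ F.erase χ := by rw [hS]; simp
  have hψ₂ : ψ₂ ∈ F.erase χ := by rw [hS]; simp
  have hψ₃ : ψ₃ ∈ F.erase χ := by rw [hS]; simp
  obtain ⟨s₁, hs₁, hn₁, hh₁⟩ := hSdata ψ₁ hψ₁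
  obtain ⟨s₂, hs₂, hn₂, hh₂⟩ := hSdata ψ₂ hψ₂
  obtain ⟨s₃, hs₃, hn₃, hh₃⟩ := hSdata ψ₃ hψ₃
  have hBiff : ∀ φ : IrrCharacter G, φ ∈ B ↔ φ = χ ∨ φ = ψ₁ ∨ φ = ψ₂ ∨ φ = ψ₃ := by
    intro φ
    constructor
    · intro hφ
      by_cases hφχ : φ = χ
      · exact Or.inl hφχ
      · right
        have h1 : φ ∈ F.erase χ := Finset.mem_erase.2 ⟨hφχ, (hmemF φ).2 hφ⟩
        rw [hS] at h1
        simpa using h1
    · rintro (rfl | rfl | rfl | rfl)
      · exact hχ
      · exact (hmemF _).1 (Finset.mem_of_mem_erase hψ₁)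
      · exact (hmemF _).1 (Finset.mem_of_mem_erase hψ₂)
      · exact (hmemF _).1 (Finset.mem_of_mem_erase hψ₃)
  refine ⟨m, ψ₁, ψ₂, ψ₃, s₁, s₂, s₃, hm13, hs₁, hs₂, hs₃, Finset.ne_of_mem_erase hψ₁,
    Finset.ne_of_mem_erase hψ₂, Finset.ne_of_mem_erase hψ₃, h12, h13, h23, hBiff, hm, hn₁, hn₂,
    hn₃, ?_⟩
  intro φ hφ
  rcases (hBiff φ).1 hφ with rfl | rfl | rfl | rfl
  · exact h0
  · exact hh₁
  · exact hh₂
  · exact hh₃

/-- With a central involution, at most half of the norm of a character sits on the elements of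
odd order. -/
theorem d2_half {K : Type*} [Group K] [Fintype K] (J : K) (hJ : orderOf J = 2)
    (hJc : J ∈ Subgroup.center K) (θ : IrrCharacter K) :
    2 * ∑ y : K, (if 2 ∣ orderOf y then 0 else Complex.normSq ((θ : K → ℂ) y))
      ≤ (Nat.card K : ℝ) := by
  classical
  rw [← lar_sum_normSq θ]
  have h1 : ∑ y : K, Complex.normSq ((θ : K → ℂ) y)
      = ∑ y : K, (if 2 ∣ orderOf y then Complex.normSq ((θ : K → ℂ) y) else 0)
        + ∑ y : K, (if 2 ∣ orderOf y then 0 else Complex.normSq ((θ : K → ℂ) y)) := by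
    rw [← Finset.sum_add_distrib]
    refine Finset.sum_congr rfl fun y _ => ?_
    split_ifs <;> simp
  have h2 : ∑ y : K, (if 2 ∣ orderOf y then 0 else Complex.normSq ((θ : K → ℂ) y))
      ≤ ∑ y : K, (if 2 ∣ orderOf y then Complex.normSq ((θ : K → ℂ) y) else 0) := by
    rw [← Equiv.sum_comp (Equiv.mulLeft J)
      (fun y : K => if 2 ∣ orderOf y then Complex.normSq ((θ : K → ℂ) y) else 0)]
    apply Finset.sum_le_sum
    intro y _
    show _ ≤ (if 2 ∣ orderOf (J * y) then Complex.normSq ((θ : K → ℂ) (J * y)) else 0)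
    by_cases hy : 2 ∣ orderOf y
    · rw [if_pos hy]
      split_ifs
      · exact Complex.normSq_nonneg _
      · exact le_refl _
    · rw [if_neg hy]
      have hcomm : Commute J y := (Subgroup.mem_center_iff.1 hJc y).symm
      have hco : (orderOf J).Coprime (orderOf y) := by
        rw [hJ]
        exact (Nat.Prime.coprime_iff_not_dvd Nat.prime_two).2 hy
      have h3 : 2 ∣ orderOf (J * y) := by
        rw [hcomm.orderOf_mul_eq_mul_orderOf_of_coprime hco, hJ]
        exact dvd_mul_right 2 _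
      rw [if_pos h3, lar_normSq_mul θ J y hJc]
  linarith

/-- In a group with a central involution and Sylow `2`-subgroups of order four, the principal
`2`-block consists of four characters, all trivial on the elements of odd order, and a quarter
of the elements have odd order. -/
theorem d2_central {K : Type*} [Group K] [Fintype K] [Fintype (IrrCharacter K)]
    (hpM : IsPModular 2 M) (J : K) (hJ : orderOf J = 2) (hJc : J ∈ Subgroup.center K)
    (ha : (Nat.card K).factorization 2 = 2) :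
    (∃ θ₁ θ₂ θ₃ : IrrCharacter K, θ₁ ≠ Helper25.oneIrr K ∧ θ₂ ≠ Helper25.oneIrr K ∧
      θ₃ ≠ Helper25.oneIrr K ∧ θ₁ ≠ θ₂ ∧ θ₁ ≠ θ₃ ∧ θ₂ ≠ θ₃ ∧
      ∀ φ : IrrCharacter K, φ ∈ principalBlock M K ↔
        φ = Helper25.oneIrr K ∨ φ = θ₁ ∨ φ = θ₂ ∨ φ = θ₃) ∧
    (∀ θ : IrrCharacter K, θ ∈ principalBlock M K →
      ∀ y : K, ¬ 2 ∣ orderOf y → (θ : K → ℂ) y = 1) ∧
    4 * ∑ y : K, (if 2 ∣ orderOf y then (0 : ℂ) else 1) = (Nat.card K : ℂ) := by
  classical
  haveI : Fact (Nat.Prime 2) := ⟨Nat.prime_two⟩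
  have hM := hpM.2.1.isPrime
  have h1b : Helper25.oneIrr K ∈ principalBlock M K :=
    Helper25.mem_blockOf_self hM.ne_top (Helper25.oneIrr K)
  have hb : IsPBlock M (principalBlock M K) := ⟨Helper25.oneIrr K, rfl⟩
  have hdeg1 : charDegree ((Helper25.oneIrr K : IrrCharacter K) : K → ℂ) = 1 := by
    have h := Helper25.irr_one_eq_degree (Helper25.oneIrr K)
    rw [Helper25.oneIrr_apply] at h
    exact_mod_cast h.symm
  have hsInf0 : sInf ((fun ψ : IrrCharacter K => (charDegree (ψ : K → ℂ)).factorization 2) ''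
      (principalBlock M K)) = 0 := by
    have h := Nat.sInf_le (Set.mem_image_of_mem
      (fun ψ : IrrCharacter K => (charDegree (ψ : K → ℂ)).factorization 2) h1b)
    have h2 : (charDegree ((Helper25.oneIrr K : IrrCharacter K) : K → ℂ)).factorization 2 = 0 := by
      rw [hdeg1]
      simp
    have h3 : sInf ((fun ψ : IrrCharacter K => (charDegree (ψ : K → ℂ)).factorization 2) ''
        (principalBlock M K)) ≤ 0 := by
      rw [← h2]
      exact h
    omega
  have hd2 : blockDefect 2 (principalBlock M K) = 2 := by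
    unfold blockDefect
    rw [hsInf0, ha]
  have hht : ∀ φ : IrrCharacter K, blockHeight 2 (principalBlock M K) (φ : K → ℂ)
      = (charDegree (φ : K → ℂ)).factorization 2 := by
    intro φ
    unfold blockHeight
    rw [hsInf0, Nat.sub_zero]
  have h0one : blockHeight 2 (principalBlock M K)
      ((Helper25.oneIrr K : IrrCharacter K) : K → ℂ) = 0 := by
    rw [hht, hdeg1]
    simp
  obtain ⟨m, θ₁, θ₂, θ₃, s₁, s₂, s₃, hm13, hs₁, hs₂, hs₃, hθ₁, hθ₂, hθ₃, h12, h13, h23, hBiff,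
    hnm, hn₁, hn₂, hn₃, hall0⟩ := d2_struct hpM _ hb hd2 (Helper25.oneIrr K) h1b h0one
  rw [hdeg1] at hnm hn₁ hn₂ hn₃
  simp only [Nat.factorization_one, Finsupp.coe_zero, Pi.zero_apply, pow_zero, one_mul]
    at hnm hn₁ hn₂ hn₃
  obtain ⟨R, hR⟩ : ∃ R : ℝ, R = ∑ y : K, (if 2 ∣ orderOf y then (0 : ℝ) else 1) := ⟨_, rfl⟩
  have hKpos : (0 : ℝ) < Nat.card K := by exact_mod_cast Nat.card_pos
  have hK0 : (Nat.card K : ℂ) ≠ 0 := Nat.cast_ne_zero.2 Nat.card_pos.ne'
  have hself : ∀ θ : IrrCharacter K,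
      (Helper10.irrCoeff (Helper25.tildeFun 2 (θ : K → ℂ)) (θ : K → ℂ) : ℝ) * (Nat.card K : ℝ)
        = 4 * ∑ y : K, (if 2 ∣ orderOf y then 0 else Complex.normSq ((θ : K → ℂ) y)) := by
    intro θ
    have h := lar_inner_eq (p := 2) θ
    rw [Helper25.tildeFun_inner θ θ, ha] at h
    apply Complex.ofReal_injective
    push_cast
    push_cast at h
    rw [h]
    field_simp
  have hS1 : ∑ y : K, (if 2 ∣ orderOf y then 0
      else Complex.normSq ((Helper25.oneIrr K : K → ℂ) y)) = R := by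
    rw [hR]
    refine Finset.sum_congr rfl fun y _ => ?_
    rw [Helper25.oneIrr_apply, map_one]
  have hm1 : m = 1 := by
    have h1 := hself (Helper25.oneIrr K)
    rw [hnm, hS1] at h1
    have h2 := d2_half J hJ hJc (Helper25.oneIrr K)
    rw [hS1] at h2
    have h3 : (m : ℝ) ≤ 2 := by
      by_contra hc
      push_neg at hc
      nlinarith
    have h4 : m ≤ 2 := by exact_mod_cast h3
    rcases hm13 with h | h <;> omega
  have hKR : (Nat.card K : ℝ) = 4 * R := by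
    have h1 := hself (Helper25.oneIrr K)
    rw [hnm, hS1, hm1] at h1
    simpa using h1
  have hSθ : ∀ θ : IrrCharacter K, θ ∈ principalBlock M K →
      ∑ y : K, (if 2 ∣ orderOf y then 0 else Complex.normSq ((θ : K → ℂ) y)) = R := by
    intro θ hθ
    obtain ⟨m', -, -, -, -, -, -, hm', -, -, -, -, -, -, -, -, -, -, hnm', -⟩ :=
      d2_struct hpM _ hb hd2 θ hθ (hall0 θ hθ)
    have hν : (charDegree (θ : K → ℂ)).factorization 2 = 0 := by
      rw [← hht θ]
      exact hall0 θ hθ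
    rw [hν, pow_zero, one_mul] at hnm'
    have h1 := hself θ
    rw [hnm'] at h1
    have h2 := d2_half J hJ hJc θ
    have h3 : (m' : ℝ) ≤ 2 := by
      by_contra hc
      push_neg at hc
      nlinarith
    have h4 : m' ≤ 2 := by exact_mod_cast h3
    have h5 : m' = 1 := by
      rcases hm' with h | h <;> omega
    rw [h5] at h1
    push_cast at h1
    linarith
  have hcross : ∀ θ : IrrCharacter K, θ ∈ principalBlock M K → ∀ s : ℤ, (s = 1 ∨ s = -1) →
      Helper10.irrCoeff (Helper25.tildeFun 2 ((Helper25.oneIrr K : IrrCharacter K) : K → ℂ))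
        (θ : K → ℂ) = s →
      ∀ y : K, ¬ 2 ∣ orderOf y → (θ : K → ℂ) y = 1 := by
    intro θ hθ s hs hn y hy
    have h := lar_inner_eq' (p := 2) (Helper25.oneIrr K) θ
    rw [Helper25.tildeFun_inner (Helper25.oneIrr K) θ, hn, ha] at h
    obtain ⟨T, hT⟩ : ∃ T : ℂ, T = ∑ y : K, (if 2 ∣ orderOf y then 0 else (θ : K → ℂ) y) :=
      ⟨_, rfl⟩
    have hT' : ∑ y : K, (if 2 ∣ orderOf y then 0
        else (θ : K → ℂ) y * conj ((Helper25.oneIrr K : K → ℂ) y)) = T := by
      rw [hT]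
      refine Finset.sum_congr rfl fun y _ => ?_
      rw [Helper25.oneIrr_apply, map_one, mul_one]
    rw [hT'] at h
    have hTval : T = (s : ℂ) * (R : ℂ) := by
      have h2 : conj T = (s : ℂ) * (R : ℂ) := by
        have hK : (Nat.card K : ℂ) = 4 * (R : ℂ) := by exact_mod_cast hKR
        have h3 : (s : ℂ) * (Nat.card K : ℂ) = 4 * conj T := by
          rw [h]
          field_simp
          ring
        rw [hK] at h3
        linear_combination (-1 / 4 : ℂ) * h3
      have h4 := congrArg conj h2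
      rw [Complex.conj_conj] at h4
      rw [h4, map_mul, map_intCast, Complex.conj_ofReal]
    have hsum : ∑ y : K, (if 2 ∣ orderOf y then 0
        else Complex.normSq ((θ : K → ℂ) y - (s : ℂ))) = 0 := by
      have hexp : ∀ y : K, (if 2 ∣ orderOf y then 0
            else Complex.normSq ((θ : K → ℂ) y - (s : ℂ)))
          = (if 2 ∣ orderOf y then 0 else Complex.normSq ((θ : K → ℂ) y))
            - 2 * (s : ℝ) * (if 2 ∣ orderOf y then (0 : ℂ) else (θ : K → ℂ) y).re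
            + (s : ℝ) * (s : ℝ) * (if 2 ∣ orderOf y then (0 : ℝ) else 1) := by
        intro y
        by_cases hy : 2 ∣ orderOf y
        · simp [hy]
        · simp only [if_neg hy]
          rw [Complex.normSq_apply, Complex.normSq_apply]
          simp only [Complex.sub_re, Complex.sub_im, Complex.intCast_re, Complex.intCast_im]
          ring
      rw [Finset.sum_congr rfl (fun y _ => hexp y), Finset.sum_add_distrib,
        Finset.sum_sub_distrib, ← Finset.mul_sum, ← Finset.mul_sum, ← hR, hSθ θ hθ,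
        ← Complex.re_sum, ← hT, hTval]
      have h5 : ((s : ℂ) * (R : ℂ)).re = (s : ℝ) * R := by simp
      rw [h5]
      have hss : (s : ℝ) * (s : ℝ) = 1 := by
        rcases hs with rfl | rfl <;> norm_num
      linear_combination (-R) * hss
    have hzero := (Finset.sum_eq_zero_iff_of_nonneg (fun y _ => by
      split_ifs
      · exact le_refl _
      · exact Complex.normSq_nonneg _)).1 hsum
    have hval : ∀ y : K, ¬ 2 ∣ orderOf y → (θ : K → ℂ) y = (s : ℂ) := by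
      intro y hy
      have h := hzero y (Finset.mem_univ y)
      rw [if_neg hy, Complex.normSq_eq_zero] at h
      exact sub_eq_zero.1 h
    have h1 := hval 1 (by rw [orderOf_one]; norm_num)
    rw [Helper25.irr_one_eq_degree θ] at h1
    have hs1 : s = 1 := by
      rcases hs with rfl | rfl
      · rfl
      · exfalso
        have h2 : (charDegree (θ : K → ℂ) : ℤ) = -1 := by exact_mod_cast h1
        omega
    rw [hval y hy, hs1]
    simp
  refine ⟨⟨θ₁, θ₂, θ₃, hθ₁, hθ₂, hθ₃, h12, h13, h23, hBiff⟩, ?_, ?_⟩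
  · intro θ hθ y hy
    rcases (hBiff θ).1 hθ with rfl | rfl | rfl | rfl
    · exact Helper25.oneIrr_apply K y
    · exact hcross _ hθ s₁ hs₁ hn₁ y hy
    · exact hcross _ hθ s₂ hs₂ hn₂ y hy
    · exact hcross _ hθ s₃ hs₃ hn₃ y hy
  · have h1 : ∑ y : K, (if 2 ∣ orderOf y then (0 : ℂ) else 1) = (R : ℂ) := by
      rw [hR, Complex.ofReal_sum]
      refine Finset.sum_congr rfl fun y _ => ?_
      split_ifs <;> simp
    rw [h1]
    exact_mod_cast hKR.symm

theorem char_involution_int {K : Type*} [Group K] {χ : K → ℂ} (hχ : IsCharacter K χ) (g : K)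
    (hg : g * g = 1) : ∃ k : ℤ, χ g = (k : ℂ) := by
  have hζ : IsPrimitiveRoot (-1 : ℂ) 2 := IsPrimitiveRoot.neg_one 0 (by norm_num)
  obtain ⟨d, hd⟩ := Helper24.char_pow_expansion hχ g 2 (by norm_num) (by rw [pow_two, hg])
    (-1) hζ
  have h1 := hd 1
  rw [pow_one] at h1
  refine ⟨(d 0 : ℤ) - (d 1 : ℤ), ?_⟩
  rw [h1, Finset.sum_range_succ, Finset.sum_range_one]
  push_cast
  ring

theorem d2_sum4 {ι : Type*} [Fintype ι] [DecidableEq ι] (S : Set ι) [DecidablePred (· ∈ S)]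
    (a b c d : ι) (hab : a ≠ b) (hac : a ≠ c) (had : a ≠ d) (hbc : b ≠ c) (hbd : b ≠ d)
    (hcd : c ≠ d) (hS : ∀ i, i ∈ S ↔ i = a ∨ i = b ∨ i = c ∨ i = d) (f : ι → ℂ) :
    ∑ i, (if i ∈ S then f i else 0) = f a + f b + f c + f d := by
  have h1 : ∀ i, (if i ∈ S then f i else 0)
      = if i ∈ ({a, b, c, d} : Finset ι) then f i else 0 := by
    intro i
    have h2 : i ∈ S ↔ i ∈ ({a, b, c, d} : Finset ι) := by
      rw [hS]
      simp
    by_cases h : i ∈ S
    · rw [if_pos h, if_pos (h2.1 h)]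
    · rw [if_neg h, if_neg (fun h' => h (h2.2 h'))]
  rw [Finset.sum_congr rfl (fun i _ => h1 i), Finset.sum_ite_mem, Finset.univ_inter]
  rw [Finset.sum_insert, Finset.sum_insert, Finset.sum_pair hcd]
  · ring
  · simp [hbc, hbd]
  · simp [hab, hac, had]

/-- The principal `2`-block of a group with Sylow `2`-subgroups of order four has four
members. -/
theorem d2_principal {K : Type*} [Group K] [Fintype K] [Fintype (IrrCharacter K)]
    (hpM : IsPModular 2 M) (ha : (Nat.card K).factorization 2 = 2) :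
    ∃ θ₁ θ₂ θ₃ : IrrCharacter K, θ₁ ≠ Helper25.oneIrr K ∧ θ₂ ≠ Helper25.oneIrr K ∧
      θ₃ ≠ Helper25.oneIrr K ∧ θ₁ ≠ θ₂ ∧ θ₁ ≠ θ₃ ∧ θ₂ ≠ θ₃ ∧
      ∀ φ : IrrCharacter K, φ ∈ principalBlock M K ↔
        φ = Helper25.oneIrr K ∨ φ = θ₁ ∨ φ = θ₂ ∨ φ = θ₃ := by
  classical
  haveI : Fact (Nat.Prime 2) := ⟨Nat.prime_two⟩
  have hM := hpM.2.1.isPrime
  have h1b : Helper25.oneIrr K ∈ principalBlock M K :=
    Helper25.mem_blockOf_self hM.ne_top (Helper25.oneIrr K)
  have hb : IsPBlock M (principalBlock M K) := ⟨Helper25.oneIrr K, rfl⟩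
  have hdeg1 : charDegree ((Helper25.oneIrr K : IrrCharacter K) : K → ℂ) = 1 := by
    have h := Helper25.irr_one_eq_degree (Helper25.oneIrr K)
    rw [Helper25.oneIrr_apply] at h
    exact_mod_cast h.symm
  have hsInf0 : sInf ((fun ψ : IrrCharacter K => (charDegree (ψ : K → ℂ)).factorization 2) ''
      (principalBlock M K)) = 0 := by
    have h := Nat.sInf_le (Set.mem_image_of_mem
      (fun ψ : IrrCharacter K => (charDegree (ψ : K → ℂ)).factorization 2) h1b)
    have h2 : (charDegree ((Helper25.oneIrr K : IrrCharacter K) : K → ℂ)).factorization 2 = 0 := by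
      rw [hdeg1]
      simp
    have h3 : sInf ((fun ψ : IrrCharacter K => (charDegree (ψ : K → ℂ)).factorization 2) ''
        (principalBlock M K)) ≤ 0 := by
      rw [← h2]
      exact h
    omega
  have hd2 : blockDefect 2 (principalBlock M K) = 2 := by
    unfold blockDefect
    rw [hsInf0, ha]
  have h0one : blockHeight 2 (principalBlock M K)
      ((Helper25.oneIrr K : IrrCharacter K) : K → ℂ) = 0 := by
    unfold blockHeight
    rw [hsInf0, Nat.sub_zero, hdeg1]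
    simp
  obtain ⟨m, θ₁, θ₂, θ₃, s₁, s₂, s₃, -, -, -, -, hθ₁, hθ₂, hθ₃, h12, h13, h23, hBiff, -⟩ :=
    d2_struct hpM _ hb hd2 (Helper25.oneIrr K) h1b h0one
  exact ⟨θ₁, θ₂, θ₃, hθ₁, hθ₂, hθ₃, h12, h13, h23, hBiff⟩

/-- The principal `2`-block when the Sylow `2`-subgroups have order four and all nontrivial
`2`-elements are conjugate to the involution `J`. -/
theorem kf_main [Fintype (IrrCharacter G)] (hpM : IsPModular 2 M) (J : G) (hJ : orderOf J = 2)
    (ha : (Nat.card G).factorization 2 = 2)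
    (haC : (Nat.card (Subgroup.centralizer ({J} : Set G))).factorization 2 = 2)
    (hsec : ∀ z : G, (∃ k : ℕ, orderOf z = 2 ^ k) → z ≠ 1 → IsConj z J) :
    ∃ ψ₁ ψ₂ ψ₃ : IrrCharacter G, ∃ k₁ k₂ k₃ : ℤ,
      (k₁ = 1 ∨ k₁ = -1) ∧ (k₂ = 1 ∨ k₂ = -1) ∧ (k₃ = 1 ∨ k₃ = -1) ∧
      ψ₁ ≠ Helper25.oneIrr G ∧ ψ₂ ≠ Helper25.oneIrr G ∧ ψ₃ ≠ Helper25.oneIrr G ∧
      ψ₁ ≠ ψ₂ ∧ ψ₁ ≠ ψ₃ ∧ ψ₂ ≠ ψ₃ ∧
      (∀ φ : IrrCharacter G, φ ∈ principalBlock M G ↔
        φ = Helper25.oneIrr G ∨ φ = ψ₁ ∨ φ = ψ₂ ∨ φ = ψ₃) ∧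
      (ψ₁ : G → ℂ) J = (k₁ : ℂ) ∧ (ψ₂ : G → ℂ) J = (k₂ : ℂ) ∧ (ψ₃ : G → ℂ) J = (k₃ : ℂ) ∧
      (∀ y : G, ¬ 2 ∣ orderOf y →
        1 + (k₁ : ℂ) * (ψ₁ : G → ℂ) y + (k₂ : ℂ) * (ψ₂ : G → ℂ) y
          + (k₃ : ℂ) * (ψ₃ : G → ℂ) y = 0) ∧
      blockRank 2 (principalBlock M G) = 3 := by
  classical
  haveI : Fact (Nat.Prime 2) := ⟨Nat.prime_two⟩
  have hM := hpM.2.1.isPrime
  haveI : Fintype (Subgroup.centralizer ({J} : Set G)) := Fintype.ofFinite _
  have := Helper24.finite_irrCharacter (G := Subgroup.centralizer ({J} : Set G))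
  haveI : Fintype (IrrCharacter (Subgroup.centralizer ({J} : Set G))) := Fintype.ofFinite _
  have hJ1 : J ≠ 1 := by
    rintro rfl
    rw [orderOf_one] at hJ
    omega
  have hJJ : J * J = 1 := by
    have h := pow_orderOf_eq_one J
    rw [hJ, pow_two] at h
    exact h
  have hJpow : ∃ k : ℕ, orderOf J = 2 ^ k := ⟨1, by rw [hJ, pow_one]⟩
  have hB₀ : IsPBlock M (principalBlock M G) := ⟨Helper25.oneIrr G, rfl⟩
  obtain ⟨ψ₁, ψ₂, ψ₃, hψ₁, hψ₂, hψ₃, h12, h13, h23, hBiff⟩ := d2_principal (K := G) hpM ha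
  have hJC : J ∈ Subgroup.centralizer ({J} : Set G) := by
    rw [Subgroup.mem_centralizer_iff]
    intro h hh
    rw [Set.mem_singleton_iff.1 hh]
  obtain ⟨Jc, hJc⟩ : ∃ Jc : Subgroup.centralizer ({J} : Set G), (Jc : G) = J :=
    ⟨⟨J, hJC⟩, rfl⟩
  have hJc2 : orderOf Jc = 2 := by
    rw [← Subgroup.orderOf_coe, hJc]
    exact hJ
  have hJcc : Jc ∈ Subgroup.center (Subgroup.centralizer ({J} : Set G)) := by
    rw [Subgroup.mem_center_iff]
    intro c
    apply Subtype.ext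
    show (c : G) * (Jc : G) = (Jc : G) * (c : G)
    rw [hJc]
    exact (Subgroup.mem_centralizer_iff.1 c.2 J (Set.mem_singleton J)).symm
  obtain ⟨⟨θ₁, θ₂, θ₃, hθ₁, hθ₂, hθ₃, hθ12, hθ13, hθ23, hbiff⟩, hθone, hCR⟩ :=
    d2_central hpM Jc hJc2 hJcc haC
  have hA : ∀ ψ : IrrCharacter (Subgroup.centralizer ({J} : Set G)),
      ψ ∈ principalBlock M (Subgroup.centralizer ({J} : Set G)) ↔
      IsInducedBlock M (Subgroup.centralizer ({J} : Set G))
        (blockOf M (ψ : Subgroup.centralizer ({J} : Set G) → ℂ)) (principalBlock M G) := by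
    intro ψ
    have hdef := Helper25.inducedBlockDefined_centralizer_elt hpM J hJpow
      (blockOf M (ψ : Subgroup.centralizer ({J} : Set G) → ℂ)) ⟨ψ, rfl⟩
    rw [Cfsg.Agent.S0936.result 2 M hpM (Subgroup.centralizer ({J} : Set G)) _ hdef]
    constructor
    · intro hψ
      exact (Helper25.blockOf_eq_of_mem hM hψ).symm
    · intro h
      rw [← h]
      exact Helper25.mem_blockOf_self hM.ne_top ψ
  have hnorm : ∀ y : Subgroup.centralizer ({J} : Set G), ¬ 2 ∣ orderOf y →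
      ∑ χ : IrrCharacter G, (if χ ∈ principalBlock M G then
        (χ : G → ℂ) (J * (y : G)) * conj ((χ : G → ℂ) (J * (y : G))) else 0) = 4 := by
    intro y hy
    have h := Helper25.section_norm_formula hpM J hJpow (principalBlock M G) hB₀
      (principalBlock M (Subgroup.centralizer ({J} : Set G))) hA y hy
    rw [Helper25.finsum_mem_eq_sum_ite, Helper25.finsum_mem_eq_sum_ite] at h
    rw [h, d2_sum4 _ (Helper25.oneIrr _) θ₁ θ₂ θ₃ hθ₁.symm hθ₂.symm hθ₃.symm hθ12 hθ13 hθ23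
      hbiff]
    rw [hθone _ ((hbiff _).2 (Or.inl rfl)) y hy,
      hθone θ₁ ((hbiff _).2 (Or.inr (Or.inl rfl))) y hy,
      hθone θ₂ ((hbiff _).2 (Or.inr (Or.inr (Or.inl rfl)))) y hy,
      hθone θ₃ ((hbiff _).2 (Or.inr (Or.inr (Or.inr rfl)))) y hy]
    norm_num
  have h1C : ¬ 2 ∣ orderOf (1 : Subgroup.centralizer ({J} : Set G)) := by
    rw [orderOf_one]
    norm_num
  have hn1 := hnorm 1 h1C
  rw [Subgroup.coe_one, mul_one, d2_sum4 _ (Helper25.oneIrr G) ψ₁ ψ₂ ψ₃ hψ₁.symm hψ₂.symm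
    hψ₃.symm h12 h13 h23 hBiff] at hn1
  obtain ⟨k₁, hk₁⟩ := char_involution_int (Helper24.isCharacter_of_irr ψ₁.2) J hJJ
  obtain ⟨k₂, hk₂⟩ := char_involution_int (Helper24.isCharacter_of_irr ψ₂.2) J hJJ
  obtain ⟨k₃, hk₃⟩ := char_involution_int (Helper24.isCharacter_of_irr ψ₃.2) J hJJ
  rw [hk₁, hk₂, hk₃, Helper25.oneIrr_apply] at hn1
  simp only [map_intCast, map_one] at hn1
  have hksum : k₁ * k₁ + k₂ * k₂ + k₃ * k₃ = 3 := by
    have h : ((k₁ * k₁ + k₂ * k₂ + k₃ * k₃ : ℤ) : ℂ) = ((3 : ℤ) : ℂ) := by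
      push_cast
      linear_combination hn1
    exact_mod_cast h
  have hkpm : (k₁ = 1 ∨ k₁ = -1) ∧ (k₂ = 1 ∨ k₂ = -1) ∧ (k₃ = 1 ∨ k₃ = -1) := by
    have l1 : -1 ≤ k₁ := by nlinarith [mul_self_nonneg k₂, mul_self_nonneg k₃]
    have u1 : k₁ ≤ 1 := by nlinarith [mul_self_nonneg k₂, mul_self_nonneg k₃]
    have l2 : -1 ≤ k₂ := by nlinarith [mul_self_nonneg k₁, mul_self_nonneg k₃]
    have u2 : k₂ ≤ 1 := by nlinarith [mul_self_nonneg k₁, mul_self_nonneg k₃]
    have l3 : -1 ≤ k₃ := by nlinarith [mul_self_nonneg k₁, mul_self_nonneg k₂]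
    have u3 : k₃ ≤ 1 := by nlinarith [mul_self_nonneg k₁, mul_self_nonneg k₂]
    interval_cases k₁ <;> interval_cases k₂ <;> interval_cases k₃ <;> simp_all
  have horth : ∀ y : G, ¬ 2 ∣ orderOf y →
      1 + (k₁ : ℂ) * (ψ₁ : G → ℂ) y + (k₂ : ℂ) * (ψ₂ : G → ℂ) y
        + (k₃ : ℂ) * (ψ₃ : G → ℂ) y = 0 := by
    intro y hy
    have hPJ : IsPPart 2 J J :=
      ⟨1, mul_one J, Commute.one_right J, hJpow, by rw [orderOf_one]; norm_num⟩
    have hPy : IsPPart 2 y⁻¹ 1 :=
      ⟨y⁻¹, one_mul _, Commute.one_left _, ⟨0, by rw [orderOf_one, pow_zero]⟩,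
        by rw [orderOf_inv]; exact hy⟩
    have hnc : ¬ IsConj J 1 := fun h => hJ1 (isConj_one_left.1 h)
    have h := (Cfsg.Agent.S0925.result 2 M hpM).2 J y⁻¹ J 1 hPJ hPy hnc (principalBlock M G) hB₀
    rw [inv_inv, Helper25.finsum_mem_eq_sum_ite, d2_sum4 _ (Helper25.oneIrr G) ψ₁ ψ₂ ψ₃
      hψ₁.symm hψ₂.symm hψ₃.symm h12 h13 h23 hBiff] at h
    rw [hk₁, hk₂, hk₃, Helper25.oneIrr_apply, Helper25.oneIrr_apply] at h
    linear_combination h
  have hrank : blockRank 2 (principalBlock M G) = 3 := by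
    have htr := Helper25.blockRank_trace (p := 2) hpM hB₀
    obtain ⟨F, hFdef⟩ : ∃ F : G → ℂ, F = fun g => ∑ χ : IrrCharacter G,
        (if χ ∈ principalBlock M G then (χ : G → ℂ) g * conj ((χ : G → ℂ) g) else 0) :=
      ⟨_, rfl⟩
    have hF' : ∀ g : G, F g = ∑ χ : IrrCharacter G,
        (if χ ∈ principalBlock M G then (χ : G → ℂ) g * conj ((χ : G → ℂ) g) else 0) :=
      fun g => by rw [hFdef]
    have hFcl : IsClassFunction G F := by
      intro g h
      rw [hF', hF']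
      refine Finset.sum_congr rfl fun χ _ => ?_
      rw [Helper2.IsIrrCharacter.isClassFunction χ.2 g h]
    have hvan : ∀ g z : G, IsPPart 2 g z → z ≠ 1 → ¬ IsConj z J → F g = 0 := by
      intro g z hgz hz1 hzc
      obtain ⟨y, -, -, hzp, -⟩ := hgz
      exact absurd (hsec z hzp hz1) hzc
    have hsec' := d1_section (p := 2) F hFcl J hJpow hJ1 hvan
    have hL : ∑ g : G, F g = 4 * (Nat.card G : ℂ) := by
      simp only [hF']
      rw [Finset.sum_comm]
      have h1 : ∀ χ : IrrCharacter G, ∑ g : G, (if χ ∈ principalBlock M G then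
          (χ : G → ℂ) g * conj ((χ : G → ℂ) g) else 0)
          = if χ ∈ principalBlock M G then (Nat.card G : ℂ) else 0 := by
        intro χ
        by_cases h : χ ∈ principalBlock M G
        · simp only [if_pos h]
          have h2 := Helper25.row_orth χ χ
          rw [if_pos rfl] at h2
          exact h2
        · simp only [if_neg h]
          exact Finset.sum_const_zero
      rw [Finset.sum_congr rfl (fun χ _ => h1 χ), d2_sum4 _ (Helper25.oneIrr G) ψ₁ ψ₂ ψ₃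
        hψ₁.symm hψ₂.symm hψ₃.symm h12 h13 h23 hBiff]
      ring
    have hmid : ∑ g : G, (if 2 ∣ orderOf g then 0 else F g)
        = (Nat.card G : ℂ) * (blockRank 2 (principalBlock M G) : ℂ) := by
      rw [htr]
      refine Finset.sum_congr rfl fun x _ => ?_
      by_cases hx : 2 ∣ orderOf x
      · rw [if_pos hx]
        symm
        apply Finset.sum_eq_zero
        intro χ _
        rw [Helper25.pRegularPart_sing _ hx, zero_mul, ite_self]
      · rw [if_neg hx, hF']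
        refine Finset.sum_congr rfl fun χ _ => ?_
        rw [Helper25.pRegularPart_reg _ hx, Helper24.char_inv (Helper24.isCharacter_of_irr χ.2)]
    have hlast : ∑ y : Subgroup.centralizer ({J} : Set G),
        (if 2 ∣ orderOf y then 0 else F (J * (y : G)))
        = (Nat.card (Subgroup.centralizer ({J} : Set G)) : ℂ) := by
      rw [← hCR, Finset.mul_sum]
      refine Finset.sum_congr rfl fun y _ => ?_
      by_cases hy : 2 ∣ orderOf y
      · rw [if_pos hy, if_pos hy, mul_zero]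
      · rw [if_neg hy, if_neg hy, hF', hnorm y hy, mul_one]
    have hidx : ((Subgroup.centralizer ({J} : Set G)).index : ℂ)
        * (Nat.card (Subgroup.centralizer ({J} : Set G)) : ℂ) = (Nat.card G : ℂ) := by
      rw [← Nat.cast_mul, Subgroup.index_mul_card]
    rw [hL, hmid, hlast, hidx] at hsec'
    have hG0 : (Nat.card G : ℂ) ≠ 0 := Nat.cast_ne_zero.2 Nat.card_pos.ne'
    have h3 : (blockRank 2 (principalBlock M G) : ℂ) = 3 := by
      have h4 : (Nat.card G : ℂ) * (blockRank 2 (principalBlock M G) : ℂ)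
          = (Nat.card G : ℂ) * 3 := by linear_combination -hsec'
      exact mul_left_cancel₀ hG0 h4
    exact_mod_cast h3
  exact ⟨ψ₁, ψ₂, ψ₃, k₁, k₂, k₃, hkpm.1, hkpm.2.1, hkpm.2.2, hψ₁, hψ₂, hψ₃, h12, h13, h23,
    hBiff, hk₁, hk₂, hk₃, horth, hrank⟩

/-- Setup from a Sylow `2`-subgroup of order four and exponent two with one class of
involutions. -/
theorem kf_setup (P : Sylow 2 G) (hP4 : Nat.card P = 4) (hexp : ∀ x : P, x * x = 1)
    (hone : ∀ s t : G, orderOf s = 2 → orderOf t = 2 → IsConj s t) :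
    ∃ J : G, J ∈ (P : Subgroup G) ∧ orderOf J = 2 ∧ (Nat.card G).factorization 2 = 2 ∧
      (Nat.card (Subgroup.centralizer ({J} : Set G))).factorization 2 = 2 ∧
      (∀ z : G, (∃ k : ℕ, orderOf z = 2 ^ k) → z ≠ 1 → IsConj z J) := by
  classical
  haveI : Fact (Nat.Prime 2) := ⟨Nat.prime_two⟩
  have ha : (Nat.card G).factorization 2 = 2 := by
    have h := Sylow.card_eq_multiplicity P
    rw [hP4] at h
    have h2 : 2 ^ 2 = 2 ^ (Nat.card G).factorization 2 := by
      rw [← h]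
      norm_num
    exact (Nat.pow_right_injective (le_refl 2) h2).symm
  obtain ⟨x, hx⟩ : ∃ x : P, x ≠ 1 := by
    haveI : Nontrivial P := by
      rw [← Finite.one_lt_card_iff_nontrivial, hP4]
      norm_num
    exact exists_ne 1
  have hxx : (x : G) * (x : G) = 1 := congrArg Subtype.val (hexp x)
  have hxo : orderOf (x : G) = 2 := by
    apply orderOf_eq_prime
    · rw [pow_two]
      exact hxx
    · intro h
      apply hx
      exact Subtype.ext h
  refine ⟨(x : G), x.2, hxo, ha, ?_, ?_⟩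
  · have hPC : (P : Subgroup G) ≤ Subgroup.centralizer ({(x : G)} : Set G) := by
      intro y hy
      rw [Subgroup.mem_centralizer_iff]
      intro h hh
      rw [Set.mem_singleton_iff.1 hh]
      have h1 : ((x : G) * y) * ((x : G) * y) = 1 := congrArg Subtype.val (hexp (x * ⟨y, hy⟩))
      have h3 : y * y = 1 := congrArg Subtype.val (hexp ⟨y, hy⟩)
      symm
      calc y * (x : G) = ((x : G) * (x : G)) * (y * (x : G)) * (y * y) := by
            rw [hxx, h3, one_mul, mul_one]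
        _ = (x : G) * (((x : G) * y) * ((x : G) * y)) * y := by group
        _ = (x : G) * y := by rw [h1, mul_one]
    have hdvd : Nat.card P ∣ Nat.card (Subgroup.centralizer ({(x : G)} : Set G)) :=
      Subgroup.card_dvd_of_le hPC
    have h1 : 2 ≤ (Nat.card (Subgroup.centralizer ({(x : G)} : Set G))).factorization 2 := by
      apply (Nat.Prime.pow_dvd_iff_le_factorization Nat.prime_two Nat.card_pos.ne').1
      have h4 : Nat.card P = 2 ^ 2 := by
        rw [hP4]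
        norm_num
      rw [← h4]
      exact hdvd
    have h2 : (Nat.card (Subgroup.centralizer ({(x : G)} : Set G))).factorization 2
        ≤ (Nat.card G).factorization 2 :=
      (Nat.factorization_le_iff_dvd Nat.card_pos.ne' Nat.card_pos.ne').2
        (Subgroup.card_subgroup_dvd_card _) 2
    omega
  · rintro z ⟨k, hk⟩ hz1
    apply hone _ _ _ hxo
    have hzp : IsPGroup 2 (Subgroup.zpowers z) :=
      IsPGroup.of_card (n := k) (by rw [Nat.card_zpowers, hk])
    obtain ⟨Q, hQ⟩ := hzp.exists_le_sylow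
    obtain ⟨g, hg⟩ := MulAction.exists_smul_eq G P Q
    have hzQ : z ∈ (Q : Subgroup G) := hQ (Subgroup.mem_zpowers z)
    rw [← hg, Sylow.coe_subgroup_smul, Subgroup.mem_smul_pointwise_iff_exists] at hzQ
    obtain ⟨s, hs, rfl⟩ := hzQ
    have h : s * s = 1 := congrArg Subtype.val (hexp ⟨s, hs⟩)
    apply orderOf_eq_prime
    · rw [pow_two, MulAut.smul_def, ← map_mul, h, map_one]
    · exact hz1

/-- Degrees modulo four from the common value on the involutions. -/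
theorem kf_deg (P : Sylow 2 G) (hP4 : Nat.card P = 4) (hexp : ∀ x : P, x * x = 1)
    (χ : IrrCharacter G) (k : ℤ)
    (hk : ∀ z : G, orderOf z = 2 → (χ : G → ℂ) z = (k : ℂ)) :
    (4 : ℤ) ∣ (charDegree (χ : G → ℂ) : ℤ) - k := by
  classical
  haveI : Fact (Nat.Prime 2) := ⟨Nat.prime_two⟩
  haveI : Fintype (P : Subgroup G) := Fintype.ofFinite _
  obtain ⟨n, hn⟩ := Helper2.classInner_char_nat
    (Helper24.isCharacter_restrict (P : Subgroup G) (Helper24.isCharacter_of_irr χ.2))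
    (Helper2.isCharacter_one (G := (P : Subgroup G)))
  unfold classInner at hn
  beta_reduce at hn
  have hval : ∀ t : (P : Subgroup G), (χ : G → ℂ) (t : G) * conj (1 : ℂ)
      = (k : ℂ) + (if t = 1 then ((charDegree (χ : G → ℂ) : ℂ) - (k : ℂ)) else 0) := by
    intro t
    rw [map_one, mul_one]
    by_cases ht : t = 1
    · rw [if_pos ht, ht, Subgroup.coe_one, Helper25.irr_one_eq_degree χ]
      ring
    · rw [if_neg ht, add_zero]
      apply hk
      apply orderOf_eq_prime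
      · rw [pow_two]
        exact congrArg Subtype.val (hexp t)
      · intro h
        exact ht (Subtype.ext h)
  rw [Finset.sum_congr rfl (fun t _ => hval t), Finset.sum_add_distrib, Finset.sum_const,
    Finset.card_univ, Finset.sum_ite_eq' Finset.univ (1 : (P : Subgroup G)),
    if_pos (Finset.mem_univ _),
    ← Nat.card_eq_fintype_card, hP4] at hn
  have h1 : (((charDegree (χ : G → ℂ) : ℤ) - k : ℤ) : ℂ) = ((4 * ((n : ℤ) - k) : ℤ) : ℂ) := by
    push_cast
    rw [← hn]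
    simp only [nsmul_eq_mul]
    push_cast
    ring
  have h2 : (charDegree (χ : G → ℂ) : ℤ) - k = 4 * ((n : ℤ) - k) := by exact_mod_cast h1
  exact ⟨_, h2⟩

end KleinFour

end Cfsg.Agent.Helper6
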