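import Mathlib

set_option autoImplicit false

namespace Cfsg.Agent.Helper6.AugNil

open MonoidAlgebra

variable {G : Type*} [Group G] (p : ℕ) [Fact p.Prime] (P : Subgroup G)

/-- The left ideal of elements that `P` fixes modulo `I`. -/
def nextIdeal [hPn : P.Normal] (I : Ideal (MonoidAlgebra (ZMod p) G)) :
    Ideal (MonoidAlgebra (ZMod p) G) where
  carrier := {v | ∀ u ∈ P, (of (ZMod p) G u - 1) * v ∈ I}
  zero_mem' := by
    intro u _
    simp
  add_mem' := by
    intro a b ha hb u hu
    rw [mul_add]
    exact I.add_mem (ha u hu) (hb u hu)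
  smul_mem' := by
    intro c v hv u hu
    show (of (ZMod p) G u - 1) * (c • v) ∈ I
    rw [smul_eq_mul]
    induction c using MonoidAlgebra.induction_linear with
    | zero => simp
    | add x y hx hy =>
      rw [add_mul, mul_add]
      exact I.add_mem hx hy
    | single g r =>
      have hconj : g⁻¹ * u * g ∈ P := by
        have := hPn.conj_mem u hu g⁻¹
        rwa [inv_inv] at this
      have e : (of (ZMod p) G u - 1) * (single g r * v)
          = single g r * ((of (ZMod p) G (g⁻¹ * u * g) - 1) * v) := by
        simp only [of_apply, sub_mul, mul_sub, one_mul, ← mul_assoc, single_mul_single, mul_one]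
        congr 3
        group
      rw [e]
      exact I.mul_mem_left _ (hv _ hconj)

theorem mem_nextIdeal [hPn : P.Normal] (I : Ideal (MonoidAlgebra (ZMod p) G))
    (v : MonoidAlgebra (ZMod p) G) :
    v ∈ nextIdeal p P I ↔ ∀ u ∈ P, (of (ZMod p) G u - 1) * v ∈ I := Iff.rfl

/-- Elements of the kernel of `F_p[G] → F_p[G/P]`, for a normal `p`-subgroup `P`, are nilpotent. -/
theorem isNilpotent_of_mapDomain_eq_zero [Finite G] [hPn : P.Normal] (hP : IsPGroup p P)
    (z : MonoidAlgebra (ZMod p) G)
    (hz : MonoidAlgebra.mapDomain (QuotientGroup.mk : G → G ⧸ P) z = 0) : IsNilpotent z := by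
  classical
  haveI : Finite (MonoidAlgebra (ZMod p) G) :=
    Finite.of_equiv (G → ZMod p)
      ((Finsupp.equivFunOnFinite (α := G) (M := ZMod p)).symm.trans MonoidAlgebra.coeffEquiv.symm)
  have hcardA : Nat.card (MonoidAlgebra (ZMod p) G) = p ^ Nat.card G := by
    rw [Nat.card_congr (MonoidAlgebra.coeffEquiv.trans
      (Finsupp.equivFunOnFinite (α := G) (M := ZMod p))), Nat.card_fun, Nat.card_zmod]
  obtain ⟨V, hV⟩ : ∃ V : ℕ → Ideal (MonoidAlgebra (ZMod p) G),
      V = fun i => (nextIdeal p P)^[i] ⊥ := ⟨_, rfl⟩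
  have hV0 : V 0 = ⊥ := by rw [hV]; rfl
  have hVsucc : ∀ i, V (i + 1) = nextIdeal p P (V i) := by
    intro i
    rw [hV]
    exact Function.iterate_succ_apply' _ _ _
  -- kernel step
  have hstep : ∀ i, ∀ v ∈ V (i + 1), z * v ∈ V i := by
    intro i v hv
    rw [hVsucc] at hv
    have hmem : ∀ g : G, of (ZMod p) G g * v ∈ nextIdeal p P (V i) :=
      fun g => (nextIdeal p P (V i)).mul_mem_left _ hv
    have key : ∀ x : MonoidAlgebra (ZMod p) G,
        x * v - (mapDomain (Quotient.out : G ⧸ P → G)
          (mapDomain (QuotientGroup.mk : G → G ⧸ P) x)) * v ∈ V i := by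
      intro x
      induction x using MonoidAlgebra.induction_linear with
      | zero => simp
      | add x y hx hy =>
        rw [mapDomain_add, mapDomain_add, add_mul, add_mul, add_sub_add_comm]
        exact (V i).add_mem hx hy
      | single g r =>
        rw [mapDomain_single, mapDomain_single]
        obtain ⟨g', hg'⟩ : ∃ g' : G, g' = (Quotient.out (QuotientGroup.mk g : G ⧸ P) : G) :=
          ⟨_, rfl⟩
        rw [← hg']
        have hc : g * g'⁻¹ ∈ P := by
          have h1 : (QuotientGroup.mk g' : G ⧸ P) = QuotientGroup.mk g := by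
            rw [hg']; exact QuotientGroup.out_eq' _
          have h2 : g'⁻¹ * g ∈ P := QuotientGroup.eq.mp h1
          have h3 := hPn.conj_mem _ h2 g'
          have e : g' * (g'⁻¹ * g) * g'⁻¹ = g * g'⁻¹ := by group
          rwa [e] at h3
        have e : single g r * v - single g' r * v
            = single 1 r * ((of (ZMod p) G (g * g'⁻¹) - 1) * (of (ZMod p) G g' * v)) := by
          simp only [of_apply, sub_mul, mul_sub, one_mul, ← mul_assoc, single_mul_single,
            mul_one]
          simp
        rw [e]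
        exact (V i).mul_mem_left _ (hmem g' _ hc)
    have := key z
    rw [hz, mapDomain_zero, zero_mul, sub_zero] at this
    exact this
  -- growth
  have hgrow : ∀ i, V i ≠ ⊤ → V i < V (i + 1) := by
    intro i hi
    have hle : V i ≤ V (i + 1) := by
      rw [hVsucc]
      intro v hv u hu
      exact (V i).mul_mem_left _ hv
    refine lt_of_le_of_ne hle ?_
    intro heq
    haveI : Nontrivial (MonoidAlgebra (ZMod p) G ⧸ V i) :=
      Submodule.Quotient.nontrivial_iff.mpr hi
    haveI : Finite (MonoidAlgebra (ZMod p) G ⧸ V i) :=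
      Finite.of_surjective _ (Submodule.Quotient.mk_surjective (V i))
    letI : MulAction P (MonoidAlgebra (ZMod p) G ⧸ V i) :=
      MulAction.compHom _ ((of (ZMod p) G).comp P.subtype)
    have hsm : ∀ (u : P) (v : MonoidAlgebra (ZMod p) G),
        u • (Submodule.Quotient.mk v : MonoidAlgebra (ZMod p) G ⧸ V i)
          = Submodule.Quotient.mk (of (ZMod p) G (u : G) * v) := fun u v => rfl
    have hmod := hP.card_modEq_card_fixedPoints (MonoidAlgebra (ZMod p) G ⧸ V i)
    have hpM : p ∣ Nat.card (MonoidAlgebra (ZMod p) G ⧸ V i) := by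
      have h1 := Submodule.card_eq_card_quotient_mul_card (V i)
      rw [hcardA] at h1
      have h2 : Nat.card (MonoidAlgebra (ZMod p) G ⧸ V i) ∣ p ^ Nat.card G :=
        Dvd.intro_left _ h1.symm
      obtain ⟨k, -, hk⟩ := (Nat.dvd_prime_pow (Fact.out : p.Prime)).mp h2
      have h3 : 1 < Nat.card (MonoidAlgebra (ZMod p) G ⧸ V i) := Finite.one_lt_card
      rw [hk] at h3 ⊢
      have hk0 : k ≠ 0 := by
        rintro rfl
        simp at h3
      exact dvd_pow_self p hk0
    have hex : ∃ m : MonoidAlgebra (ZMod p) G ⧸ V i, m ≠ 0 ∧ ∀ u : P, u • m = m := by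
      by_contra hcon
      push Not at hcon
      have hfp : MulAction.fixedPoints P (MonoidAlgebra (ZMod p) G ⧸ V i) = {0} := by
        ext m
        simp only [MulAction.mem_fixedPoints, Set.mem_singleton_iff]
        constructor
        · intro hm
          by_contra hm0
          obtain ⟨u, hu⟩ := hcon m hm0
          exact hu (hm u)
        · rintro rfl u
          have := hsm u 0
          rw [mul_zero] at this
          exact this
      rw [hfp] at hmod
      have h1 : Nat.card ↥({0} : Set (MonoidAlgebra (ZMod p) G ⧸ V i)) = 1 := by simp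
      rw [h1] at hmod
      have h2 : p ∣ 1 := by
        have := (Nat.modEq_iff_dvd' (Nat.one_le_iff_ne_zero.mpr Nat.card_pos.ne')).mp hmod.symm
        have h3 := (Nat.dvd_sub_iff_right (Nat.one_le_iff_ne_zero.mpr Nat.card_pos.ne') hpM).mp
        exact (Nat.dvd_sub_iff_right (Nat.one_le_iff_ne_zero.mpr Nat.card_pos.ne') hpM).mp this
      exact (Fact.out : p.Prime).one_lt.ne' (Nat.dvd_one.mp h2)
    obtain ⟨m, hm0, hmfix⟩ := hex
    obtain ⟨v, rfl⟩ := Submodule.Quotient.mk_surjective _ m
    have hv : v ∉ V i := fun h => hm0 ((Submodule.Quotient.mk_eq_zero _).mpr h)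
    apply hv
    have hv' : v ∈ nextIdeal p P (V i) := by
      intro u hu
      have := hmfix ⟨u, hu⟩
      rw [hsm] at this
      rw [sub_mul, one_mul]
      exact (Submodule.Quotient.eq _).mp this
    rw [← hVsucc, ← heq] at hv'
    exact hv'
  -- reach the top
  obtain ⟨n, hn⟩ : ∃ n, V n = ⊤ := by
    by_contra hne
    push Not at hne
    have hmono : StrictMono V := strictMono_nat_of_lt_succ (fun i => hgrow i (hne i))
    haveI : Finite (Ideal (MonoidAlgebra (ZMod p) G)) :=
      Finite.of_injective (fun I : Ideal (MonoidAlgebra (ZMod p) G) =>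
        (I : Set (MonoidAlgebra (ZMod p) G))) SetLike.coe_injective
    exact not_injective_infinite_finite V hmono.injective
  have hpow : ∀ i, ∀ v ∈ V i, z ^ i * v = 0 := by
    intro i
    induction i with
    | zero =>
      intro v hv
      rw [hV0, Submodule.mem_bot] at hv
      rw [hv, mul_zero]
    | succ i ih =>
      intro v hv
      rw [pow_succ, mul_assoc]
      exact ih _ (hstep i v hv)
  refine ⟨n, ?_⟩
  have := hpow n 1 (by rw [hn]; trivial)
  rwa [mul_one] at this

end Cfsg.Agent.Helper6.AugNil
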