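import Cfsg.Agent.Helper25.BlockQuot
import Cfsg.Agent.Helper25.BlockCover
import Cfsg.Agent.Helper11.TI2
import Cfsg.Agent.Helper16.FrattiniResidual

set_option autoImplicit false

namespace Cfsg.Agent.Helper6.BlockDer

open Cfsg

/-- A `p`-regular element acting trivially on the abelianization of a normal `p`-subgroup
centralizes it. -/
theorem centralizes_of_trivial_on_abelianization {X : Type*} [Group X] [Finite X] {p : ℕ}
    [hp : Fact p.Prime] (Q : Subgroup X) [hQn : Q.Normal] (hQp : IsPGroup p ↥Q) (k : X)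
    (hcop : ¬ p ∣ orderOf k) (hK : ∀ q ∈ Q, q⁻¹ * k * q * k⁻¹ ∈ ⁅Q, Q⁆) :
    ∀ q ∈ Q, q * k = k * q := by
  haveI : Group.IsNilpotent ↥Q := hQp.isNilpotent
  have hΦn : ((frattini ↥Q).map Q.subtype).Normal := inferInstance
  have hcomm_le : ⁅Q, Q⁆ ≤ (frattini ↥Q).map Q.subtype := by
    rw [← Subgroup.map_subtype_commutator]
    exact Subgroup.map_mono Cfsg.Agent.Helper16.commutator_le_frattini_of_nilpotent
  have hzK : Subgroup.zpowers k ≤ Cfsg.Agent.Helper11.stabSub Q ((frattini ↥Q).map Q.subtype)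
      hQn hΦn := by
    rw [Subgroup.zpowers_le]
    intro q hq
    exact hcomm_le (hK q hq)
  have hAK : Subgroup.zpowers k ≤ Subgroup.normalizer (Q : Set X) := by
    intro a _
    rw [Subgroup.mem_normalizer_iff]
    intro y
    constructor
    · intro hy
      exact hQn.conj_mem y hy a
    · intro hy
      have := hQn.conj_mem _ hy a⁻¹
      simpa [mul_assoc] using this
  have hAD : Subgroup.zpowers k ≤
      Subgroup.normalizer (((frattini ↥Q).map Q.subtype : Subgroup X) : Set X) := by
    intro a _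
    rw [Subgroup.mem_normalizer_iff]
    intro y
    constructor
    · intro hy
      exact hΦn.conj_mem y hy a
    · intro hy
      have := hΦn.conj_mem _ hy a⁻¹
      simpa [mul_assoc] using this
  have hDK : (frattini ↥Q).map Q.subtype ≤ Q := Subgroup.map_subtype_le _
  have hcard : (Nat.card ↥(Subgroup.zpowers k)).Coprime (Nat.card ↥Q) := by
    obtain ⟨n, hn⟩ := IsPGroup.iff_card.mp hQp
    rw [Nat.card_zpowers, hn]
    exact Nat.Coprime.pow_right n ((Nat.Prime.coprime_iff_not_dvd hp.out).2 hcop).symm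
  have htop : (Subgroup.centralizer (Subgroup.zpowers k : Set X)).subgroupOf Q = ⊤ := by
    apply frattini_nongenerating
    rw [eq_top_iff]
    intro q _
    obtain ⟨d, hd, hqd⟩ := Cfsg.Agent.Helper1.coprime_coset_fixed (Subgroup.zpowers k) Q
      ((frattini ↥Q).map Q.subtype) hAK hAD hDK hcard (Or.inr inferInstance) (q : X) q.2
      (fun a ha => hzK ha q q.2)
    obtain ⟨d', hd', rfl⟩ := Subgroup.mem_map.mp hd
    have e : (q * d') * d'⁻¹ = q := by group
    rw [← e]
    refine Subgroup.mul_mem_sup ?_ (Subgroup.inv_mem _ hd')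
    rw [Subgroup.mem_subgroupOf]
    exact hqd
  intro q hq
  have hmem : (⟨q, hq⟩ : ↥Q) ∈
      (Subgroup.centralizer (Subgroup.zpowers k : Set X)).subgroupOf Q := by
    rw [htop]
    exact Subgroup.mem_top _
  rw [Subgroup.mem_subgroupOf, Subgroup.mem_centralizer_iff] at hmem
  exact (hmem k (Subgroup.mem_zpowers k)).symm

end Cfsg.Agent.Helper6.BlockDer
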