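import Cfsg.Agent.Helper6.HeightBound
import Cfsg.Agent.Helper25.HeightZero2
import Cfsg.Agent.Helper25.HeightZero

set_option autoImplicit false
set_option linter.unusedSectionVars false

/-!
# The Brauer–Feit bound (helper6)
-/

namespace Cfsg.Agent.Helper6

open Cfsg
open scoped ComplexConjugate

section BrauerFeit

variable {G : Type*} [Group G] [Fintype G] {M : Ideal AlgInt} {p : ℕ} [Fact p.Prime]

theorem bf_tilde_self (χ : IrrCharacter G) :
    classInner (Helper25.tildeFun p (χ : G → ℂ)) (Helper25.tildeFun p (χ : G → ℂ))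
      = ((p ^ (Nat.card G).factorization p : ℕ) : ℂ)
        * classInner (Helper25.tildeFun p (χ : G → ℂ)) (χ : G → ℂ) := by
  classical
  unfold classInner
  rw [mul_left_comm]
  congr 1
  rw [Finset.mul_sum]
  refine Finset.sum_congr rfl fun g _ => ?_
  by_cases hg : p ∣ orderOf g
  · simp only [Helper25.tildeFun, if_pos hg, zero_mul, mul_zero]
  · simp only [Helper25.tildeFun, if_neg hg, map_mul, Complex.conj_natCast]
    ring

theorem bf_main (hpM : IsPModular p M) (B : Set (IrrCharacter G)) (hB : IsPBlock M B) :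
    4 * Nat.card B ≤ p ^ (2 * blockDefect p B) + 4 := by
  classical
  have := Helper24.finite_irrCharacter (G := G)
  haveI : Fintype (IrrCharacter G) := Fintype.ofFinite _
  have hp : p.Prime := Fact.out
  have hM := hpM.2.1.isPrime
  obtain ⟨χ, hχ, h0⟩ := Helper25.exists_height_zero p (Helper25.block_nonempty hM hB)
  obtain ⟨a, ha⟩ : ∃ a, a = (Nat.card G).factorization p := ⟨_, rfl⟩
  obtain ⟨e, he⟩ : ∃ e, e = (charDegree (χ : G → ℂ)).factorization p := ⟨_, rfl⟩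
  have hsInf : sInf ((fun ψ : IrrCharacter G => (charDegree (ψ : G → ℂ)).factorization p) '' B)
      = e := by
    refine le_antisymm (by rw [he]; exact Nat.sInf_le ⟨χ, hχ, rfl⟩) ?_
    unfold blockHeight at h0
    rw [he]
    exact Nat.sub_eq_zero_iff_le.1 h0
  have hea : e ≤ a := by
    rw [he, ha]
    exact (Nat.factorization_le_iff_dvd (Helper25.charDegree_irr_ne_zero χ) Nat.card_pos.ne').2
      (Helper2.irr_degree_dvd_card χ.2) p
  obtain ⟨d, hd⟩ : ∃ d, d = blockDefect p B := ⟨_, rfl⟩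
  have hda : d + e = a := by
    rw [hd]
    unfold blockDefect
    rw [hsInf, ← ha]
    omega
  rw [← hd]
  obtain ⟨n, hn⟩ : ∃ n : IrrCharacter G → ℤ, n = fun ψ : IrrCharacter G =>
      Helper10.irrCoeff (Helper25.tildeFun p (χ : G → ℂ)) (ψ : G → ℂ) := ⟨_, rfl⟩
  have hnspec : ∀ ψ : IrrCharacter G,
      classInner (Helper25.tildeFun p (χ : G → ℂ)) (ψ : G → ℂ) = (n ψ : ℂ) := by
    intro ψ
    rw [hn]
    exact Helper25.tildeFun_inner χ ψ
  have hgen := Helper25.tildeFun_gen (p := p) χ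
  have hpars := Helper10.gen_inner hgen hgen
  rw [bf_tilde_self, Helper25.tildeFun_inner χ χ, ← ha] at hpars
  have hn' : ∀ φ : IrrCharacter G,
      n φ = Helper10.irrCoeff (Helper25.tildeFun p (χ : G → ℂ)) (φ : G → ℂ) := by
    intro φ
    rw [hn]
  have hpars' : ((p : ℤ) ^ a) * n χ = ∑ φ : IrrCharacter G, n φ * n φ := by
    simp only [hn']
    exact_mod_cast hpars
  have hzero : ∀ ψ : IrrCharacter G, ψ ∉ B → n ψ = 0 := by
    intro ψ hψ
    have hns : ¬ SameBlock M (χ : G → ℂ) (ψ : G → ℂ) :=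
      fun hs => hψ (Helper25.mem_block_of_sameBlock hM hB hχ hs)
    have h1 := Helper25.classInner_tildeFun_eq_zero hpM χ ψ hns
    rw [hnspec] at h1
    exact_mod_cast h1
  have hin : ∀ ψ : IrrCharacter G, ψ ∈ B → ∃ m : ℤ, m ≠ 0 ∧ n ψ = (p : ℤ) ^ e * m := by
    intro ψ hψ
    have h1 := hb_tilde_dvd hpM χ ψ (n ψ) (hnspec ψ)
    have h2 : e ≤ (charDegree (ψ : G → ℂ)).factorization p := by
      rw [he]
      exact Helper25.height_zero_le_of_mem χ ψ hψ h0
    obtain ⟨m, hm⟩ := (pow_dvd_pow (p : ℤ) h2).trans h1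
    refine ⟨m, ?_, hm⟩
    rintro rfl
    rw [mul_zero] at hm
    have h3 := Helper25.height_zero_ratio_not_mem hpM hB χ hχ h0 ψ hψ
    apply h3
    rw [hnspec, hm, Int.cast_zero, zero_div]
    exact Helper25.MemLocalIdeal.zero hM.ne_top
  obtain ⟨F, hF⟩ : ∃ F : Finset (IrrCharacter G), F = Finset.univ.filter (· ∈ B) := ⟨_, rfl⟩
  have hcardF : Nat.card B = F.card := by
    rw [hF, Nat.card_eq_fintype_card, Fintype.card_subtype]
  have hχF : χ ∈ F := by
    rw [hF]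
    exact Finset.mem_filter.2 ⟨Finset.mem_univ _, hχ⟩
  have hsumF : ∑ φ : IrrCharacter G, n φ * n φ = ∑ φ ∈ F, n φ * n φ := by
    rw [hF, Finset.sum_filter]
    refine Finset.sum_congr rfl fun φ _ => ?_
    split_ifs with h
    · rfl
    · rw [hzero φ h, mul_zero]
  obtain ⟨m, hm0, hm⟩ := hin χ hχ
  have hP : (0 : ℤ) < (p : ℤ) ^ e := pow_pos (by exact_mod_cast hp.pos) e
  have hPP : (0 : ℤ) < (p : ℤ) ^ e * (p : ℤ) ^ e := mul_pos hP hP
  have hlower : ∑ φ ∈ F.erase χ, ((p : ℤ) ^ e * (p : ℤ) ^ e)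
      ≤ ∑ φ ∈ F.erase χ, n φ * n φ := by
    apply Finset.sum_le_sum
    intro φ hφ
    have hφB : φ ∈ B := by
      have h1 := Finset.mem_of_mem_erase hφ
      rw [hF] at h1
      exact (Finset.mem_filter.1 h1).2
    obtain ⟨m', hm'0, hm'⟩ := hin φ hφB
    rw [hm']
    have h1 : 1 ≤ m' * m' := Int.add_one_le_iff.2 (mul_self_pos.2 hm'0)
    nlinarith
  rw [Finset.sum_const, Finset.card_erase_of_mem hχF, nsmul_eq_mul] at hlower
  have hsplit : ∑ φ ∈ F, n φ * n φ = n χ * n χ + ∑ φ ∈ F.erase χ, n φ * n φ :=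
    (Finset.add_sum_erase F _ hχF).symm
  have hkey : ((F.card - 1 : ℕ) : ℤ) + m * m ≤ (p : ℤ) ^ d * m := by
    have h1 : (p : ℤ) ^ a * n χ = n χ * n χ + ∑ φ ∈ F.erase χ, n φ * n φ := by
      rw [hpars', hsumF, hsplit]
    rw [← hda, pow_add, hm] at h1
    have h3 : (((F.card - 1 : ℕ) : ℤ) + m * m) * ((p : ℤ) ^ e * (p : ℤ) ^ e)
        ≤ ((p : ℤ) ^ d * m) * ((p : ℤ) ^ e * (p : ℤ) ^ e) := by
      have h4 : ((p : ℤ) ^ d * m) * ((p : ℤ) ^ e * (p : ℤ) ^ e)
          = (p : ℤ) ^ d * (p : ℤ) ^ e * ((p : ℤ) ^ e * m) := by ring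
      rw [h4, h1]
      have h5 : (((F.card - 1 : ℕ) : ℤ) + m * m) * ((p : ℤ) ^ e * (p : ℤ) ^ e)
          = (p : ℤ) ^ e * m * ((p : ℤ) ^ e * m)
            + ((F.card - 1 : ℕ) : ℤ) * ((p : ℤ) ^ e * (p : ℤ) ^ e) := by ring
      rw [h5]
      linarith
    exact le_of_mul_le_mul_right h3 hPP
  have hFpos : 1 ≤ F.card := Finset.card_pos.2 ⟨χ, hχF⟩
  have hfinal : (4 * (F.card : ℤ)) ≤ ((p : ℤ) ^ d) ^ 2 + 4 := by
    have h4 : ((F.card - 1 : ℕ) : ℤ) = (F.card : ℤ) - 1 := by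
      rw [Nat.cast_sub hFpos]
      simp
    rw [h4] at hkey
    nlinarith [sq_nonneg ((p : ℤ) ^ d - 2 * m)]
  rw [hcardF]
  have hcast : ((4 * F.card : ℕ) : ℤ) ≤ ((p ^ (2 * d) + 4 : ℕ) : ℤ) := by
    push_cast
    rw [pow_mul']
    exact hfinal
  exact_mod_cast hcast

end BrauerFeit

end Cfsg.Agent.Helper6
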