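import Cfsg.Agent.Helper6.BrauerFeit

set_option autoImplicit false
set_option linter.unusedSectionVars false

/-!
# Weighted Brauer–Feit bounds (helper6)
-/

namespace Cfsg.Agent.Helper6

open Cfsg
open scoped ComplexConjugate

section BrauerFeit2

variable {G : Type*} [Group G] [Fintype G] {M : Ideal AlgInt} {p : ℕ} [Fact p.Prime]

/-- Parseval for the truncation `θ̃`. -/
theorem bf2_parseval [Fintype (IrrCharacter G)] (θ : IrrCharacter G) :
    ((p : ℤ) ^ (Nat.card G).factorization p)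
        * Helper10.irrCoeff (Helper25.tildeFun p (θ : G → ℂ)) (θ : G → ℂ)
      = ∑ φ : IrrCharacter G, Helper10.irrCoeff (Helper25.tildeFun p (θ : G → ℂ)) (φ : G → ℂ)
          * Helper10.irrCoeff (Helper25.tildeFun p (θ : G → ℂ)) (φ : G → ℂ) := by
  have hgen := Helper25.tildeFun_gen (p := p) θ
  have hpars := Helper10.gen_inner hgen hgen
  rw [bf_tilde_self, Helper25.tildeFun_inner θ θ] at hpars
  exact_mod_cast hpars

/-- Basic numerical data of a block: a height-zero character, its degree valuation `e`, and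
`ν(ψ 1) = e + ht ψ`, `d + e = a`. -/
theorem bf2_setup (hpM : IsPModular p M) (B : Set (IrrCharacter G)) (hB : IsPBlock M B) :
    ∃ χ : IrrCharacter G, χ ∈ B ∧ blockHeight p B (χ : G → ℂ) = 0 ∧
      blockDefect p B + (charDegree (χ : G → ℂ)).factorization p
        = (Nat.card G).factorization p ∧
      ∀ ψ : IrrCharacter G, ψ ∈ B → (charDegree (ψ : G → ℂ)).factorization p
        = (charDegree (χ : G → ℂ)).factorization p + blockHeight p B (ψ : G → ℂ) := by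
  have hp : p.Prime := Fact.out
  have hM := hpM.2.1.isPrime
  obtain ⟨χ, hχ, h0⟩ := Helper25.exists_height_zero p (Helper25.block_nonempty hM hB)
  refine ⟨χ, hχ, h0, ?_, ?_⟩
  · have hsInf : sInf ((fun ψ : IrrCharacter G => (charDegree (ψ : G → ℂ)).factorization p) '' B)
        = (charDegree (χ : G → ℂ)).factorization p := by
      refine le_antisymm (Nat.sInf_le ⟨χ, hχ, rfl⟩) ?_
      unfold blockHeight at h0
      exact Nat.sub_eq_zero_iff_le.1 h0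
    have hea : (charDegree (χ : G → ℂ)).factorization p ≤ (Nat.card G).factorization p :=
      (Nat.factorization_le_iff_dvd (Helper25.charDegree_irr_ne_zero χ) Nat.card_pos.ne').2
        (Helper2.irr_degree_dvd_card χ.2) p
    unfold blockDefect
    rw [hsInf]
    omega
  · intro ψ hψ
    have hsInf : sInf ((fun ψ : IrrCharacter G => (charDegree (ψ : G → ℂ)).factorization p) '' B)
        = (charDegree (χ : G → ℂ)).factorization p := by
      refine le_antisymm (Nat.sInf_le ⟨χ, hχ, rfl⟩) ?_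
      unfold blockHeight at h0
      exact Nat.sub_eq_zero_iff_le.1 h0
    have h1 := Helper25.height_zero_le_of_mem χ ψ hψ h0
    unfold blockHeight
    rw [hsInf]
    omega

/-- The weighted Brauer–Feit inequality. -/
theorem bf2_weighted [Fintype (IrrCharacter G)] (hpM : IsPModular p M)
    (B : Set (IrrCharacter G)) [DecidablePred (· ∈ B)] (hB : IsPBlock M B) :
    4 * ∑ ψ ∈ Finset.univ.filter (· ∈ B), p ^ (2 * blockHeight p B (ψ : G → ℂ))
      ≤ p ^ (2 * blockDefect p B) + 4 := by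
  have hp : p.Prime := Fact.out
  have hM := hpM.2.1.isPrime
  obtain ⟨χ, hχ, h0, hda, hval⟩ := bf2_setup hpM B hB
  obtain ⟨a, ha⟩ : ∃ a, a = (Nat.card G).factorization p := ⟨_, rfl⟩
  obtain ⟨e, he⟩ : ∃ e, e = (charDegree (χ : G → ℂ)).factorization p := ⟨_, rfl⟩
  obtain ⟨d, hd⟩ : ∃ d, d = blockDefect p B := ⟨_, rfl⟩
  rw [← ha, ← he, ← hd] at hda
  rw [← hd]
  obtain ⟨ht, hht⟩ : ∃ ht : IrrCharacter G → ℕ,
      ht = fun ψ : IrrCharacter G => blockHeight p B (ψ : G → ℂ) := ⟨_, rfl⟩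
  have hht' : ∀ ψ : IrrCharacter G, blockHeight p B (ψ : G → ℂ) = ht ψ := fun ψ => by rw [hht]
  simp only [hht']
  have h0' : ht χ = 0 := by rw [← hht' χ]; exact h0
  obtain ⟨n, hn⟩ : ∃ n : IrrCharacter G → ℤ, n = fun ψ : IrrCharacter G =>
      Helper10.irrCoeff (Helper25.tildeFun p (χ : G → ℂ)) (ψ : G → ℂ) := ⟨_, rfl⟩
  have hn' : ∀ φ : IrrCharacter G,
      n φ = Helper10.irrCoeff (Helper25.tildeFun p (χ : G → ℂ)) (φ : G → ℂ) := by
    intro φ
    rw [hn]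
  have hnspec : ∀ ψ : IrrCharacter G,
      classInner (Helper25.tildeFun p (χ : G → ℂ)) (ψ : G → ℂ) = (n ψ : ℂ) := by
    intro ψ
    rw [hn' ψ]
    exact Helper25.tildeFun_inner χ ψ
  have hpars : ((p : ℤ) ^ a) * n χ = ∑ φ : IrrCharacter G, n φ * n φ := by
    have h := bf2_parseval (p := p) χ
    rw [← ha] at h
    simp only [hn']
    exact h
  have hzero : ∀ ψ : IrrCharacter G, ψ ∉ B → n ψ = 0 := by
    intro ψ hψ
    have hns : ¬ SameBlock M (χ : G → ℂ) (ψ : G → ℂ) :=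
      fun hs => hψ (Helper25.mem_block_of_sameBlock hM hB hχ hs)
    have h1 := Helper25.classInner_tildeFun_eq_zero hpM χ ψ hns
    rw [hnspec] at h1
    exact_mod_cast h1
  have hin : ∀ ψ : IrrCharacter G, ψ ∈ B →
      ∃ m : ℤ, m ≠ 0 ∧ n ψ = (p : ℤ) ^ e * ((p : ℤ) ^ ht ψ * m) := by
    intro ψ hψ
    have h1 := hb_tilde_dvd hpM χ ψ (n ψ) (hnspec ψ)
    rw [hval ψ hψ, ← he, hht' ψ, pow_add] at h1
    obtain ⟨m, hm⟩ := h1
    refine ⟨m, ?_, by rw [hm, mul_assoc]⟩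
    rintro rfl
    rw [mul_zero] at hm
    have h3 := Helper25.height_zero_ratio_not_mem hpM hB χ hχ h0 ψ hψ
    apply h3
    rw [hnspec, hm, Int.cast_zero, zero_div]
    exact Helper25.MemLocalIdeal.zero hM.ne_top
  obtain ⟨F, hF⟩ : ∃ F : Finset (IrrCharacter G), F = Finset.univ.filter (· ∈ B) := ⟨_, rfl⟩
  rw [← hF]
  have hχF : χ ∈ F := by
    rw [hF]
    exact Finset.mem_filter.2 ⟨Finset.mem_univ _, hχ⟩
  have hsumF : ∑ φ : IrrCharacter G, n φ * n φ = ∑ φ ∈ F, n φ * n φ := by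
    rw [hF, Finset.sum_filter]
    refine Finset.sum_congr rfl fun φ _ => ?_
    split_ifs with h
    · rfl
    · rw [hzero φ h, mul_zero]
  obtain ⟨m, hm0, hm⟩ := hin χ hχ
  rw [h0', pow_zero, one_mul] at hm
  have hP : (0 : ℤ) < (p : ℤ) ^ e := pow_pos (by exact_mod_cast hp.pos) e
  have hPP : (0 : ℤ) < (p : ℤ) ^ e * (p : ℤ) ^ e := mul_pos hP hP
  have hlower : ∑ φ ∈ F.erase χ, ((p : ℤ) ^ e * (p : ℤ) ^ e) * ((p : ℤ) ^ (2 * ht φ))
      ≤ ∑ φ ∈ F.erase χ, n φ * n φ := by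
    apply Finset.sum_le_sum
    intro φ hφ
    have hφB : φ ∈ B := by
      have h1 := Finset.mem_of_mem_erase hφ
      rw [hF] at h1
      exact (Finset.mem_filter.1 h1).2
    obtain ⟨m', hm'0, hm'⟩ := hin φ hφB
    rw [hm']
    have h1 : 1 ≤ m' * m' := Int.add_one_le_iff.2 (mul_self_pos.2 hm'0)
    have h2 : (p : ℤ) ^ e * ((p : ℤ) ^ ht φ * m') * ((p : ℤ) ^ e * ((p : ℤ) ^ ht φ * m'))
        = ((p : ℤ) ^ e * (p : ℤ) ^ e) * ((p : ℤ) ^ (2 * ht φ)) * (m' * m') := by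
      rw [two_mul, pow_add]
      ring
    rw [h2]
    have h3 : 0 ≤ ((p : ℤ) ^ e * (p : ℤ) ^ e) * ((p : ℤ) ^ (2 * ht φ)) := by positivity
    nlinarith
  rw [← Finset.mul_sum] at hlower
  obtain ⟨W', hW'⟩ : ∃ W' : ℤ, W' = ∑ φ ∈ F.erase χ, (p : ℤ) ^ (2 * ht φ) := ⟨_, rfl⟩
  rw [← hW'] at hlower
  have hsplit : ∑ φ ∈ F, n φ * n φ = n χ * n χ + ∑ φ ∈ F.erase χ, n φ * n φ :=
    (Finset.add_sum_erase F _ hχF).symm
  have hkey : W' + m * m ≤ (p : ℤ) ^ d * m := by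
    have h1 : (p : ℤ) ^ a * n χ = n χ * n χ + ∑ φ ∈ F.erase χ, n φ * n φ := by
      rw [hpars, hsumF, hsplit]
    rw [← hda, pow_add, hm] at h1
    have h3 : (W' + m * m) * ((p : ℤ) ^ e * (p : ℤ) ^ e)
        ≤ ((p : ℤ) ^ d * m) * ((p : ℤ) ^ e * (p : ℤ) ^ e) := by
      have h4 : ((p : ℤ) ^ d * m) * ((p : ℤ) ^ e * (p : ℤ) ^ e)
          = (p : ℤ) ^ d * (p : ℤ) ^ e * ((p : ℤ) ^ e * m) := by ring
      rw [h4, h1]
      have h5 : (W' + m * m) * ((p : ℤ) ^ e * (p : ℤ) ^ e)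
          = (p : ℤ) ^ e * m * ((p : ℤ) ^ e * m) + ((p : ℤ) ^ e * (p : ℤ) ^ e) * W' := by ring
      rw [h5]
      linarith
    exact le_of_mul_le_mul_right h3 hPP
  have hfinal : 4 * (W' + 1) ≤ ((p : ℤ) ^ d) ^ 2 + 4 := by
    nlinarith [sq_nonneg ((p : ℤ) ^ d - 2 * m)]
  have hsumW : ((∑ ψ ∈ F, p ^ (2 * ht ψ) : ℕ) : ℤ) = W' + 1 := by
    rw [← Finset.add_sum_erase F _ hχF, h0', hW']
    push_cast
    ring
  have hcast : ((4 * ∑ ψ ∈ F, p ^ (2 * ht ψ) : ℕ) : ℤ) ≤ ((p ^ (2 * d) + 4 : ℕ) : ℤ) := by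
    rw [Nat.cast_mul, hsumW]
    push_cast
    rw [pow_mul']
    exact hfinal
  exact_mod_cast hcast

/-- If the block has a character of positive height, then it has few height-zero characters. -/
theorem bf2_k0 [Fintype (IrrCharacter G)] (hpM : IsPModular p M)
    (B : Set (IrrCharacter G)) [DecidablePred (· ∈ B)] (hB : IsPBlock M B)
    (ψ : IrrCharacter G) (hψ : ψ ∈ B) (hpos : 0 < blockHeight p B (ψ : G → ℂ)) :
    1 ≤ blockDefect p B ∧
      4 * (Finset.univ.filter (fun ξ : IrrCharacter G =>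
          ξ ∈ B ∧ blockHeight p B (ξ : G → ℂ) = 0)).card
        ≤ p ^ (2 * blockDefect p B - 2) := by
  classical
  have hp : p.Prime := Fact.out
  have hM := hpM.2.1.isPrime
  obtain ⟨χ, hχ, h0, hda, hval⟩ := bf2_setup hpM B hB
  obtain ⟨a, ha⟩ : ∃ a, a = (Nat.card G).factorization p := ⟨_, rfl⟩
  obtain ⟨e, he⟩ : ∃ e, e = (charDegree (χ : G → ℂ)).factorization p := ⟨_, rfl⟩
  obtain ⟨d, hd⟩ : ∃ d, d = blockDefect p B := ⟨_, rfl⟩
  obtain ⟨h, hh⟩ : ∃ h, h = blockHeight p B (ψ : G → ℂ) := ⟨_, rfl⟩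
  rw [← ha, ← he, ← hd] at hda
  rw [← hd]
  rw [← hh] at hpos
  have hψval : (charDegree (ψ : G → ℂ)).factorization p = e + h := by
    rw [hval ψ hψ, ← he, ← hh]
  have hψa : e + h ≤ a := by
    rw [← hψval, ha]
    exact (Nat.factorization_le_iff_dvd (Helper25.charDegree_irr_ne_zero ψ) Nat.card_pos.ne').2
      (Helper2.irr_degree_dvd_card ψ.2) p
  have hhd : h ≤ d := by omega
  refine ⟨by omega, ?_⟩
  obtain ⟨n, hn⟩ : ∃ n : IrrCharacter G → ℤ, n = fun ξ : IrrCharacter G =>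
      Helper10.irrCoeff (Helper25.tildeFun p (ψ : G → ℂ)) (ξ : G → ℂ) := ⟨_, rfl⟩
  have hn' : ∀ φ : IrrCharacter G,
      n φ = Helper10.irrCoeff (Helper25.tildeFun p (ψ : G → ℂ)) (φ : G → ℂ) := by
    intro φ
    rw [hn]
  have hnspec : ∀ ξ : IrrCharacter G,
      classInner (Helper25.tildeFun p (ψ : G → ℂ)) (ξ : G → ℂ) = (n ξ : ℂ) := by
    intro ξ
    rw [hn' ξ]
    exact Helper25.tildeFun_inner ψ ξ
  have hpars : ((p : ℤ) ^ a) * n ψ = ∑ φ : IrrCharacter G, n φ * n φ := by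
    have h := bf2_parseval (p := p) ψ
    rw [← ha] at h
    simp only [hn']
    exact h
  have hdvd : ∀ ξ : IrrCharacter G, (p : ℤ) ^ (e + h) ∣ n ξ := by
    intro ξ
    have h1 := hb_tilde_dvd hpM ξ ψ (n ξ) (by rw [Helper25.tildeFun_symm ξ ψ]; exact hnspec ξ)
    rwa [hψval] at h1
  have hne : ∀ ξ : IrrCharacter G, ξ ∈ B → blockHeight p B (ξ : G → ℂ) = 0 → n ξ ≠ 0 := by
    intro ξ hξ hξ0 hzero
    have h3 := Helper25.height_zero_ratio_not_mem hpM hB ξ hξ hξ0 ψ hψ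
    apply h3
    rw [Helper25.tildeFun_symm ξ ψ, hnspec, hzero, Int.cast_zero, zero_div]
    exact Helper25.MemLocalIdeal.zero hM.ne_top
  obtain ⟨F₀, hF₀⟩ : ∃ F₀ : Finset (IrrCharacter G), F₀ = Finset.univ.filter
      (fun ξ : IrrCharacter G => ξ ∈ B ∧ blockHeight p B (ξ : G → ℂ) = 0) := ⟨_, rfl⟩
  rw [← hF₀]
  have hψF₀ : ψ ∉ F₀ := by
    rw [hF₀]
    intro hmem
    have h1 := (Finset.mem_filter.1 hmem).2.2
    rw [← hh] at h1
    omega
  obtain ⟨m, hm⟩ := hdvd ψ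
  have hR : (0 : ℤ) < (p : ℤ) ^ (e + h) := pow_pos (by exact_mod_cast hp.pos) _
  have hRR := mul_pos hR hR
  have hlower : ∑ φ ∈ F₀, ((p : ℤ) ^ (e + h) * (p : ℤ) ^ (e + h))
      ≤ ∑ φ ∈ F₀, n φ * n φ := by
    apply Finset.sum_le_sum
    intro φ hφ
    rw [hF₀] at hφ
    obtain ⟨hφB, hφ0⟩ := (Finset.mem_filter.1 hφ).2
    obtain ⟨m', hm'⟩ := hdvd φ
    have hm'0 : m' ≠ 0 := by
      rintro rfl
      rw [mul_zero] at hm'
      exact hne φ hφB hφ0 hm'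
    rw [hm']
    have h1 : 1 ≤ m' * m' := Int.add_one_le_iff.2 (mul_self_pos.2 hm'0)
    nlinarith
  rw [Finset.sum_const, nsmul_eq_mul] at hlower
  have hsub : ∑ φ ∈ insert ψ F₀, n φ * n φ ≤ ∑ φ : IrrCharacter G, n φ * n φ :=
    Finset.sum_le_sum_of_subset_of_nonneg (Finset.subset_univ _)
      (fun φ _ _ => mul_self_nonneg _)
  rw [Finset.sum_insert hψF₀] at hsub
  have hkey : (F₀.card : ℤ) + m * m ≤ (p : ℤ) ^ (d - h) * m := by
    have ha' : a = (d - h) + (e + h) := by omega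
    rw [← hpars, ha', pow_add, hm] at hsub
    have h3 : ((F₀.card : ℤ) + m * m) * ((p : ℤ) ^ (e + h) * (p : ℤ) ^ (e + h))
        ≤ ((p : ℤ) ^ (d - h) * m) * ((p : ℤ) ^ (e + h) * (p : ℤ) ^ (e + h)) := by
      have h4 : ((p : ℤ) ^ (d - h) * m) * ((p : ℤ) ^ (e + h) * (p : ℤ) ^ (e + h))
          = (p : ℤ) ^ (d - h) * (p : ℤ) ^ (e + h) * ((p : ℤ) ^ (e + h) * m) := by ring
      have h5 : ((F₀.card : ℤ) + m * m) * ((p : ℤ) ^ (e + h) * (p : ℤ) ^ (e + h))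
          = (p : ℤ) ^ (e + h) * m * ((p : ℤ) ^ (e + h) * m)
            + (F₀.card : ℤ) * ((p : ℤ) ^ (e + h) * (p : ℤ) ^ (e + h)) := by ring
      rw [h4, h5]
      linarith
    exact le_of_mul_le_mul_right h3 hRR
  have hfinal : 4 * (F₀.card : ℤ) ≤ ((p : ℤ) ^ (d - h)) ^ 2 := by
    nlinarith [sq_nonneg ((p : ℤ) ^ (d - h) - 2 * m)]
  have hmono : ((p : ℤ) ^ (d - h)) ^ 2 ≤ (p : ℤ) ^ (2 * d - 2) := by
    rw [← pow_mul]
    exact pow_le_pow_right₀ (by exact_mod_cast hp.one_lt.le) (by omega)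
  have hcast : ((4 * F₀.card : ℕ) : ℤ) ≤ ((p ^ (2 * d - 2) : ℕ) : ℤ) := by
    push_cast
    exact hfinal.trans hmono
  exact_mod_cast hcast

end BrauerFeit2

end Cfsg.Agent.Helper6
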