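import Cfsg.Agent.Helper6.BrauerLocal
import Cfsg.Agent.Helper6.ConjChar
import Cfsg.Agent.Helper2.CharNat
import Cfsg.Agent.Helper2.CharInner

set_option autoImplicit false

universe u

namespace Cfsg.Agent.Helper6

open Cfsg

namespace Dade

/-- Orbit sums: an invariant integer weight whose orbit totals are all divisible by `p` has
total divisible by `p`. -/
theorem orbit_sum_dvd {P X : Type*} [Group P] [MulAction P X] [Fintype X] (p : ℕ)
    (D : X → ℤ) (hD : ∀ (g : P) (x : X), D (g • x) = D x)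
    (h : ∀ x : X, (p : ℤ) ∣ (Nat.card (MulAction.orbit P x) : ℤ) * D x) :
    (p : ℤ) ∣ ∑ x, D x := by
  classical
  haveI : Fintype (MulAction.orbitRel.Quotient P X) := Fintype.ofFinite _
  haveI : ∀ ω : MulAction.orbitRel.Quotient P X, Fintype (MulAction.orbit P ω.out) :=
    fun ω => Fintype.ofFinite _
  rw [← (MulAction.selfEquivSigmaOrbits P X).symm.sum_comp, Fintype.sum_sigma]
  apply Finset.dvd_sum
  intro ω _
  have h1 : ∀ y : MulAction.orbit P ω.out,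
      D ((MulAction.selfEquivSigmaOrbits P X).symm ⟨ω, y⟩) = D ω.out := by
    rintro ⟨y, g, rfl⟩
    exact hD g _
  rw [Finset.sum_congr rfl (fun y _ => h1 y), Finset.sum_const, Finset.card_univ, nsmul_eq_mul,
    ← Nat.card_eq_fintype_card]
  exact h ω.out

variable {G : Type u} [Group G]

/-- Conjugation by an element of `E` on `E ⊓ N`. -/
def conjInf (E N : Subgroup G) [hN : N.Normal] (e : E) : ↥(E ⊓ N) ≃* ↥(E ⊓ N) where
  toFun x := ⟨(e : G) * x * (e : G)⁻¹,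
    ⟨E.mul_mem (E.mul_mem e.2 x.2.1) (E.inv_mem e.2), hN.conj_mem _ x.2.2 _⟩⟩
  invFun x := ⟨(e : G)⁻¹ * x * (e : G),
    ⟨E.mul_mem (E.mul_mem (E.inv_mem e.2) x.2.1) e.2, by
      have h := hN.conj_mem _ x.2.2 (e : G)⁻¹
      rwa [inv_inv] at h⟩⟩
  left_inv x := Subtype.ext (by simp [mul_assoc])
  right_inv x := Subtype.ext (by simp [mul_assoc])
  map_mul' x y := Subtype.ext (by simp [mul_assoc])

theorem conjInf_coe (E N : Subgroup G) [hN : N.Normal] (e : E) (x : ↥(E ⊓ N)) :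
    ((conjInf E N e x : ↥(E ⊓ N)) : G) = (e : G) * x * (e : G)⁻¹ := rfl

/-- The action of `E` on the irreducible characters of `E ⊓ N`. -/
@[reducible] def irrAction [Finite G] (E N : Subgroup G) [hN : N.Normal] :
    MulAction E (IrrCharacter ↥(E ⊓ N)) where
  smul e φ := ⟨(φ : ↥(E ⊓ N) → ℂ) ∘ conjInf E N e⁻¹, by
    classical
    haveI : Fintype ↥(E ⊓ N) := Fintype.ofFinite _
    exact isIrrCharacter_comp_mulEquiv _ φ.2⟩
  one_smul φ := by
    apply Subtype.ext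
    funext x
    show (φ : ↥(E ⊓ N) → ℂ) (conjInf E N (1 : E)⁻¹ x) = (φ : ↥(E ⊓ N) → ℂ) x
    refine congrArg _ (Subtype.ext ?_)
    rw [conjInf_coe]
    simp
  mul_smul e₁ e₂ φ := by
    apply Subtype.ext
    funext x
    show (φ : ↥(E ⊓ N) → ℂ) (conjInf E N (e₁ * e₂)⁻¹ x) =
      (φ : ↥(E ⊓ N) → ℂ) (conjInf E N e₂⁻¹ (conjInf E N e₁⁻¹ x))
    refine congrArg _ (Subtype.ext ?_)
    rw [conjInf_coe, conjInf_coe, conjInf_coe]
    simp [mul_assoc]

/-- Summing an induced function against a `G`-invariant function on a normal subgroup. -/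
theorem sum_indFun_mul_invariant [Fintype G] (N : Subgroup G) [hN : N.Normal] [Fintype N]
    (E : Subgroup G) [Fintype ↥(E ⊓ N)] (ψ : E → ℂ) (Φ : N → ℂ)
    (hΦ : ∀ (g : G) (n : N), Φ ⟨g * n * g⁻¹, hN.conj_mem (n : G) n.2 g⟩ = Φ n) :
    ∑ n : N, indFun E ψ (n : G) * Φ n =
      (Nat.card G : ℂ) / (Nat.card E : ℂ) *
        ∑ d : ↥(E ⊓ N), ψ ⟨(d : G), d.2.1⟩ * Φ ⟨(d : G), d.2.2⟩ := by
  classical
  have key : ∀ x : G, ∑ n : N, extendByZero E ψ (x⁻¹ * (n : G) * x) * Φ n =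
      ∑ n : N, extendByZero E ψ (n : G) * Φ n := by
    intro x
    have h0 := Equiv.sum_comp (MulAut.conjNormal x⁻¹ : N ≃* N).toEquiv
      (fun n : N => extendByZero E ψ (n : G) * Φ n)
    rw [← h0]
    apply Finset.sum_congr rfl
    intro n _
    have h1 : ((MulAut.conjNormal x⁻¹ : N ≃* N) n : G) = x⁻¹ * (n : G) * x := by
      simp
    have h2 : Φ ((MulAut.conjNormal x⁻¹ : N ≃* N) n) = Φ n := by
      rw [← hΦ x⁻¹ n]
      congr 1
    show _ = extendByZero E ψ (((MulAut.conjNormal x⁻¹ : N ≃* N) n : N) : G) *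
      Φ ((MulAut.conjNormal x⁻¹ : N ≃* N) n)
    rw [h1, h2]
  have hlast : ∑ n : N, extendByZero E ψ (n : G) * Φ n =
      ∑ d : ↥(E ⊓ N), ψ ⟨(d : G), d.2.1⟩ * Φ ⟨(d : G), d.2.2⟩ := by
    symm
    apply Fintype.sum_of_injective (fun d : ↥(E ⊓ N) => (⟨(d : G), d.2.2⟩ : N))
    · intro d d' h
      apply Subtype.ext
      exact congrArg (fun n : N => (n : G)) h
    · intro n hn
      have h1 : (n : G) ∉ E := fun hE => hn ⟨⟨(n : G), ⟨hE, n.2⟩⟩, rfl⟩
      rw [Helper2.extendByZero_apply_not_mem E ψ h1, zero_mul]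
    · intro d
      rw [Helper2.extendByZero_apply_mem E ψ d.2.1]
  calc ∑ n : N, indFun E ψ (n : G) * Φ n
      = (Nat.card E : ℂ)⁻¹ *
          ∑ x : G, ∑ n : N, extendByZero E ψ (x⁻¹ * (n : G) * x) * Φ n := by
        rw [Finset.sum_comm, Finset.mul_sum]
        apply Finset.sum_congr rfl
        intro n _
        rw [Helper2.indFun_apply, mul_assoc, Finset.sum_mul]
    _ = (Nat.card E : ℂ)⁻¹ * ((Nat.card G : ℂ) * ∑ n : N, extendByZero E ψ (n : G) * Φ n) := by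
        rw [Finset.sum_congr rfl (fun x _ => key x), Finset.sum_const, Finset.card_univ,
          nsmul_eq_mul, ← Nat.card_eq_fintype_card]
    _ = _ := by
        rw [hlast]
        ring

/-- First half of Dade's theorem: a `p`-elementary subgroup covering `G / N` together with a
character detecting `ϑ` modulo `p`. -/
theorem dade_partA [Fintype G] (p : ℕ) (hp : p.Prime) (N : Subgroup G)
    [hN : N.Normal] (hind : ∃ k : ℕ, N.index = p ^ k) (ϑ : N → ℂ)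
    (hϑ : IsIrrCharacter N ϑ)
    (hinv : ∀ (g : G) (n : N), ϑ ⟨g * n * g⁻¹, hN.conj_mem (n : G) n.2 g⟩ = ϑ n) :
    ∃ (E : Subgroup G) (ψ : E → ℂ), IsElementary p E ∧ IsCharacter E ψ ∧ E ⊔ N = ⊤ ∧
      ∃ c : ℕ, ¬ p ∣ c ∧ (Nat.card ↥(E ⊓ N) : ℂ)⁻¹ *
        ∑ᶠ d : ↥(E ⊓ N), (ψ ⟨(d : G), d.2.1⟩ * ϑ ⟨(d : G), d.2.2⟩) *
          (starRingEnd ℂ) (ϑ ⟨(d : G), d.2.2⟩) = (c : ℂ) := by
  classical
  haveI : Fintype N := Fintype.ofFinite _
  by_contra H0
  have H1 : ∀ (E : Subgroup G) (ψ : E → ℂ), IsElementary p E → IsCharacter E ψ → E ⊔ N = ⊤ →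
      ∀ c : ℕ, (Nat.card ↥(E ⊓ N) : ℂ)⁻¹ *
        ∑ᶠ d : ↥(E ⊓ N), (ψ ⟨(d : G), d.2.1⟩ * ϑ ⟨(d : G), d.2.2⟩) *
          (starRingEnd ℂ) (ϑ ⟨(d : G), d.2.2⟩) = (c : ℂ) → p ∣ c := by
    intro E ψ hE hψ hsup c hc
    by_contra hpc
    exact H0 ⟨E, ψ, hE, hψ, hsup, c, hpc, hc⟩
  obtain ⟨L, hL⟩ : ∃ L : (G → ℂ) → ℂ, ∀ f, L f = (Nat.card N : ℂ)⁻¹ *
      ∑ n : N, f (n : G) * (ϑ n * (starRingEnd ℂ) (ϑ n)) := ⟨_, fun _ => rfl⟩
  have hLadd : ∀ f g, L (f + g) = L f + L g := by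
    intro f g
    simp only [hL, Pi.add_apply, add_mul, Finset.sum_add_distrib, mul_add]
  have hLsmul : ∀ (z : ℂ) f, L (z • f) = z * L f := by
    intro z f
    simp only [hL, Pi.smul_apply, smul_eq_mul, Finset.mul_sum]
    apply Finset.sum_congr rfl
    intro n _
    ring
  have hL0 : L 0 = 0 := by simp [hL]
  have hLconst : ∀ m : ℂ, L (fun _ => m) = m := by
    intro m
    have h1 : classInner ϑ ϑ = 1 := by rw [Helper2.classInner_irr hϑ hϑ, if_pos rfl]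
    rw [classInner] at h1
    rw [hL, ← Finset.mul_sum, ← mul_assoc, mul_comm _ m, mul_assoc, h1, mul_one]
  have hLind : ∀ (E : Subgroup G) (ψ : E → ℂ), IsElementary p E → IsCharacter E ψ →
      ∃ z : ℤ, L (indFun E ψ) = (p : ℂ) * z := by
    intro E ψ hE hψ
    haveI : Fintype ↥(E ⊓ N) := Fintype.ofFinite _
    haveI : Fintype E := Fintype.ofFinite _
    have hψD : IsCharacter ↥(E ⊓ N) (fun d : ↥(E ⊓ N) => ψ ⟨(d : G), d.2.1⟩) :=
      isCharacter_comp_hom (Subgroup.inclusion inf_le_left) hψ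
    have hϑD : IsCharacter ↥(E ⊓ N) (fun d : ↥(E ⊓ N) => ϑ ⟨(d : G), d.2.2⟩) :=
      isCharacter_comp_hom (Subgroup.inclusion inf_le_right) (Helper24.isCharacter_of_irr hϑ)
    obtain ⟨c, hc⟩ := Helper2.classInner_char_nat (Helper2.IsCharacter.mul hψD hϑD) hϑD
    have hΦ : ∀ (g : G) (n : N),
        (fun n : N => ϑ n * (starRingEnd ℂ) (ϑ n)) ⟨g * n * g⁻¹, hN.conj_mem (n : G) n.2 g⟩ =
          (fun n : N => ϑ n * (starRingEnd ℂ) (ϑ n)) n := by
      intro g n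
      show ϑ _ * (starRingEnd ℂ) (ϑ _) = _
      rw [hinv g n]
    have h1 := sum_indFun_mul_invariant N E ψ (fun n : N => ϑ n * (starRingEnd ℂ) (ϑ n)) hΦ
    have hD0 : (Nat.card ↥(E ⊓ N) : ℂ) ≠ 0 := by exact_mod_cast Nat.card_pos.ne'
    have hE0 : (Nat.card E : ℂ) ≠ 0 := by exact_mod_cast Nat.card_pos.ne'
    have hN0 : (Nat.card N : ℂ) ≠ 0 := by exact_mod_cast Nat.card_pos.ne'
    have h2 : ∑ d : ↥(E ⊓ N), ψ ⟨(d : G), d.2.1⟩ *
        (ϑ ⟨(d : G), d.2.2⟩ * (starRingEnd ℂ) (ϑ ⟨(d : G), d.2.2⟩)) =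
          (Nat.card ↥(E ⊓ N) : ℂ) * c := by
      rw [← hc, classInner, ← mul_assoc, mul_inv_cancel₀ hD0, one_mul]
      apply Finset.sum_congr rfl
      intro d _
      show _ = ψ ⟨(d : G), d.2.1⟩ * ϑ ⟨(d : G), d.2.2⟩ *
        (starRingEnd ℂ) (ϑ ⟨(d : G), d.2.2⟩)
      ring
    obtain ⟨j, hj⟩ : ∃ j : ℕ, j = (E ⊔ N).index := ⟨_, rfl⟩
    have hcard : Nat.card G * Nat.card ↥(E ⊓ N) = j * Nat.card N * Nat.card E := by
      have h_a : Nat.card N * N.index = Nat.card G := Subgroup.card_mul_index N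
      have h_b : N.relIndex (E ⊔ N) * (E ⊔ N).index = N.index :=
        Subgroup.relIndex_mul_index (le_sup_right : N ≤ E ⊔ N)
      have h_c : N.relIndex (E ⊔ N) = N.relIndex E := Subgroup.relIndex_sup_right E N
      have h_e : Nat.card (N.subgroupOf E) = Nat.card ↥(E ⊓ N) := Nat.card_congr
        { toFun := fun x => ⟨((x : E) : G), ⟨(x : E).2, Subgroup.mem_subgroupOf.mp x.2⟩⟩
          invFun := fun d => ⟨⟨(d : G), d.2.1⟩, Subgroup.mem_subgroupOf.mpr d.2.2⟩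
          left_inv := fun x => rfl
          right_inv := fun d => rfl }
      have h_d : Nat.card ↥(E ⊓ N) * N.relIndex E = Nat.card E := by
        rw [← h_e]
        exact Subgroup.card_mul_index (N.subgroupOf E)
      rw [← h_a, ← h_b, h_c, ← hj, ← h_d]
      ring
    have hLval : L (indFun E ψ) = (j : ℂ) * c := by
      rw [hL, h1, h2]
      have h3 : (Nat.card G : ℂ) * (Nat.card ↥(E ⊓ N) : ℂ) =
          (j : ℂ) * (Nat.card N : ℂ) * (Nat.card E : ℂ) := by exact_mod_cast hcard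
      field_simp
      linear_combination (c : ℂ) * h3
    by_cases hsup : E ⊔ N = ⊤
    · have hpc : p ∣ c := by
        apply H1 E ψ hE hψ hsup c
        rw [finsum_eq_sum_of_fintype]
        exact hc
      obtain ⟨t, rfl⟩ := hpc
      refine ⟨(j : ℤ) * t, ?_⟩
      rw [hLval]
      push_cast
      ring
    · have hpj : p ∣ j := by
        obtain ⟨k, hk⟩ := hind
        have hdvd : j ∣ p ^ k := by
          rw [hj, ← hk]
          exact Subgroup.index_dvd_of_le le_sup_right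
        obtain ⟨i, hi, hi2⟩ := (Nat.dvd_prime_pow hp).mp hdvd
        rcases Nat.eq_zero_or_pos i with h0 | hpos
        · exfalso
          apply hsup
          rw [← Subgroup.index_eq_one, ← hj, hi2, h0, pow_zero]
        · rw [hi2]
          exact dvd_pow_self p hpos.ne'
      obtain ⟨t, rfl⟩ := hpj
      refine ⟨(t : ℤ) * c, ?_⟩
      rw [hLval]
      push_cast
      ring
  obtain ⟨m, hm, l, hl, hsum⟩ := BrauerLocal.brauer_local (G := G) p hp
  have hlist : ∀ l : List ((E : Subgroup G) × ((E → ℂ) × ℤ)),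
      (∀ t ∈ l, IsElementary p t.1 ∧ IsCharacter t.1 t.2.1) →
      ∃ z : ℤ, L ((l.map fun t => (t.2.2 : ℂ) • indFun t.1 t.2.1).sum) = (p : ℂ) * z := by
    intro l
    induction l with
    | nil =>
      intro _
      exact ⟨0, by simp [hL0]⟩
    | cons t l ih =>
      intro h
      obtain ⟨z1, hz1⟩ := ih (fun s hs => h s (List.mem_cons_of_mem _ hs))
      obtain ⟨z2, hz2⟩ := hLind t.1 t.2.1 (h t List.mem_cons_self).1 (h t List.mem_cons_self).2
      refine ⟨t.2.2 * z2 + z1, ?_⟩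
      rw [List.map_cons, List.sum_cons, hLadd, hLsmul, hz1, hz2]
      push_cast
      ring
  obtain ⟨z, hz⟩ := hlist l hl
  rw [← hsum, hLconst] at hz
  apply hm
  exact ⟨z, by exact_mod_cast hz⟩

/-- Dade's theorem on detecting invariant characters with `p`-elementary subgroups. -/
theorem dade [Fintype G] (p : ℕ) (hp : p.Prime) (N : Subgroup G)
    [hN : N.Normal] (hind : ∃ k : ℕ, N.index = p ^ k) (ϑ : N → ℂ)
    (hϑ : IsIrrCharacter N ϑ)
    (hinv : ∀ (g : G) (n : N), ϑ ⟨g * n * g⁻¹, hN.conj_mem (n : G) n.2 g⟩ = ϑ n) :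
    ∃ (E : Subgroup G) (φ : ↥(E ⊓ N) → ℂ), IsElementary p E ∧ E ⊔ N = ⊤ ∧
      IsIrrCharacter ↥(E ⊓ N) φ ∧
      (∀ (g : G) (hg : g ∈ E) (x : ↥(E ⊓ N)),
        φ ⟨g * x * g⁻¹, ⟨(E.mul_mem (E.mul_mem hg x.2.1) (E.inv_mem hg)),
          hN.conj_mem (x : G) x.2.2 g⟩⟩ = φ x) ∧
      ∃ m : ℕ, ¬ p ∣ m ∧ (Nat.card ↥(E ⊓ N) : ℂ)⁻¹ *
        ∑ᶠ x : ↥(E ⊓ N), ϑ ⟨(x : G), x.2.2⟩ * (starRingEnd ℂ) (φ x) = (m : ℂ) := by
  classical
  obtain ⟨E, ψ, hE, hψ, hsup, c, hpc, hc⟩ := dade_partA p hp N hind ϑ hϑ hinv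
  haveI : Fintype ↥(E ⊓ N) := Fintype.ofFinite _
  haveI := Helper24.finite_irrCharacter (G := ↥(E ⊓ N))
  haveI : Fintype (IrrCharacter ↥(E ⊓ N)) := Fintype.ofFinite _
  letI act : MulAction E (IrrCharacter ↥(E ⊓ N)) := irrAction E N
  obtain ⟨ϑD, hϑDdef⟩ : ∃ f : ↥(E ⊓ N) → ℂ, f = fun d : ↥(E ⊓ N) => ϑ ⟨(d : G), d.2.2⟩ :=
    ⟨_, rfl⟩
  obtain ⟨ψD, hψDdef⟩ : ∃ f : ↥(E ⊓ N) → ℂ, f = fun d : ↥(E ⊓ N) => ψ ⟨(d : G), d.2.1⟩ :=
    ⟨_, rfl⟩
  have hϑDc : IsCharacter ↥(E ⊓ N) ϑD := by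
    rw [hϑDdef]
    exact isCharacter_comp_hom (Subgroup.inclusion inf_le_right)
      (Helper24.isCharacter_of_irr hϑ)
  have hψDc : IsCharacter ↥(E ⊓ N) ψD := by
    rw [hψDdef]
    exact isCharacter_comp_hom (Subgroup.inclusion inf_le_left) hψ
  have hϑDinv : ∀ e : E, ϑD ∘ conjInf E N e = ϑD := by
    intro e
    rw [hϑDdef]
    funext x
    exact hinv (e : G) ⟨(x : G), x.2.2⟩
  have hψDinv : ∀ e : E, ψD ∘ conjInf E N e = ψD := by
    intro e
    rw [hψDdef]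
    funext x
    exact Helper2.IsCharacter.isClassFunction hψ ⟨(x : G), x.2.1⟩ e
  have hc' : classInner (ψD * ϑD) ϑD = c := by
    rw [finsum_eq_sum_of_fintype] at hc
    rw [hψDdef, hϑDdef]
    exact hc
  have hb : ∀ φ : IrrCharacter ↥(E ⊓ N), ∃ b : ℕ,
      classInner ϑD (φ : ↥(E ⊓ N) → ℂ) = b :=
    fun φ => Helper2.classInner_char_nat hϑDc (Helper24.isCharacter_of_irr φ.2)
  have ha : ∀ φ : IrrCharacter ↥(E ⊓ N), ∃ a : ℕ,
      classInner (ψD * ϑD) (φ : ↥(E ⊓ N) → ℂ) = a :=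
    fun φ => Helper2.classInner_char_nat (Helper2.IsCharacter.mul hψDc hϑDc) (Helper24.isCharacter_of_irr φ.2)
  choose b hb using hb
  choose a ha using ha
  have hinvar : ∀ (Θ : ↥(E ⊓ N) → ℂ), (∀ e : E, Θ ∘ conjInf E N e = Θ) →
      ∀ (e : E) (φ : IrrCharacter ↥(E ⊓ N)),
        classInner Θ ((e • φ : IrrCharacter ↥(E ⊓ N)) : ↥(E ⊓ N) → ℂ) =
          classInner Θ (φ : ↥(E ⊓ N) → ℂ) := by
    intro Θ hΘ e φ
    have h1 : ((e • φ : IrrCharacter ↥(E ⊓ N)) : ↥(E ⊓ N) → ℂ) =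
        (φ : ↥(E ⊓ N) → ℂ) ∘ conjInf E N e⁻¹ := rfl
    rw [h1]
    conv_lhs => rw [← hΘ e⁻¹]
    exact classInner_comp_mulEquiv (conjInf E N e⁻¹) Θ (φ : ↥(E ⊓ N) → ℂ)
  have hb_inv : ∀ (e : E) (φ : IrrCharacter ↥(E ⊓ N)), b (e • φ) = b φ := by
    intro e φ
    have h1 : (b (e • φ) : ℂ) = b φ := by
      rw [← hb, ← hb]
      exact hinvar ϑD hϑDinv e φ
    exact_mod_cast h1
  have ha_inv : ∀ (e : E) (φ : IrrCharacter ↥(E ⊓ N)), a (e • φ) = a φ := by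
    intro e φ
    have h0 : ∀ e : E, (ψD * ϑD) ∘ conjInf E N e = ψD * ϑD := by
      intro e
      funext x
      show ψD (conjInf E N e x) * ϑD (conjInf E N e x) = ψD x * ϑD x
      rw [← hψDinv e, ← hϑDinv e]
      simp only [Function.comp_apply]
      rw [← Function.comp_apply (f := ψD), ← Function.comp_apply (f := ϑD), hψDinv e,
        hϑDinv e]
    have h1 : (a (e • φ) : ℂ) = a φ := by
      rw [← ha, ← ha]
      exact hinvar (ψD * ϑD) h0 e φ
    exact_mod_cast h1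
  have hcsum : (c : ℤ) = ∑ φ : IrrCharacter ↥(E ⊓ N), (a φ : ℤ) * (b φ : ℤ) := by
    have hexp := Helper2.class_fn_expansion (Helper2.IsCharacter.isClassFunction hϑDc)
    have h1 : classInner (ψD * ϑD) ϑD =
        classInner (ψD * ϑD)
          (∑ φ : IrrCharacter ↥(E ⊓ N), classInner ϑD (φ : ↥(E ⊓ N) → ℂ) •
            (φ : ↥(E ⊓ N) → ℂ)) := congrArg _ hexp
    rw [Helper2.classInner_sum_right] at h1
    have h2 : (c : ℂ) = ∑ φ : IrrCharacter ↥(E ⊓ N), (a φ : ℂ) * (b φ : ℂ) := by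
      rw [← hc', h1]
      apply Finset.sum_congr rfl
      intro φ _
      rw [Helper2.classInner_smul_right, ha, hb, Complex.conj_natCast, mul_comm]
    exact_mod_cast h2
  have key : ∃ φ : IrrCharacter ↥(E ⊓ N),
      ¬ (p : ℤ) ∣ (Nat.card (MulAction.orbit E φ) : ℤ) * ((a φ : ℤ) * (b φ : ℤ)) := by
    by_contra hcon
    push Not at hcon
    have h1 := orbit_sum_dvd (P := E) p (fun φ => (a φ : ℤ) * (b φ : ℤ))
      (fun e φ => by rw [ha_inv, hb_inv]) hcon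
    rw [← hcsum] at h1
    exact hpc (by exact_mod_cast h1)
  obtain ⟨φ, hφ⟩ := key
  have hpo : ¬ p ∣ Nat.card (MulAction.orbit E φ) :=
    fun h => hφ (Dvd.dvd.mul_right (by exact_mod_cast h) _)
  have hpb : ¬ p ∣ b φ :=
    fun h => hφ (Dvd.dvd.mul_left (Dvd.dvd.mul_left (by exact_mod_cast h) _) _)
  have hstab : N.subgroupOf E ≤ MulAction.stabilizer E φ := by
    intro e he
    rw [MulAction.mem_stabilizer_iff]
    apply Subtype.ext
    funext x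
    show (φ : ↥(E ⊓ N) → ℂ) (conjInf E N e⁻¹ x) = (φ : ↥(E ⊓ N) → ℂ) x
    have hd : ((e : G))⁻¹ ∈ E ⊓ N :=
      ⟨E.inv_mem e.2, N.inv_mem (Subgroup.mem_subgroupOf.mp he)⟩
    have h1 : conjInf E N e⁻¹ x =
        ⟨(e : G)⁻¹, hd⟩ * x * (⟨(e : G)⁻¹, hd⟩ : ↥(E ⊓ N))⁻¹ := by
      apply Subtype.ext
      rw [conjInf_coe]
      simp
    rw [h1]
    exact Helper2.IsIrrCharacter.isClassFunction φ.2 x _
  have horb1 : Nat.card (MulAction.orbit E φ) = 1 := by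
    obtain ⟨k, hk⟩ := hind
    have h1 : (MulAction.stabilizer E φ).index ∣ p ^ k := by
      have h2 : (MulAction.stabilizer E φ).index ∣ (N.subgroupOf E).index :=
        Subgroup.index_dvd_of_le hstab
      have h3 : N.relIndex E ∣ N.index := Subgroup.relIndex_dvd_index_of_normal N E
      rw [← hk]
      exact dvd_trans h2 h3
    rw [MulAction.index_stabilizer, ← Nat.card_coe_set_eq] at h1
    obtain ⟨i, hi, hi2⟩ := (Nat.dvd_prime_pow hp).mp h1
    rcases Nat.eq_zero_or_pos i with h0 | hpos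
    · rw [hi2, h0, pow_zero]
    · exfalso
      apply hpo
      rw [hi2]
      exact dvd_pow_self p hpos.ne'
  have hfix : ∀ e : E, e • φ = φ := by
    intro e
    have hsub := (Nat.card_eq_one_iff_unique.mp horb1).1
    have h1 := @Subsingleton.elim _ hsub
      (⟨e • φ, MulAction.mem_orbit φ e⟩ : MulAction.orbit E φ)
      ⟨φ, MulAction.mem_orbit_self φ⟩
    exact congrArg Subtype.val h1
  refine ⟨E, (φ : ↥(E ⊓ N) → ℂ), hE, hsup, φ.2, ?_, b φ, hpb, ?_⟩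
  · intro g hg x
    have h1 := congrArg (fun χ : IrrCharacter ↥(E ⊓ N) => (χ : ↥(E ⊓ N) → ℂ) x)
      (hfix (⟨g, hg⟩ : E)⁻¹)
    have h2 : (φ : ↥(E ⊓ N) → ℂ) (conjInf E N ((⟨g, hg⟩ : E)⁻¹)⁻¹ x) =
        (φ : ↥(E ⊓ N) → ℂ) x := h1
    rw [← h2]
    refine congrArg _ (Subtype.ext ?_)
    rw [conjInf_coe]
    simp
  · rw [finsum_eq_sum_of_fintype]
    have h1 := hb φ
    rw [classInner, hϑDdef] at h1
    exact h1

end Dade

end Cfsg.Agent.Helper6
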