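import Cfsg.Agent.Helper6.Dade
import Cfsg.Agent.Helper6.PiSection
import Cfsg.Agent.Helper6.BrauerInd
import Cfsg.Agent.Helper6.InvariantDegree
import Cfsg.Agent.Helper6.SylowExt
import Cfsg.Agent.Helper6.LinChar
import Cfsg.Agent.Helper6.Clifford
import Cfsg.Agent.Helper2.CharConstituent
import Cfsg.Agent.Helper2.CharDecomp

set_option autoImplicit false

universe u

namespace Cfsg.Agent.Helper6

open Cfsg

namespace DadeExt

/-- Characters of degree one are irreducible. -/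
theorem isIrr_of_linear {Γ : Type*} [Group Γ] [Fintype Γ] {μ : Γ → ℂ} (hμ : IsCharacter Γ μ)
    (h1 : μ 1 = 1) : IsIrrCharacter Γ μ := by
  have h := isIrrCharacter_linear_mul hμ h1 (Helper2.isIrrCharacter_one_fun (G := Γ))
  have e : μ * (fun _ => (1 : ℂ)) = μ := by
    funext x
    simp
  rwa [e] at h

/-- Characters of degree one of subgroups of finite abelian groups extend. -/
theorem abelian_extend {B : Type*} [Group B] [Fintype B] (hB : ∀ a b : B, a * b = b * a)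
    (A : Subgroup B) (α : A → ℂ) (hα : IsCharacter A α) (hα1 : α 1 = 1) :
    ∃ lam : B → ℂ, IsCharacter B lam ∧ lam 1 = 1 ∧ ∀ a : A, lam a = α a := by
  classical
  haveI : Fintype A := Fintype.ofFinite _
  have hindc := Helper2.isCharacter_indFun A hα (G := B)
  have hind0 : indFun A α ≠ 0 := by
    intro h
    have h1 := Helper2.indFun_apply_one A α
    rw [h, hα1, mul_one] at h1
    have h2 : (A.index : ℂ) ≠ 0 := by
      have := Subgroup.index_ne_zero_of_finite (H := A)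
      exact_mod_cast this
    exact h2 h1.symm
  obtain ⟨lam, hlam, hcon⟩ := Helper2.exists_irr_constituent
    (Helper2.IsCharacter.isClassFunction hindc) hind0
  have hlam1 : lam 1 = 1 := Helper2.irr_abelian_linear hB hlam
  have hlamc := Helper24.isCharacter_of_irr hlam
  rw [Helper2.frobenius_reciprocity A α lam (Helper2.IsCharacter.isClassFunction hlamc)] at hcon
  have hres : IsCharacter A (fun a : A => lam a) := Helper24.isCharacter_restrict A hlamc
  have hirr1 := isIrr_of_linear hα hα1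
  have hirr2 := isIrr_of_linear hres (by
    show lam ((1 : A) : B) = 1
    rw [Subgroup.coe_one]
    exact hlam1)
  have h3 := Helper2.classInner_irr hirr1 hirr2
  refine ⟨lam, hlamc, hlam1, ?_⟩
  by_contra hne
  have hne' : α ≠ (fun a : A => lam a) := by
    intro h
    apply hne
    intro a
    rw [h]
  rw [if_neg hne'] at h3
  exact hcon h3

/-- The order formula for a product with a normal subgroup. -/
theorem card_mul_inf {G : Type u} [Group G] [Finite G] (N : Subgroup G) [hN : N.Normal]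
    (E : Subgroup G) :
    Nat.card G * Nat.card ↥(E ⊓ N) = (E ⊔ N).index * Nat.card N * Nat.card E := by
  have h_a : Nat.card N * N.index = Nat.card G := Subgroup.card_mul_index N
  have h_b : N.relIndex (E ⊔ N) * (E ⊔ N).index = N.index :=
    Subgroup.relIndex_mul_index (le_sup_right : N ≤ E ⊔ N)
  have h_c : N.relIndex (E ⊔ N) = N.relIndex E := Subgroup.relIndex_sup_right E N
  have h_e : Nat.card (N.subgroupOf E) = Nat.card ↥(E ⊓ N) := Nat.card_congr
    { toFun := fun x => ⟨((x : E) : G), ⟨(x : E).2, Subgroup.mem_subgroupOf.mp x.2⟩⟩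
      invFun := fun d => ⟨⟨(d : G), d.2.1⟩, Subgroup.mem_subgroupOf.mpr d.2.2⟩
      left_inv := fun x => rfl
      right_inv := fun d => rfl }
  have h_d : Nat.card ↥(E ⊓ N) * N.relIndex E = Nat.card E := by
    rw [← h_e]
    exact Subgroup.card_mul_index (N.subgroupOf E)
  rw [← h_a, ← h_b, h_c, ← h_d]
  ring

/-- A character of a subgroup covering `G / N` that detects the invariant character `ϑ` with
multiplicity prime to `p` yields an extension of `ϑ`. -/
theorem exists_extension_of_detect {G : Type u} [Group G] [Fintype G] (p : ℕ) (hp : p.Prime)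
    (N : Subgroup G) [hN : N.Normal] (hind : ∃ k : ℕ, N.index = p ^ k) (ϑ : N → ℂ)
    (hϑ : IsIrrCharacter N ϑ)
    (hinv : ∀ (g : G) (n : N), ϑ ⟨g * n * g⁻¹, hN.conj_mem (n : G) n.2 g⟩ = ϑ n)
    (E : Subgroup G) (hsup : E ⊔ N = ⊤) (ψ : E → ℂ) (hψ : IsCharacter E ψ) (m : ℕ)
    (hm : ¬ p ∣ m)
    (hdet : (Nat.card ↥(E ⊓ N) : ℂ)⁻¹ * ∑ᶠ x : ↥(E ⊓ N),
      ϑ ⟨(x : G), x.2.2⟩ * (starRingEnd ℂ) (ψ ⟨(x : G), x.2.1⟩) = (m : ℂ)) :
    ∃ χ : G → ℂ, IsIrrCharacter G χ ∧ ∀ n : N, χ n = ϑ n := by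
  classical
  haveI : Fintype N := Fintype.ofFinite _
  haveI : Fintype ↥(E ⊓ N) := Fintype.ofFinite _
  haveI : Fintype E := Fintype.ofFinite _
  have hϑc := Helper24.isCharacter_of_irr hϑ
  have hχ0 : IsCharacter G (indFun E ψ) := Helper2.isCharacter_indFun E hψ
  have hD0 : (Nat.card ↥(E ⊓ N) : ℂ) ≠ 0 := by exact_mod_cast Nat.card_pos.ne'
  have hE0 : (Nat.card E : ℂ) ≠ 0 := by exact_mod_cast Nat.card_pos.ne'
  have hN0 : (Nat.card N : ℂ) ≠ 0 := by exact_mod_cast Nat.card_pos.ne'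
  have hinner : classInner (fun n : N => indFun E ψ (n : G)) ϑ = (m : ℂ) := by
    have hΦ : ∀ (g : G) (n : N), (fun n : N => (starRingEnd ℂ) (ϑ n))
        ⟨g * n * g⁻¹, hN.conj_mem (n : G) n.2 g⟩ = (fun n : N => (starRingEnd ℂ) (ϑ n)) n := by
      intro g n
      show (starRingEnd ℂ) (ϑ _) = _
      rw [hinv g n]
    have h1 := Dade.sum_indFun_mul_invariant N E ψ (fun n : N => (starRingEnd ℂ) (ϑ n)) hΦ
    rw [finsum_eq_sum_of_fintype] at hdet
    have h2 : ∑ d : ↥(E ⊓ N), ψ ⟨(d : G), d.2.1⟩ * (starRingEnd ℂ) (ϑ ⟨(d : G), d.2.2⟩) =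
        (Nat.card ↥(E ⊓ N) : ℂ) * m := by
      have h3 := congrArg (starRingEnd ℂ) hdet
      rw [map_mul, map_inv₀, Complex.conj_natCast, Complex.conj_natCast, map_sum] at h3
      rw [← h3, ← mul_assoc, mul_inv_cancel₀ hD0, one_mul]
      apply Finset.sum_congr rfl
      intro d _
      rw [map_mul, Complex.conj_conj, mul_comm]
    have hcard := card_mul_inf N E
    rw [hsup, Subgroup.index_top, one_mul] at hcard
    have h3 : (Nat.card G : ℂ) * (Nat.card ↥(E ⊓ N) : ℂ) =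
        (Nat.card N : ℂ) * (Nat.card E : ℂ) := by exact_mod_cast hcard
    rw [classInner, h1, h2]
    field_simp
    linear_combination (m : ℂ) * h3
  obtain ⟨l, hl, hsum⟩ := Helper2.IsCharacter.exists_list hχ0
  have hlist : ∀ l : List (G → ℂ), (∀ χ ∈ l, IsIrrCharacter G χ) →
      ∃ m' : ℕ, classInner (fun n : N => l.sum (n : G)) ϑ = (m' : ℂ) ∧
        (¬ p ∣ m' → ∃ χ ∈ l, ∃ e : ℕ,
          classInner (fun n : N => χ (n : G)) ϑ = (e : ℂ) ∧ ¬ p ∣ e) := by
    intro l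
    induction l with
    | nil =>
      intro _
      refine ⟨0, ?_, fun h => absurd (dvd_zero p) h⟩
      have h0 : (fun n : N => ([] : List (G → ℂ)).sum (n : G)) = 0 := by
        funext n
        simp
      rw [h0, Helper2.classInner_zero_left]
      simp
    | cons χ l ih =>
      intro h
      obtain ⟨m1, hm1, hm1'⟩ := ih (fun s hs => h s (List.mem_cons_of_mem _ hs))
      obtain ⟨e, he⟩ := Helper2.classInner_char_nat (Helper24.isCharacter_restrict N
        (Helper24.isCharacter_of_irr (h χ List.mem_cons_self))) hϑc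
      refine ⟨e + m1, ?_, ?_⟩
      · have h0 : (fun n : N => (χ :: l).sum (n : G)) =
            (fun n : N => χ (n : G)) + (fun n : N => l.sum (n : G)) := by
          funext n
          simp [List.sum_cons]
        rw [h0, Helper2.classInner_add_left, he, hm1]
        push_cast
        rfl
      · intro hnd
        by_cases hpe : p ∣ e
        · have h2 : ¬ p ∣ m1 := fun h2 => hnd (dvd_add hpe h2)
          obtain ⟨χ', hχ', e', he', hpe'⟩ := hm1' h2
          exact ⟨χ', List.mem_cons_of_mem _ hχ', e', he', hpe'⟩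
        · exact ⟨χ, List.mem_cons_self, e, he, hpe⟩
  obtain ⟨m', hm', hm''⟩ := hlist l hl
  rw [← hsum, hinner] at hm'
  have hmm : m = m' := by exact_mod_cast hm'
  obtain ⟨χ, hχl, e, he, hpe⟩ := hm'' (hmm ▸ hm)
  have hχ := hl χ hχl
  have he0 : e ≠ 0 := by
    rintro rfl
    exact hpe (dvd_zero p)
  have hcon : classInner (fun n : N => χ n) ϑ ≠ 0 := by
    rw [he]
    exact_mod_cast he0
  have hres := res_eq_smul_of_invariant N hϑ hinv hχ hcon
  obtain ⟨b, hb, hbdvd⟩ := degree_ratio_dvd_index_of_invariant N hϑ hinv hχ hcon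
  have h1 := congrFun hres 1
  simp only [Pi.smul_apply, smul_eq_mul] at h1
  rw [he, Subgroup.coe_one, Helper24.charDegree_spec (Helper24.isCharacter_of_irr hχ),
    Helper24.charDegree_spec hϑc, hb] at h1
  have hdpos : 0 < charDegree ϑ := Helper24.irr_degree_pos hϑ
  have h2 : b * charDegree ϑ = e * charDegree ϑ := by exact_mod_cast h1
  have hbe : b = e := Nat.eq_of_mul_eq_mul_right hdpos h2
  obtain ⟨k, hk⟩ := hind
  rw [hk, hbe] at hbdvd
  obtain ⟨i, hi, hi2⟩ := (Nat.dvd_prime_pow hp).mp hbdvd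
  have he1 : e = 1 := by
    rcases Nat.eq_zero_or_pos i with h0 | hpos
    · rw [hi2, h0, pow_zero]
    · exfalso
      apply hpe
      rw [hi2]
      exact dvd_pow_self p hpos.ne'
  refine ⟨χ, hχ, fun n => ?_⟩
  have h3 := congrFun hres n
  rw [he, he1] at h3
  simpa using h3

/-- Under the hypotheses on the Sylow subgroup `P`, irreducible characters of `E ⊓ N` extend to
the `p`-elementary group `E`. -/
theorem elementary_extend {G : Type u} [Group G] [Fintype G] (p : ℕ) [hpf : Fact p.Prime]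
    (N : Subgroup G) [hN : N.Normal] (hind : ∃ k : ℕ, N.index = p ^ k) (P : Sylow p G)
    (hcent : ∀ x ∈ (P : Subgroup G) ⊓ N, ∀ y ∈ (P : Subgroup G), x * y = y * x)
    (hlin : ∀ lam : ↥((P : Subgroup G) ⊓ N) → ℂ, IsCharacter ↥((P : Subgroup G) ⊓ N) lam →
      lam 1 = 1 → ∃ μ : ↥(P : Subgroup G) → ℂ, IsCharacter ↥(P : Subgroup G) μ ∧ μ 1 = 1 ∧
        ∀ x : ↥((P : Subgroup G) ⊓ N), μ ⟨(x : G), x.2.1⟩ = lam x)
    (E : Subgroup G) (hE : IsElementary p E)
    (φ : ↥(E ⊓ N) → ℂ) (hφ : IsIrrCharacter ↥(E ⊓ N) φ) :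
    ∃ ψ : E → ℂ, IsCharacter E ψ ∧ ∀ d : ↥(E ⊓ N), ψ ⟨(d : G), d.2.1⟩ = φ d := by
  classical
  have hp : p.Prime := hpf.out
  haveI : Fintype E := Fintype.ofFinite _
  haveI : Fintype ↥(E ⊓ N) := Fintype.ofFinite _
  haveI : Fintype ↥((P : Subgroup G) ⊓ N) := Fintype.ofFinite _
  obtain ⟨x0, hx0c, hcop, k, hk⟩ := id hE
  rw [Subgroup.mem_center_iff] at hx0c
  obtain ⟨c, hc⟩ : ∃ c : ℕ, c = orderOf x0 := ⟨_, rfl⟩
  rw [← hc] at hcop
  have hcardE : Nat.card E = c * p ^ k := by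
    rw [← Subgroup.card_mul_index (Subgroup.zpowers x0), Nat.card_zpowers, hk, hc]
  have hcopk : Nat.Coprime (p ^ k) c := Nat.Coprime.pow_left k hcop.symm
  obtain ⟨a, ha1, ha0'⟩ : ∃ a : ℕ, a ≡ 1 [MOD p ^ k] ∧ a ≡ 0 [MOD c] :=
    ⟨(Nat.chineseRemainder hcopk 1 0 : ℕ), (Nat.chineseRemainder hcopk 1 0).2.1,
      (Nat.chineseRemainder hcopk 1 0).2.2⟩
  obtain ⟨b, hb0', hb1⟩ : ∃ b : ℕ, b ≡ 0 [MOD p ^ k] ∧ b ≡ 1 [MOD c] :=
    ⟨(Nat.chineseRemainder hcopk 0 1 : ℕ), (Nat.chineseRemainder hcopk 0 1).2.1,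
      (Nat.chineseRemainder hcopk 0 1).2.2⟩
  have ha0 : c ∣ a := (Nat.modEq_zero_iff_dvd).mp ha0'
  have hb0 : p ^ k ∣ b := (Nat.modEq_zero_iff_dvd).mp hb0'
  have hab1 : a + b ≡ 1 [MOD c * p ^ k] := by
    have h1 : a + b ≡ 1 [MOD p ^ k] := by simpa using ha1.add hb0'
    have h2 : a + b ≡ 1 [MOD c] := by simpa using ha0'.add hb1
    rw [mul_comm]
    exact (Nat.modEq_and_modEq_iff_modEq_mul hcopk).mp ⟨h1, h2⟩
  have hordE : ∀ e : E, e ^ (c * p ^ k) = 1 := fun e => by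
    rw [← hcardE]
    exact pow_card_eq_one'
  have hordG : ∀ u ∈ E, u ^ (c * p ^ k) = 1 := by
    intro u hu
    have h1 := congrArg (Subtype.val : E → G) (hordE ⟨u, hu⟩)
    rw [Subgroup.coe_pow, Subgroup.coe_one] at h1
    exact h1
  have hpel : ∀ y : E, (∃ j : ℕ, y ^ (p ^ j) = 1) → y ^ (p ^ k) = 1 := by
    rintro y ⟨j, hj⟩
    have ho : orderOf y ∣ p ^ j := orderOf_dvd_of_pow_eq_one hj
    have hco : Nat.Coprime (orderOf y) c :=
      Nat.Coprime.coprime_dvd_left ho (Nat.Coprime.pow_left j hcop.symm)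
    have hd : orderOf y ∣ c * p ^ k := orderOf_dvd_of_pow_eq_one (hordE y)
    exact orderOf_dvd_iff_pow_eq_one.mp (hco.dvd_of_dvd_mul_left hd)
  have hεa : (∀ y : E, (∃ j : ℕ, y ^ (p ^ j) = 1) → y ^ a = y) ∨
      (∀ y : E, (∃ j : ℕ, y ^ (p ^ j) = 1) → y ^ a = 1) :=
    Or.inl (fun y hy => PiSection.pw_one (p ^ k) a ha1 y (hpel y hy))
  have hεb : (∀ y : E, (∃ j : ℕ, y ^ (p ^ j) = 1) → y ^ b = y) ∨
      (∀ y : E, (∃ j : ℕ, y ^ (p ^ j) = 1) → y ^ b = 1) :=
    Or.inr (fun y hy => PiSection.pw_zero (p ^ k) b hb0 y (hpel y hy))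
  have hmulaG : ∀ u ∈ E, ∀ v ∈ E, (u * v) ^ a = u ^ a * v ^ a := by
    intro u hu v hv
    have h2 := congrArg (Subtype.val : E → G)
      (PiSection.pow_mul_of_isElementary hp hE a hεa ⟨u, hu⟩ ⟨v, hv⟩)
    simp only [Subgroup.coe_pow, Subgroup.coe_mul] at h2
    exact h2
  have hmulbG : ∀ u ∈ E, ∀ v ∈ E, (u * v) ^ b = u ^ b * v ^ b := by
    intro u hu v hv
    have h2 := congrArg (Subtype.val : E → G)
      (PiSection.pow_mul_of_isElementary hp hE b hεb ⟨u, hu⟩ ⟨v, hv⟩)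
    simp only [Subgroup.coe_pow, Subgroup.coe_mul] at h2
    exact h2
  have hapk : ∀ u ∈ E, (u ^ a) ^ (p ^ k) = 1 := by
    intro u hu
    obtain ⟨t, ht⟩ := ha0
    rw [← pow_mul, ht, mul_right_comm, pow_mul, hordG u hu, one_pow]
  haveI hnorm : (Subgroup.zpowers x0).Normal := BrauerInd.normal_zpowers_of_central hx0c
  have hbmem : ∀ e : E, e ^ b ∈ Subgroup.zpowers x0 := by
    intro e
    obtain ⟨s, rfl⟩ := hb0
    rw [pow_mul]
    apply Subgroup.pow_mem
    rw [← hk]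
    exact Subgroup.pow_index_mem _ e
  have hx0N : (x0 : G) ∈ N := by
    obtain ⟨k', hk'⟩ := hind
    have h1 : (x0 : G) ^ (p ^ k') ∈ N := by
      rw [← hk']
      exact Subgroup.pow_index_mem N _
    have h2 : (x0 : G) ^ c = 1 := by
      have h0 := congrArg (Subtype.val : E → G) (pow_orderOf_eq_one x0)
      rw [Subgroup.coe_pow, Subgroup.coe_one] at h0
      rw [hc]
      exact h0
    have h3 : ((x0 : G) : G ⧸ N) ^ (p ^ k') = 1 := by
      rw [← QuotientGroup.mk_pow]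
      exact (QuotientGroup.eq_one_iff _).mpr h1
    have h4 : ((x0 : G) : G ⧸ N) ^ c = 1 := by
      rw [← QuotientGroup.mk_pow, h2]
      rfl
    have h5 : orderOf ((x0 : G) : G ⧸ N) ∣ Nat.gcd c (p ^ k') :=
      Nat.dvd_gcd (orderOf_dvd_of_pow_eq_one h4) (orderOf_dvd_of_pow_eq_one h3)
    rw [Nat.Coprime.gcd_eq_one (Nat.Coprime.pow_right k' hcop), Nat.dvd_one,
      orderOf_eq_one_iff] at h5
    exact (QuotientGroup.eq_one_iff _).mp h5
  have hbz : ∀ u ∈ E, ∃ i : ℤ, (x0 : G) ^ i = u ^ b := by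
    intro u hu
    obtain ⟨i, hi⟩ := Subgroup.mem_zpowers_iff.mp (hbmem ⟨u, hu⟩)
    have h1 := congrArg (Subtype.val : E → G) hi
    rw [Subgroup.coe_zpow, Subgroup.coe_pow] at h1
    exact ⟨i, h1⟩
  have hbN : ∀ u ∈ E, u ^ b ∈ N := by
    intro u hu
    obtain ⟨i, hi⟩ := hbz u hu
    rw [← hi]
    exact N.zpow_mem hx0N i
  have hbcomm : ∀ u ∈ E, ∀ v ∈ E, Commute (u ^ b) v := by
    intro u hu v hv
    obtain ⟨i, hi⟩ := hbz u hu
    rw [← hi]
    have h2 : Commute (x0 : G) v := by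
      have h0 := congrArg (Subtype.val : E → G) (hx0c ⟨v, hv⟩)
      rw [Subgroup.coe_mul, Subgroup.coe_mul] at h0
      exact h0.symm
    exact h2.zpow_left i
  have hsplit : ∀ u ∈ E, u ^ a * u ^ b = u := by
    intro u hu
    rw [← pow_add]
    exact PiSection.pw_one (c * p ^ k) (a + b) hab1 _ (hordG u hu)
  let Q : Subgroup G :=
    { carrier := {y | ∃ u ∈ E, y = u ^ a}
      one_mem' := ⟨1, E.one_mem, by simp⟩
      mul_mem' := by
        rintro _ _ ⟨u, hu, rfl⟩ ⟨v, hv, rfl⟩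
        exact ⟨u * v, E.mul_mem hu hv, (hmulaG u hu v hv).symm⟩
      inv_mem' := by
        rintro _ ⟨u, hu, rfl⟩
        exact ⟨u⁻¹, E.inv_mem hu, by simp⟩ }
  have hQ : IsPGroup p Q := by
    rintro ⟨y, u, hu, rfl⟩
    exact ⟨k, Subtype.ext (hapk u hu)⟩
  obtain ⟨P', hP'⟩ := hQ.exists_le_sylow
  obtain ⟨g, hg⟩ := MulAction.exists_smul_eq G P' P
  have hgP : ∀ u ∈ E, g * u ^ a * g⁻¹ ∈ (P : Subgroup G) := by
    intro u hu
    have h1 : u ^ a ∈ (P' : Subgroup G) := hP' ⟨u, hu, rfl⟩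
    have h2 := Subgroup.smul_mem_pointwise_smul _ (MulAut.conj g) (P' : Subgroup G) h1
    rw [← Sylow.coe_subgroup_smul, hg] at h2
    simpa [MulAut.smul_def, MulAut.conj_apply] using h2
  let ι : E →* ↥(P : Subgroup G) :=
    { toFun := fun e => ⟨g * (e : G) ^ a * g⁻¹, hgP _ e.2⟩
      map_one' := by
        apply Subtype.ext
        simp
      map_mul' := by
        intro e e'
        apply Subtype.ext
        show g * ((e * e' : E) : G) ^ a * g⁻¹ =
          (g * (e : G) ^ a * g⁻¹) * (g * (e' : G) ^ a * g⁻¹)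
        rw [Subgroup.coe_mul, hmulaG _ e.2 _ e'.2]
        group }
  let β : E →* ↥(E ⊓ N) :=
    { toFun := fun e => ⟨(e : G) ^ b, ⟨E.pow_mem e.2 b, hbN _ e.2⟩⟩
      map_one' := by
        apply Subtype.ext
        simp
      map_mul' := by
        intro e e'
        apply Subtype.ext
        show ((e * e' : E) : G) ^ b = (e : G) ^ b * (e' : G) ^ b
        rw [Subgroup.coe_mul, hmulbG _ e.2 _ e'.2] }
  have hDab : ∀ d d' : ↥(E ⊓ N), d * d' = d' * d := by
    intro d d'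
    apply Subtype.ext
    show (d : G) * (d' : G) = (d' : G) * (d : G)
    have hdE : (d : G) ∈ E := d.2.1
    have hdE' : (d' : G) ∈ E := d'.2.1
    have haa : Commute ((d : G) ^ a) ((d' : G) ^ a) := by
      have h1 : g * (d : G) ^ a * g⁻¹ ∈ (P : Subgroup G) ⊓ N :=
        ⟨hgP _ hdE, hN.conj_mem _ (N.pow_mem d.2.2 a) g⟩
      have h2 := hcent _ h1 _ (hgP _ hdE')
      have h3 : g * ((d : G) ^ a * (d' : G) ^ a) * g⁻¹ =
          g * ((d' : G) ^ a * (d : G) ^ a) * g⁻¹ := by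
        have e1 : g * ((d : G) ^ a * (d' : G) ^ a) * g⁻¹ =
            g * (d : G) ^ a * g⁻¹ * (g * (d' : G) ^ a * g⁻¹) := by group
        have e2 : g * ((d' : G) ^ a * (d : G) ^ a) * g⁻¹ =
            g * (d' : G) ^ a * g⁻¹ * (g * (d : G) ^ a * g⁻¹) := by group
        rw [e1, e2]
        exact h2
      exact mul_left_cancel (mul_right_cancel h3)
    have hab' : Commute ((d : G) ^ a) ((d' : G) ^ b) :=
      ((hbcomm _ hdE' _ hdE).pow_right a).symm
    have hba' : Commute ((d : G) ^ b) ((d' : G) ^ a) := (hbcomm _ hdE _ hdE').pow_right a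
    have hbb' : Commute ((d : G) ^ b) ((d' : G) ^ b) := (hbcomm _ hdE _ hdE').pow_right b
    have h := Commute.mul_left (Commute.mul_right haa hab') (Commute.mul_right hba' hbb')
    rw [hsplit _ hdE, hsplit _ hdE'] at h
    exact h.eq
  have hφc := Helper24.isCharacter_of_irr hφ
  have hφ1 : φ 1 = 1 := Helper2.irr_abelian_linear hDab hφ
  have hφmul := linear_char_mul φ hφc hφ1
  let A : Subgroup ↥((P : Subgroup G) ⊓ N) :=
    { carrier := {y | g⁻¹ * (y : G) * g ∈ E}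
      one_mem' := by
        show g⁻¹ * ((1 : ↥((P : Subgroup G) ⊓ N)) : G) * g ∈ E
        rw [Subgroup.coe_one, mul_one, inv_mul_cancel]
        exact E.one_mem
      mul_mem' := by
        intro y y' hy hy'
        show g⁻¹ * ((y * y' : ↥((P : Subgroup G) ⊓ N)) : G) * g ∈ E
        have h0 : g⁻¹ * ((y : G) * (y' : G)) * g =
            (g⁻¹ * (y : G) * g) * (g⁻¹ * (y' : G) * g) := by group
        rw [Subgroup.coe_mul, h0]
        exact E.mul_mem hy hy'
      inv_mem' := by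
        intro y hy
        show g⁻¹ * ((y⁻¹ : ↥((P : Subgroup G) ⊓ N)) : G) * g ∈ E
        have h0 : g⁻¹ * ((y : G))⁻¹ * g = (g⁻¹ * (y : G) * g)⁻¹ := by group
        rw [Subgroup.coe_inv, h0]
        exact E.inv_mem hy }
  let γ : A →* ↥(E ⊓ N) :=
    { toFun := fun y => ⟨g⁻¹ * ((y : ↥((P : Subgroup G) ⊓ N)) : G) * g, ⟨y.2, by
          have h0 := hN.conj_mem _ (y : ↥((P : Subgroup G) ⊓ N)).2.2 g⁻¹
          rwa [inv_inv] at h0⟩⟩
      map_one' := by
        apply Subtype.ext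
        show g⁻¹ * (((1 : A) : ↥((P : Subgroup G) ⊓ N)) : G) * g = 1
        rw [Subgroup.coe_one, Subgroup.coe_one, mul_one, inv_mul_cancel]
      map_mul' := by
        intro y y'
        apply Subtype.ext
        show g⁻¹ * (((y * y' : A) : ↥((P : Subgroup G) ⊓ N)) : G) * g =
          (g⁻¹ * ((y : ↥((P : Subgroup G) ⊓ N)) : G) * g) *
            (g⁻¹ * ((y' : ↥((P : Subgroup G) ⊓ N)) : G) * g)
        rw [Subgroup.coe_mul, Subgroup.coe_mul]
        group }
  have hα : IsCharacter A (φ ∘ γ) := isCharacter_comp_hom γ hφc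
  have hα1 : (φ ∘ γ) 1 = 1 := by
    show φ (γ 1) = 1
    rw [map_one]
    exact hφ1
  have hBab : ∀ x y : ↥((P : Subgroup G) ⊓ N), x * y = y * x := by
    intro x y
    apply Subtype.ext
    exact hcent _ x.2 _ y.2.1
  obtain ⟨lam, hlamc, hlam1, hlamA⟩ := abelian_extend hBab A (φ ∘ γ) hα hα1
  obtain ⟨μ, hμc, hμ1, hμext⟩ := hlin lam hlamc hlam1
  refine ⟨(φ ∘ β) * (μ ∘ ι), Helper2.IsCharacter.mul (isCharacter_comp_hom β hφc)
    (isCharacter_comp_hom ι hμc), ?_⟩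
  intro d
  have hdE : (d : G) ∈ E := d.2.1
  have hyPN : g * (d : G) ^ a * g⁻¹ ∈ (P : Subgroup G) ⊓ N :=
    ⟨hgP _ hdE, hN.conj_mem _ (N.pow_mem d.2.2 a) g⟩
  have hyA : (⟨g * (d : G) ^ a * g⁻¹, hyPN⟩ : ↥((P : Subgroup G) ⊓ N)) ∈ A := by
    show g⁻¹ * (g * (d : G) ^ a * g⁻¹) * g ∈ E
    have h0 : g⁻¹ * (g * (d : G) ^ a * g⁻¹) * g = (d : G) ^ a := by group
    rw [h0]
    exact E.pow_mem hdE a
  have h1 : μ (ι ⟨(d : G), hdE⟩) =
      φ ⟨(d : G) ^ a, ⟨E.pow_mem hdE a, N.pow_mem d.2.2 a⟩⟩ := by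
    have e1 := hμext ⟨g * (d : G) ^ a * g⁻¹, hyPN⟩
    have e2 := hlamA ⟨⟨g * (d : G) ^ a * g⁻¹, hyPN⟩, hyA⟩
    refine e1.trans (e2.trans ?_)
    show φ (γ ⟨⟨g * (d : G) ^ a * g⁻¹, hyPN⟩, hyA⟩) = _
    refine congrArg φ (Subtype.ext ?_)
    show g⁻¹ * (g * (d : G) ^ a * g⁻¹) * g = (d : G) ^ a
    group
  show φ (β ⟨(d : G), hdE⟩) * μ (ι ⟨(d : G), hdE⟩) = φ d
  rw [h1, ← hφmul]
  refine congrArg φ (Subtype.ext ?_)
  show (d : G) ^ b * (d : G) ^ a = (d : G)
  rw [← pow_add, add_comm, pow_add]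
  exact hsplit _ hdE

/-- Extension of invariant characters when the Sylow intersection is central with extendible
characters of degree one. -/
theorem sylow_central_extends {G : Type u} [Group G] [Fintype G] (p : ℕ) [hpf : Fact p.Prime]
    (N : Subgroup G) [hN : N.Normal] (hind : ∃ k : ℕ, N.index = p ^ k) (P : Sylow p G)
    (hcent : ∀ x ∈ (P : Subgroup G) ⊓ N, ∀ y ∈ (P : Subgroup G), x * y = y * x)
    (hlin : ∀ lam : ↥((P : Subgroup G) ⊓ N) → ℂ, IsCharacter ↥((P : Subgroup G) ⊓ N) lam →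
      lam 1 = 1 → ∃ μ : ↥(P : Subgroup G) → ℂ, IsCharacter ↥(P : Subgroup G) μ ∧ μ 1 = 1 ∧
        ∀ x : ↥((P : Subgroup G) ⊓ N), μ ⟨(x : G), x.2.1⟩ = lam x)
    (ϑ : N → ℂ) (hϑ : IsIrrCharacter N ϑ)
    (hinv : ∀ (g : G) (n : N), ϑ ⟨g * n * g⁻¹, hN.conj_mem (n : G) n.2 g⟩ = ϑ n) :
    ∃ χ : G → ℂ, IsIrrCharacter G χ ∧ ∀ n : N, χ n = ϑ n := by
  have hp : p.Prime := hpf.out
  obtain ⟨E, φ, hE, hsup, hφ, -, m, hm, hdet⟩ := Dade.dade p hp N hind ϑ hϑ hinv
  obtain ⟨ψ, hψ, hψφ⟩ := elementary_extend p N hind P hcent hlin E hE φ hφ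
  apply exists_extension_of_detect p hp N hind ϑ hϑ hinv E hsup ψ hψ m hm
  rw [← hdet]
  congr 1
  apply finsum_congr
  intro x
  rw [hψφ x]

end DadeExt

end Cfsg.Agent.Helper6
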