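import Cfsg.Agent.Helper6.BrauerFeit2
import Cfsg.Agent.Helper6.PowCongr
import Cfsg.Agent.Helper25.CentralDefect

set_option autoImplicit false
set_option linter.unusedSectionVars false

/-!
# `p`-conjugate characters (helper6)
-/

namespace Cfsg.Agent.Helper6

open Cfsg
open scoped ComplexConjugate

section PConj

variable {G : Type*} [Group G] [Fintype G] {M : Ideal AlgInt} {p : ℕ} [Fact p.Prime]

theorem tilde_self_pos (χ : IrrCharacter G) :
    0 < Helper10.irrCoeff (Helper25.tildeFun p (χ : G → ℂ)) (χ : G → ℂ) := by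
  classical
  have hp : p.Prime := Fact.out
  obtain ⟨n, hnd⟩ : ∃ n : ℤ,
      n = Helper10.irrCoeff (Helper25.tildeFun p (χ : G → ℂ)) (χ : G → ℂ) := ⟨_, rfl⟩
  rw [← hnd]
  have hn : classInner (Helper25.tildeFun p (χ : G → ℂ)) (χ : G → ℂ) = (n : ℂ) := by
    rw [hnd]
    exact Helper25.tildeFun_inner χ χ
  obtain ⟨a, ha⟩ : ∃ a, a = (Nat.card G).factorization p := ⟨_, rfl⟩
  obtain ⟨S, hS⟩ : ∃ S : ℝ, S = ∑ y : G, if p ∣ orderOf y then 0
      else Complex.normSq ((χ : G → ℂ) y) := ⟨_, rfl⟩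
  have hin := lar_inner_eq (p := p) χ
  rw [← hS, hn, ← ha] at hin
  have hGpos : (0 : ℝ) < Nat.card G := by exact_mod_cast Nat.card_pos
  have hnS : (n : ℝ) * (Nat.card G : ℝ) = (p : ℝ) ^ a * S := by
    apply Complex.ofReal_injective
    push_cast
    rw [hin]
    have : (Nat.card G : ℂ) ≠ 0 := by exact_mod_cast hGpos.ne'
    field_simp
    push_cast
    ring
  have hSpos : 0 < S := by
    rw [hS]
    apply Finset.sum_pos'
    · intro g _
      split_ifs
      · exact le_refl _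
      · exact Complex.normSq_nonneg _
    · refine ⟨1, Finset.mem_univ _, ?_⟩
      rw [if_neg (by rw [orderOf_one]; exact hp.not_dvd_one)]
      exact Complex.normSq_pos.2 (Helper24.irr_one_ne_zero χ.2)
  have hppos : (0 : ℝ) < (p : ℝ) := by exact_mod_cast hp.pos
  have h1 : (0 : ℝ) < (n : ℝ) * (Nat.card G : ℝ) := by
    rw [hnS]
    positivity
  have h2 : (0 : ℝ) < (n : ℝ) := by
    by_contra hcon
    push_neg at hcon
    nlinarith
  exact_mod_cast h2

theorem pconj_sum_nat (Q : Subgroup G) [Fintype Q] (χ : IrrCharacter G) :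
    ∃ m : ℕ, ∑ x : Q, (χ : G → ℂ) x = (Nat.card Q : ℂ) * m := by
  obtain ⟨m, hm⟩ := Helper2.classInner_char_nat
    (Helper24.isCharacter_restrict Q (Helper24.isCharacter_of_irr χ.2))
    (Helper2.isCharacter_one (G := Q))
  refine ⟨m, ?_⟩
  unfold classInner at hm
  have hQ0 : (Nat.card Q : ℂ) ≠ 0 := by exact_mod_cast Nat.card_pos.ne'
  have h1 : ∑ g : Q, (χ : G → ℂ) g * conj ((fun _ : Q => (1 : ℂ)) g) = ∑ x : Q, (χ : G → ℂ) x := by
    refine Finset.sum_congr rfl fun g _ => ?_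
    simp
  rw [h1] at hm
  rw [← hm]
  field_simp

theorem pconj_main [Fintype (IrrCharacter G)] (hpM : IsPModular p M) (χ : IrrCharacter G)
    (S : Finset (IrrCharacter G)) (hχS : χ ∈ S)
    (hS : ∀ ψ ∈ S, ∀ x : G, ¬ p ∣ orderOf x → (ψ : G → ℂ) x = (χ : G → ℂ) x)
    (P : Sylow p G) [Fintype (P : Subgroup G)]
    (hSP : ∀ ψ ∈ S, ∑ x : (P : Subgroup G), (ψ : G → ℂ) x
      = ∑ x : (P : Subgroup G), (χ : G → ℂ) x) :
    (S.card * charDegree (χ : G → ℂ)).factorization p ≤ (Nat.card G).factorization p ∧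
      (p ^ (Nat.card G).factorization p ∣ S.card * charDegree (χ : G → ℂ) →
        p ^ (Nat.card G).factorization p ∣ charDegree (χ : G → ℂ)) := by
  classical
  have hp : p.Prime := Fact.out
  have hM := hpM.2.1.isPrime
  obtain ⟨a, ha⟩ : ∃ a, a = (Nat.card G).factorization p := ⟨_, rfl⟩
  rw [← ha]
  obtain ⟨ν, hν⟩ : ∃ ν, ν = (charDegree (χ : G → ℂ)).factorization p := ⟨_, rfl⟩
  obtain ⟨r, hr⟩ : ∃ r, r = S.card := ⟨_, rfl⟩
  rw [← hr]
  have hrpos : 0 < r := by
    rw [hr]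
    exact Finset.card_pos.2 ⟨χ, hχS⟩
  have hdeg0 := Helper25.charDegree_irr_ne_zero χ
  obtain ⟨n, hn⟩ : ∃ n : IrrCharacter G → ℤ, n = fun ψ : IrrCharacter G =>
      Helper10.irrCoeff (Helper25.tildeFun p (χ : G → ℂ)) (ψ : G → ℂ) := ⟨_, rfl⟩
  have hn' : ∀ φ : IrrCharacter G,
      n φ = Helper10.irrCoeff (Helper25.tildeFun p (χ : G → ℂ)) (φ : G → ℂ) := by
    intro φ
    rw [hn]
  have hnspec : ∀ ψ : IrrCharacter G,
      classInner (Helper25.tildeFun p (χ : G → ℂ)) (ψ : G → ℂ) = (n ψ : ℂ) := by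
    intro ψ
    rw [hn' ψ]
    exact Helper25.tildeFun_inner χ ψ
  have hpars : ((p : ℤ) ^ a) * n χ = ∑ φ : IrrCharacter G, n φ * n φ := by
    have h := bf2_parseval (p := p) χ
    rw [← ha] at h
    simp only [hn']
    exact h
  have hnS : ∀ ψ ∈ S, n ψ = n χ := by
    intro ψ hψ
    have h1 : classInner (Helper25.tildeFun p (χ : G → ℂ)) (ψ : G → ℂ)
        = classInner (Helper25.tildeFun p (χ : G → ℂ)) (χ : G → ℂ) := by
      unfold classInner
      congr 1
      refine Finset.sum_congr rfl fun x _ => ?_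
      by_cases hx : p ∣ orderOf x
      · simp only [Helper25.tildeFun, if_pos hx, zero_mul]
      · rw [hS ψ hψ x hx]
    rw [hnspec, hnspec] at h1
    exact_mod_cast h1
  have hdvd : (p : ℤ) ^ ν ∣ n χ := by
    rw [hν]
    exact hb_tilde_dvd hpM χ χ (n χ) (hnspec χ)
  have hnpos : 0 < n χ := by
    rw [hn' χ]
    exact tilde_self_pos χ
  have hsumS : ∑ φ ∈ S, n φ * n φ = (r : ℤ) * (n χ * n χ) := by
    rw [Finset.sum_congr rfl (fun φ hφ => by rw [hnS φ hφ]), Finset.sum_const, nsmul_eq_mul, hr]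
  have hle : (r : ℤ) * (n χ * n χ) ≤ (p : ℤ) ^ a * n χ := by
    rw [hpars, ← hsumS]
    exact Finset.sum_le_sum_of_subset_of_nonneg (Finset.subset_univ S)
      (fun φ _ _ => mul_self_nonneg _)
  have hrn : (r : ℤ) * n χ ≤ (p : ℤ) ^ a := by
    have h1 : ((r : ℤ) * n χ) * n χ ≤ (p : ℤ) ^ a * n χ := by
      rw [mul_assoc]
      exact hle
    exact le_of_mul_le_mul_right h1 hnpos
  obtain ⟨j, hj⟩ : ∃ j, j = r.factorization p := ⟨_, rfl⟩
  have hfac : (r * charDegree (χ : G → ℂ)).factorization p = j + ν := by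
    rw [Nat.factorization_mul hrpos.ne' hdeg0, Finsupp.add_apply, ← hj, ← hν]
  have hpj : p ^ j ∣ r := by
    rw [hj]
    exact Nat.ordProj_dvd r p
  have hdvd2 : (p : ℤ) ^ (j + ν) ∣ (r : ℤ) * n χ := by
    rw [pow_add]
    exact mul_dvd_mul (by exact_mod_cast hpj) hdvd
  have hrnpos : 0 < (r : ℤ) * n χ := mul_pos (by exact_mod_cast hrpos) hnpos
  have hle2 : (p : ℤ) ^ (j + ν) ≤ (p : ℤ) ^ a := (Int.le_of_dvd hrnpos hdvd2).trans hrn
  have hjν : j + ν ≤ a := by
    have h1 : p ^ (j + ν) ≤ p ^ a := by exact_mod_cast hle2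
    exact (Nat.pow_le_pow_iff_right hp.one_lt).1 h1
  refine ⟨by rw [hfac]; exact hjν, ?_⟩
  intro hdiv
  have haj : a ≤ j + ν := by
    rw [← hfac]
    exact (hp.pow_dvd_iff_le_factorization (Nat.mul_ne_zero hrpos.ne' hdeg0)).1 hdiv
  have heq : j + ν = a := le_antisymm hjν haj
  have hrn_eq : (r : ℤ) * n χ = (p : ℤ) ^ a := by
    apply le_antisymm hrn
    rw [← heq]
    exact Int.le_of_dvd hrnpos hdvd2
  have hout : ∀ φ : IrrCharacter G, φ ∉ S → n φ = 0 := by
    have h1 : ∑ φ ∈ Finset.univ \ S, n φ * n φ = 0 := by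
      have h2 := Finset.sum_sdiff (Finset.subset_univ S) (f := fun φ => n φ * n φ)
      rw [hsumS, ← hpars, ← hrn_eq] at h2
      linarith
    intro φ hφ
    have h3 := (Finset.sum_eq_zero_iff_of_nonneg (fun φ _ => mul_self_nonneg (n φ))).1 h1 φ
      (Finset.mem_sdiff.2 ⟨Finset.mem_univ _, hφ⟩)
    exact mul_self_eq_zero.1 h3
  have hexp := Helper10.gen_expansion (Helper25.tildeFun_gen (p := p) χ)
  obtain ⟨m, hm⟩ := pconj_sum_nat (P : Subgroup G) χ
  have hPcard : Nat.card (P : Subgroup G) = p ^ a := by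
    rw [ha]
    exact Sylow.card_eq_multiplicity P
  have hL : ∑ x : (P : Subgroup G), Helper25.tildeFun p (χ : G → ℂ) x
      = ((p ^ a : ℕ) : ℂ) * (χ : G → ℂ) 1 := by
    rw [Finset.sum_eq_single (1 : (P : Subgroup G))]
    · simp only [Helper25.tildeFun]
      rw [if_neg (by rw [Subgroup.coe_one, orderOf_one]; exact hp.not_dvd_one), ← ha,
        Subgroup.coe_one]
    · intro x _ hx
      have hx1 : (x : G) ≠ 1 := fun h => hx (Subtype.ext h)
      simp only [Helper25.tildeFun]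
      rw [if_pos (Helper25.pgroup_ne_one_dvd_orderOf P.isPGroup' x.2 hx1)]
    · intro h
      exact absurd (Finset.mem_univ _) h
  have hR : ∑ x : (P : Subgroup G), Helper25.tildeFun p (χ : G → ℂ) x
      = (n χ : ℂ) * ((r : ℂ) * ((Nat.card (P : Subgroup G) : ℂ) * m)) := by
    have h1 : ∀ x : (P : Subgroup G), Helper25.tildeFun p (χ : G → ℂ) x
        = ∑ φ : IrrCharacter G, (n φ : ℂ) * (φ : G → ℂ) x := by
      intro x
      have h2 := congrFun hexp (x : G)
      rw [Finset.sum_apply] at h2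
      simp only [hn']
      simpa using h2
    rw [Finset.sum_congr rfl (fun x _ => h1 x), Finset.sum_comm,
      ← Finset.sum_subset (Finset.subset_univ S)
        (fun φ _ hφ => by rw [hout φ hφ]; simp),
      Finset.sum_congr rfl (fun φ hφ => by rw [← Finset.mul_sum, hnS φ hφ, hSP φ hφ, hm]),
      Finset.sum_const, nsmul_eq_mul, ← hr]
    ring
  have hfinal : ((p ^ a : ℕ) : ℂ) * (χ : G → ℂ) 1
      = (n χ : ℂ) * ((r : ℂ) * (((p ^ a : ℕ) : ℂ) * m)) := by
    rw [← hL, hR, hPcard]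
  have hcast : (r : ℂ) * (n χ : ℂ) = (p : ℂ) ^ a := by
    exact_mod_cast congrArg (fun t : ℤ => (t : ℂ)) hrn_eq
  have hdegm : (charDegree (χ : G → ℂ) : ℂ) = ((p ^ a * m : ℕ) : ℂ) := by
    rw [← Helper24.charDegree_spec (Helper24.isCharacter_of_irr χ.2)]
    have hpa0 : ((p ^ a : ℕ) : ℂ) ≠ 0 := by exact_mod_cast (pow_pos hp.pos a).ne'
    apply mul_left_cancel₀ hpa0
    rw [hfinal]
    push_cast
    linear_combination ((p : ℂ) ^ a * m) * hcast
  exact ⟨m, by exact_mod_cast hdegm⟩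

end PConj

end Cfsg.Agent.Helper6
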