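import Cfsg.Agent.Helper6.BrauerFeit2
import Cfsg.Agent.Helper6.PConj
import Cfsg.Agent.Helper25.ExtFirstMain
import Cfsg.Agent.Helper25.SecondMain2
import Cfsg.Agent.S0924

set_option autoImplicit false
set_option linter.unusedSectionVars false

/-!
# Blocks of defect one for the prime two (helper6)
-/

namespace Cfsg.Agent.Helper6

open Cfsg
open scoped ComplexConjugate

section DefectOne2

variable {G : Type*} [Group G] [Fintype G] {M : Ideal AlgInt}

/-- Structure of a `2`-block of defect one: two characters, equal on odd-order elements and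
opposite on even-order elements. -/
theorem d1_structure [Fintype (IrrCharacter G)] (hpM : IsPModular 2 M)
    (B : Set (IrrCharacter G)) (hB : IsPBlock M B) (hd1 : blockDefect 2 B = 1) :
    ∃ χ₁ χ₂ : IrrCharacter G, χ₁ ≠ χ₂ ∧ (∀ φ : IrrCharacter G, φ ∈ B ↔ φ = χ₁ ∨ φ = χ₂) ∧
      (∀ g : G, ¬ 2 ∣ orderOf g → (χ₁ : G → ℂ) g = (χ₂ : G → ℂ) g) ∧
      (∀ g : G, 2 ∣ orderOf g → (χ₂ : G → ℂ) g = - (χ₁ : G → ℂ) g) := by
  classical
  haveI : Fact (Nat.Prime 2) := ⟨Nat.prime_two⟩
  have hM := hpM.2.1.isPrime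
  obtain ⟨χ, hχ, h0, hda, hval⟩ := bf2_setup hpM B hB
  obtain ⟨a, ha⟩ : ∃ a, a = (Nat.card G).factorization 2 := ⟨_, rfl⟩
  obtain ⟨e, he⟩ : ∃ e, e = (charDegree (χ : G → ℂ)).factorization 2 := ⟨_, rfl⟩
  rw [← ha, ← he, hd1] at hda
  obtain ⟨n, hn⟩ : ∃ n : IrrCharacter G → ℤ, n = fun ψ : IrrCharacter G =>
      Helper10.irrCoeff (Helper25.tildeFun 2 (χ : G → ℂ)) (ψ : G → ℂ) := ⟨_, rfl⟩
  have hn' : ∀ φ : IrrCharacter G,
      n φ = Helper10.irrCoeff (Helper25.tildeFun 2 (χ : G → ℂ)) (φ : G → ℂ) := by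
    intro φ
    rw [hn]
  have hnspec : ∀ ψ : IrrCharacter G,
      classInner (Helper25.tildeFun 2 (χ : G → ℂ)) (ψ : G → ℂ) = (n ψ : ℂ) := by
    intro ψ
    rw [hn' ψ]
    exact Helper25.tildeFun_inner χ ψ
  have hpars : ((2 : ℤ) ^ a) * n χ = ∑ φ : IrrCharacter G, n φ * n φ := by
    have h := bf2_parseval (p := 2) χ
    rw [← ha] at h
    simp only [hn']
    exact_mod_cast h
  have hzero : ∀ ψ : IrrCharacter G, ψ ∉ B → n ψ = 0 := by
    intro ψ hψ
    have hns : ¬ SameBlock M (χ : G → ℂ) (ψ : G → ℂ) :=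
      fun hs => hψ (Helper25.mem_block_of_sameBlock hM hB hχ hs)
    have h1 := Helper25.classInner_tildeFun_eq_zero hpM χ ψ hns
    rw [hnspec] at h1
    exact_mod_cast h1
  have hin : ∀ ψ : IrrCharacter G, ψ ∈ B → ∃ m : ℤ, m ≠ 0 ∧ n ψ = (2 : ℤ) ^ e * m := by
    intro ψ hψ
    have h1 := hb_tilde_dvd hpM χ ψ (n ψ) (hnspec ψ)
    rw [hval ψ hψ, ← he, pow_add] at h1
    obtain ⟨m, hm⟩ := h1
    refine ⟨(2 : ℤ) ^ blockHeight 2 B (ψ : G → ℂ) * m, ?_, ?_⟩
    · intro hz
      have h3 := Helper25.height_zero_ratio_not_mem hpM hB χ hχ h0 ψ hψ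
      apply h3
      have h4 : n ψ = 0 := by
        rw [hm]
        push_cast
        rw [mul_assoc, hz, mul_zero]
      rw [hnspec, h4, Int.cast_zero, zero_div]
      exact Helper25.MemLocalIdeal.zero hM.ne_top
    · rw [hm]
      push_cast
      ring
  obtain ⟨F, hF⟩ : ∃ F : Finset (IrrCharacter G), F = Finset.univ.filter (· ∈ B) := ⟨_, rfl⟩
  have hmemF : ∀ φ : IrrCharacter G, φ ∈ F ↔ φ ∈ B := by
    intro φ
    rw [hF]
    simp
  have hχF : χ ∈ F := (hmemF χ).2 hχ
  have hsumF : ∑ φ : IrrCharacter G, n φ * n φ = ∑ φ ∈ F, n φ * n φ := by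
    rw [hF, Finset.sum_filter]
    refine Finset.sum_congr rfl fun φ _ => ?_
    split_ifs with h
    · rfl
    · rw [hzero φ h, mul_zero]
  obtain ⟨m, hm0, hm⟩ := hin χ hχ
  have hP : (0 : ℤ) < (2 : ℤ) ^ e := pow_pos (by norm_num) e
  have hPP : (0 : ℤ) < (2 : ℤ) ^ e * (2 : ℤ) ^ e := mul_pos hP hP
  have hmpos : 0 < m := by
    have h1 := tilde_self_pos (p := 2) χ
    rw [← hn' χ, hm] at h1
    exact (mul_pos_iff_of_pos_left hP).1 h1
  have hsplit : ∑ φ ∈ F, n φ * n φ = n χ * n χ + ∑ φ ∈ F.erase χ, n φ * n φ :=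
    (Finset.add_sum_erase F _ hχF).symm
  have hrest : ∑ φ ∈ F.erase χ, n φ * n φ = ((2 : ℤ) ^ e * (2 : ℤ) ^ e) * (2 * m - m * m) := by
    have h1 : (2 : ℤ) ^ a * n χ = n χ * n χ + ∑ φ ∈ F.erase χ, n φ * n φ := by
      rw [hpars, hsumF, hsplit]
    rw [← hda, pow_add, hm] at h1
    linarith
  have hlower : ∑ φ ∈ F.erase χ, ((2 : ℤ) ^ e * (2 : ℤ) ^ e)
      ≤ ∑ φ ∈ F.erase χ, n φ * n φ := by
    apply Finset.sum_le_sum
    intro φ hφ
    have hφB : φ ∈ B := (hmemF φ).1 (Finset.mem_of_mem_erase hφ)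
    obtain ⟨m', hm'0, hm'⟩ := hin φ hφB
    rw [hm']
    have h1 : 1 ≤ m' * m' := Int.add_one_le_iff.2 (mul_self_pos.2 hm'0)
    nlinarith
  rw [Finset.sum_const, nsmul_eq_mul, hrest] at hlower
  have hcard : ((F.erase χ).card : ℤ) ≤ 2 * m - m * m := by
    have h3 : ((F.erase χ).card : ℤ) * ((2 : ℤ) ^ e * (2 : ℤ) ^ e)
        ≤ (2 * m - m * m) * ((2 : ℤ) ^ e * (2 : ℤ) ^ e) := by
      rw [mul_comm (2 * m - m * m)]
      exact hlower
    exact le_of_mul_le_mul_right h3 hPP
  have hcard0 : (0 : ℤ) ≤ ((F.erase χ).card : ℤ) := Int.natCast_nonneg _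
  have hm12 : m = 1 ∨ m = 2 := by
    have h1 : m ≤ 2 := by nlinarith
    omega
  have hdegχ : (χ : G → ℂ) 1 = (charDegree (χ : G → ℂ) : ℂ) := Helper25.irr_one_eq_degree χ
  have hdeg0 : charDegree (χ : G → ℂ) ≠ 0 := Helper25.charDegree_irr_ne_zero χ
  rcases hm12 with rfl | rfl
  · -- the main case
    have hc1 : (F.erase χ).card = 1 := by
      have h1 : (F.erase χ).card ≤ 1 := by
        have : ((F.erase χ).card : ℤ) ≤ 1 := by linarith
        exact_mod_cast this
      rcases Nat.lt_or_ge (F.erase χ).card 1 with h2 | h2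
      · exfalso
        have h3 : F.erase χ = ∅ := Finset.card_eq_zero.1 (by omega)
        rw [h3, Finset.sum_empty] at hrest
        nlinarith
      · omega
    obtain ⟨ψ, hψe⟩ := Finset.card_eq_one.1 hc1
    have hψmem : ψ ∈ F.erase χ := by
      rw [hψe]
      exact Finset.mem_singleton_self ψ
    have hψne : ψ ≠ χ := Finset.ne_of_mem_erase hψmem
    have hψB : ψ ∈ B := (hmemF ψ).1 (Finset.mem_of_mem_erase hψmem)
    rw [hψe, Finset.sum_singleton] at hrest
    obtain ⟨m', hm'0, hm'⟩ := hin ψ hψB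
    have hm'sq : m' * m' = 1 := by
      rw [hm'] at hrest
      have h1 : ((2 : ℤ) ^ e * (2 : ℤ) ^ e) * (m' * m') = ((2 : ℤ) ^ e * (2 : ℤ) ^ e) * 1 := by
        linarith
      exact mul_left_cancel₀ hPP.ne' h1
    have hBiff : ∀ φ : IrrCharacter G, φ ∈ B ↔ φ = χ ∨ φ = ψ := by
      intro φ
      constructor
      · intro hφ
        by_cases hφχ : φ = χ
        · exact Or.inl hφχ
        · right
          have h1 : φ ∈ F.erase χ := Finset.mem_erase.2 ⟨hφχ, (hmemF φ).2 hφ⟩
          rw [hψe] at h1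
          exact Finset.mem_singleton.1 h1
      · rintro (rfl | rfl)
        · exact hχ
        · exact hψB
    -- the expansion of the truncation
    have hexp : ∀ g : G, Helper25.tildeFun 2 (χ : G → ℂ) g
        = (n χ : ℂ) * (χ : G → ℂ) g + (n ψ : ℂ) * (ψ : G → ℂ) g := by
      intro g
      have h1 := congrFun (Helper10.gen_expansion (Helper25.tildeFun_gen (p := 2) χ)) g
      rw [Finset.sum_apply] at h1
      rw [h1]
      have h2 : ∀ φ : IrrCharacter G,
          ((Helper10.irrCoeff (Helper25.tildeFun 2 (χ : G → ℂ)) (φ : G → ℂ) : ℂ)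
            • (φ : G → ℂ)) g = (n φ : ℂ) * (φ : G → ℂ) g := by
        intro φ
        rw [hn' φ]
        rfl
      rw [Finset.sum_congr rfl (fun φ _ => h2 φ)]
      have h3 : ∑ φ : IrrCharacter G, (n φ : ℂ) * (φ : G → ℂ) g
          = ∑ φ ∈ F, (n φ : ℂ) * (φ : G → ℂ) g := by
        rw [hF, Finset.sum_filter]
        refine Finset.sum_congr rfl fun φ _ => ?_
        split_ifs with h
        · rfl
        · rw [hzero φ h, Int.cast_zero, zero_mul]
      rw [h3, ← Finset.add_sum_erase F _ hχF, hψe, Finset.sum_singleton]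
    have h2e : ((2 : ℂ) ^ e) ≠ 0 := pow_ne_zero _ two_ne_zero
    have hnχ : (n χ : ℂ) = (2 : ℂ) ^ e := by
      rw [hm]
      push_cast
      ring
    have hnψ : (n ψ : ℂ) = (2 : ℂ) ^ e * (m' : ℂ) := by
      rw [hm']
      push_cast
      ring
    have htil1 : Helper25.tildeFun 2 (χ : G → ℂ) 1 = (2 : ℂ) * (2 : ℂ) ^ e * (χ : G → ℂ) 1 := by
      unfold Helper25.tildeFun
      rw [if_neg (by rw [orderOf_one]; norm_num), ← ha, ← hda]
      push_cast
      ring
    have hdegψ : (ψ : G → ℂ) 1 = (charDegree (ψ : G → ℂ) : ℂ) := Helper25.irr_one_eq_degree ψ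
    have hdegψ0 : charDegree (ψ : G → ℂ) ≠ 0 := Helper25.charDegree_irr_ne_zero ψ
    have hone : (χ : G → ℂ) 1 = (m' : ℂ) * (ψ : G → ℂ) 1 := by
      have h1 := hexp 1
      rw [htil1, hnχ, hnψ] at h1
      have h2 : (2 : ℂ) ^ e * (2 * (χ : G → ℂ) 1)
          = (2 : ℂ) ^ e * ((χ : G → ℂ) 1 + (m' : ℂ) * (ψ : G → ℂ) 1) := by
        rw [mul_add]
        linear_combination h1
      have h3 := mul_left_cancel₀ h2e h2
      linear_combination h3
    have hm'1 : m' = 1 := by
      have h1 : m' = 1 ∨ m' = -1 := by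
        have h2 : (m' - 1) * (m' + 1) = 0 := by linarith
        rcases mul_eq_zero.1 h2 with h | h
        · left; linarith
        · right; linarith
      rcases h1 with h | h
      · exact h
      · exfalso
        rw [h, hdegχ, hdegψ] at hone
        have h3 : ((charDegree (χ : G → ℂ) : ℤ) : ℂ)
            = ((-(charDegree (ψ : G → ℂ) : ℤ) : ℤ) : ℂ) := by
          push_cast
          push_cast at hone
          linear_combination hone
        have h4 : (charDegree (χ : G → ℂ) : ℤ) = -(charDegree (ψ : G → ℂ) : ℤ) := by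
          exact_mod_cast h3
        omega
    rw [hm'1, Int.cast_one, mul_one] at hnψ
    refine ⟨χ, ψ, hψne.symm, hBiff, ?_, ?_⟩
    · intro g hg
      have h1 := hexp g
      rw [hnχ, hnψ] at h1
      unfold Helper25.tildeFun at h1
      rw [if_neg hg, ← ha, ← hda] at h1
      push_cast at h1
      have h2 : (2 : ℂ) ^ e * (2 * (χ : G → ℂ) g)
          = (2 : ℂ) ^ e * ((χ : G → ℂ) g + (ψ : G → ℂ) g) := by
        rw [mul_add]
        rw [pow_add] at h1
        linear_combination h1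
      have h3 := mul_left_cancel₀ h2e h2
      linear_combination h3
    · intro g hg
      have h1 := hexp g
      rw [hnχ, hnψ] at h1
      unfold Helper25.tildeFun at h1
      rw [if_pos hg] at h1
      have h2 : (2 : ℂ) ^ e * ((χ : G → ℂ) g + (ψ : G → ℂ) g) = (2 : ℂ) ^ e * 0 := by
        rw [mul_add, mul_zero]
        exact h1.symm
      have h3 := mul_left_cancel₀ h2e h2
      linear_combination h3
  · -- `m = 2` contradicts the unit property
    exfalso
    have h3 := Helper25.height_zero_ratio_not_mem hpM hB χ hχ h0 χ hχ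
    apply h3
    rw [hnspec, hm, hdegχ]
    have h4 : (((2 : ℤ) ^ e * 2 : ℤ) : ℂ) / (charDegree (χ : G → ℂ) : ℂ)
        = (((2 ^ e : ℕ) : ℂ) / (charDegree (χ : G → ℂ) : ℂ)) * ((2 : ℕ) : ℂ) := by
      push_cast
      ring
    rw [h4]
    refine Helper25.MemLocalIdeal.mul_left hM
      (Helper25.natCast_div_memLocalRing hpM hdeg0 ?_)
      ((Helper25.memLocalIdeal_natCast_iff hpM 2).2 dvd_rfl)
    rw [← he, Nat.factorization_pow]
    simp [Nat.Prime.factorization_self Nat.prime_two]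

/-- The elements of the group generated by an involution. -/
theorem d1_zpowers (x : G) (hx : orderOf x = 2) (w : G) (hw : w ∈ Subgroup.zpowers x) :
    w = 1 ∨ w = x := by
  classical
  rw [mem_zpowers_iff_mem_range_orderOf, hx] at hw
  obtain ⟨k, hk, rfl⟩ := Finset.mem_image.1 hw
  have hk2 : k < 2 := Finset.mem_range.1 hk
  interval_cases k
  · left; simp
  · right; simp

/-- Sum over the odd-order elements for a pair of characters equal on odd-order elements and
opposite on even-order elements. -/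
theorem d1_regsum (χ₁ χ₂ : IrrCharacter G) (hne : χ₁ ≠ χ₂)
    (hreg : ∀ g : G, ¬ 2 ∣ orderOf g → (χ₁ : G → ℂ) g = (χ₂ : G → ℂ) g)
    (hsing : ∀ g : G, 2 ∣ orderOf g → (χ₂ : G → ℂ) g = - (χ₁ : G → ℂ) g) :
    2 * ∑ g : G, (if 2 ∣ orderOf g then 0 else (χ₁ : G → ℂ) g * conj ((χ₁ : G → ℂ) g))
      = (Nat.card G : ℂ) := by
  classical
  have h1 := Helper25.row_orth χ₁ χ₁
  have h2 := Helper25.row_orth χ₁ χ₂
  rw [if_pos rfl] at h1
  rw [if_neg hne] at h2
  have h3 : ∀ g : G, (χ₁ : G → ℂ) g * conj ((χ₁ : G → ℂ) g)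
        + (χ₁ : G → ℂ) g * conj ((χ₂ : G → ℂ) g)
      = 2 * (if 2 ∣ orderOf g then 0 else (χ₁ : G → ℂ) g * conj ((χ₁ : G → ℂ) g)) := by
    intro g
    by_cases hg : 2 ∣ orderOf g
    · rw [if_pos hg, hsing g hg, map_neg]
      ring
    · rw [if_neg hg, ← hreg g hg]
      ring
  rw [Finset.mul_sum, ← Finset.sum_congr rfl (fun g _ => h3 g), Finset.sum_add_distrib, h1, h2,
    add_zero]

/-- Section decomposition when only one class of nontrivial `p`-parts contributes. -/
theorem d1_section {p : ℕ} [Fact p.Prime] (F : G → ℂ) (hF : IsClassFunction G F) (x : G)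
    (hx : ∃ k : ℕ, orderOf x = p ^ k) (hx1 : x ≠ 1)
    [Fintype (Subgroup.centralizer ({x} : Set G))]
    (hvan : ∀ g z : G, IsPPart p g z → z ≠ 1 → ¬ IsConj z x → F g = 0) :
    ∑ g : G, F g = ∑ g : G, (if p ∣ orderOf g then 0 else F g)
      + ((Subgroup.centralizer ({x} : Set G)).index : ℂ)
        * ∑ y : Subgroup.centralizer ({x} : Set G),
            (if p ∣ orderOf y then 0 else F (x * (y : G))) := by
  classical
  have h1 : ∑ g : G, F g = ∑ z : G, ∑ g : G, (if IsPPart p g z then F g else 0) := by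
    rw [Finset.sum_comm]
    refine Finset.sum_congr rfl fun g _ => ?_
    obtain ⟨z₀, hz₀⟩ := Helper25.exists_isPPart p g
    rw [Finset.sum_eq_single z₀]
    · rw [if_pos hz₀]
    · intro z _ hz
      rw [if_neg]
      intro h
      exact hz (Helper25.isPPart_unique h hz₀)
    · intro h
      exact absurd (Finset.mem_univ _) h
  have hS1 : ∑ g : G, (if IsPPart p g 1 then F g else 0)
      = ∑ g : G, (if p ∣ orderOf g then 0 else F g) := by
    refine Finset.sum_congr rfl fun g _ => ?_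
    have hiff : IsPPart p g 1 ↔ ¬ p ∣ orderOf g := by
      constructor
      · rintro ⟨y, hy, _, _, hny⟩
        rw [one_mul] at hy
        rw [← hy]
        exact hny
      · intro h
        exact ⟨g, one_mul g, Commute.one_left g, ⟨0, by simp⟩, h⟩
    by_cases h : p ∣ orderOf g
    · rw [if_pos h, if_neg (fun h' => (hiff.1 h') h)]
    · rw [if_neg h, if_pos (hiff.2 h)]
  have hSconj : ∀ z : G, IsConj z x → ∑ g : G, (if IsPPart p g z then F g else 0)
      = ∑ g : G, (if IsPPart p g x then F g else 0) := by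
    intro z hc
    obtain ⟨c, hc'⟩ := isConj_iff.1 hc
    have h2 := Helper25.sum_isPPart_conj (p := p) F hF z c
    rw [← h2]
    refine Finset.sum_congr rfl fun g _ => ?_
    rw [hc']
  have hS0 : ∀ z : G, z ≠ 1 → ¬ IsConj z x →
      ∑ g : G, (if IsPPart p g z then F g else 0) = 0 := by
    intro z hz1 hzc
    apply Finset.sum_eq_zero
    intro g _
    split_ifs with h
    · exact hvan g z h hz1 hzc
    · rfl
  have h2 : ∀ z : G, ∑ g : G, (if IsPPart p g z then F g else 0)
      = (if z = 1 then ∑ g : G, (if p ∣ orderOf g then 0 else F g) else 0)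
        + (if IsConj z x then ∑ g : G, (if IsPPart p g x then F g else 0) else 0) := by
    intro z
    by_cases hz1 : z = 1
    · subst hz1
      rw [if_pos rfl, if_neg, add_zero, hS1]
      intro hc
      exact hx1 (isConj_one_right.1 hc)
    · rw [if_neg hz1, zero_add]
      by_cases hzc : IsConj z x
      · rw [if_pos hzc, hSconj z hzc]
      · rw [if_neg hzc, hS0 z hz1 hzc]
  rw [h1, Finset.sum_congr rfl fun z _ => h2 z, Finset.sum_add_distrib,
    Finset.sum_ite_eq' Finset.univ (1 : G), if_pos (Finset.mem_univ _)]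
  congr 1
  rw [← Finset.sum_filter, Finset.sum_const, nsmul_eq_mul]
  have hcard : (Finset.univ.filter (fun g : G => IsConj g x)).card
      = (Subgroup.centralizer ({x} : Set G)).index := by
    rw [Helper2.index_centralizer_eq_card_conj, Nat.card_eq_fintype_card, Fintype.card_subtype]
  rw [hcard, Helper25.sum_isPPart_eq F x hx]

/-- The block of the centralizer of the involution inducing `B` is unique. -/
theorem d1_unique (hpM : IsPModular 2 M) (x : G) (hx : orderOf x = 2)
    (B : Set (IrrCharacter G)) (hBD : IsDefectGroup 2 M B (Subgroup.zpowers x))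
    (b b' : Set (IrrCharacter (Subgroup.centralizer ({x} : Set G))))
    (hb : IsInducedBlock M (Subgroup.centralizer ({x} : Set G)) b B)
    (hb' : IsInducedBlock M (Subgroup.centralizer ({x} : Set G)) b' B) :
    ∀ θ ∈ b, θ ∈ b' := by
  classical
  haveI : Fact (Nat.Prime 2) := ⟨Nat.prime_two⟩
  have := Helper24.finite_irrCharacter (G := G)
  haveI : Fintype (IrrCharacter G) := Fintype.ofFinite _
  have hx1 : x ≠ 1 := by
    rintro rfl
    rw [orderOf_one] at hx
    omega
  have hxC : x ∈ Subgroup.centralizer ({x} : Set G) := by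
    rw [Subgroup.mem_centralizer_iff]
    intro h hh
    rw [Set.mem_singleton_iff.1 hh]
  have hL : Subgroup.centralizer ({x} : Set G) = Subgroup.zpowers x
      ⊔ Subgroup.centralizer ((Subgroup.zpowers x : Subgroup G) : Set G) := by
    rw [← Helper25.centralizer_singleton_eq_zpowers x]
    exact (sup_eq_right.2 ((Subgroup.zpowers_le).2 hxC)).symm
  obtain ⟨n, hn, hcorr⟩ := Helper25.ext_first_main_conj hpM (Subgroup.zpowers x) _ hL B hBD
    b b' hb hb'
  have h1 : n * x * n⁻¹ ∈ Subgroup.zpowers x :=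
    (Subgroup.mem_normalizer_iff.1 hn x).1 (Subgroup.mem_zpowers x)
  have h2 : n * x * n⁻¹ = x := by
    rcases d1_zpowers x hx _ h1 with h | h
    · exfalso
      apply hx1
      have h3 : x = n⁻¹ * (n * x * n⁻¹) * n := by group
      rw [h3, h]
      group
    · exact h
  have hnC : n ∈ Subgroup.centralizer ({x} : Set G) := by
    rw [Subgroup.mem_centralizer_iff]
    intro h hh
    rw [Set.mem_singleton_iff.1 hh]
    calc x * n = (n * x * n⁻¹) * n := by rw [h2]
      _ = n * x := by group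
  intro θ hθ
  obtain ⟨θ', hθ', heq⟩ := hcorr θ hθ
  have hθθ' : θ' = θ := by
    apply Subtype.ext
    funext c
    have hc : n * (c : G) * n⁻¹ ∈ Subgroup.centralizer ({x} : Set G) :=
      Subgroup.mul_mem _ (Subgroup.mul_mem _ hnC c.2) (Subgroup.inv_mem _ hnC)
    rw [heq c hc]
    exact Helper2.IsIrrCharacter.isClassFunction θ.2 c ⟨n, hnC⟩
  rw [← hθθ']
  exact hθ'

theorem d1_split {ι : Type*} [Fintype ι] [DecidableEq ι] (A : Set ι) [DecidablePred (· ∈ A)]
    (a b : ι) (hab : a ≠ b) (hA : ∀ i, i ∉ A ↔ i = a ∨ i = b) (f : ι → ℂ) :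
    ∑ i, f i = ∑ i, (if i ∈ A then f i else 0) + (f a + f b) := by
  have h1 : ∀ i, f i = (if i ∈ A then f i else 0)
      + (if i ∈ ({a, b} : Finset ι) then f i else 0) := by
    intro i
    by_cases hi : i ∈ A
    · have h2 : i ∉ ({a, b} : Finset ι) := by
        intro h
        rw [Finset.mem_insert, Finset.mem_singleton] at h
        exact ((hA i).2 h) hi
      rw [if_pos hi, if_neg h2, add_zero]
    · have h2 : i ∈ ({a, b} : Finset ι) := by
        rw [Finset.mem_insert, Finset.mem_singleton]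
        exact (hA i).1 hi
      rw [if_neg hi, if_pos h2, zero_add]
  rw [Finset.sum_congr rfl (fun i _ => h1 i), Finset.sum_add_distrib, Finset.sum_ite_mem,
    Finset.univ_inter, Finset.sum_pair hab]

/-- Blocks of defect one for the prime two. -/
theorem d1_main (hpM : IsPModular 2 M) (x : G) (hx : orderOf x = 2)
    (B : Set (IrrCharacter G)) (hB : IsPBlock M B)
    (hBD : IsDefectGroup 2 M B (Subgroup.zpowers x))
    (b : Set (IrrCharacter (Subgroup.centralizer ({x} : Set G))))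
    (hb : IsInducedBlock M (Subgroup.centralizer ({x} : Set G)) b B)
    (θ : IrrCharacter (Subgroup.centralizer ({x} : Set G))) (hθ : θ ∈ b) :
    Nat.card B = 2 ∧
      (∀ χ ∈ B, ∀ ψ ∈ B, ∀ g : G, ¬ 2 ∣ orderOf g → (χ : G → ℂ) g = (ψ : G → ℂ) g) ∧
      ∃ χ₁ ∈ B, ∃ χ₂ ∈ B, χ₁ ≠ χ₂ ∧ ∃ ε₁ ε₂ : ℤ, (ε₁ = 1 ∨ ε₁ = -1) ∧ (ε₂ = 1 ∨ ε₂ = -1) ∧
        ε₁ * ε₂ = -1 ∧
        ∀ y : Subgroup.centralizer ({x} : Set G), ¬ 2 ∣ orderOf y →
          (χ₁ : G → ℂ) (x * y)
              = (ε₁ : ℂ) * (θ : Subgroup.centralizer ({x} : Set G) → ℂ) y ∧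
            (χ₂ : G → ℂ) (x * y)
              = (ε₂ : ℂ) * (θ : Subgroup.centralizer ({x} : Set G) → ℂ) y := by
  classical
  haveI : Fact (Nat.Prime 2) := ⟨Nat.prime_two⟩
  have hM := hpM.2.1.isPrime
  have := Helper24.finite_irrCharacter (G := G)
  haveI : Fintype (IrrCharacter G) := Fintype.ofFinite _
  haveI : Fintype (Subgroup.centralizer ({x} : Set G)) := Fintype.ofFinite _
  have := Helper24.finite_irrCharacter (G := Subgroup.centralizer ({x} : Set G))
  haveI : Fintype (IrrCharacter (Subgroup.centralizer ({x} : Set G))) := Fintype.ofFinite _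
  have hx1 : x ≠ 1 := by
    rintro rfl
    rw [orderOf_one] at hx
    omega
  have hxx : x * x = 1 := by
    have h := pow_orderOf_eq_one x
    rw [hx, pow_two] at h
    exact h
  have hxinv : x⁻¹ = x := inv_eq_of_mul_eq_one_left hxx
  have hxC : x ∈ Subgroup.centralizer ({x} : Set G) := by
    rw [Subgroup.mem_centralizer_iff]
    intro h hh
    rw [Set.mem_singleton_iff.1 hh]
  have hDC : Subgroup.zpowers x ≤ Subgroup.centralizer ({x} : Set G) :=
    (Subgroup.zpowers_le).2 hxC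
  have hCN : Subgroup.centralizer ({x} : Set G)
      ≤ Subgroup.normalizer ((Subgroup.zpowers x : Subgroup G) : Set G) := by
    rw [Helper25.centralizer_singleton_eq_zpowers x]
    exact Subgroup.centralizer_le_normalizer _
  have hcardD : Nat.card (Subgroup.zpowers x) = 2 := by rw [Nat.card_zpowers, hx]
  have hdB : blockDefect 2 B = 1 := by
    have h1 := Helper25.card_defectGroup hpM hB _ hBD
    rw [hcardD] at h1
    have h2 : 2 ^ 1 = 2 ^ blockDefect 2 B := by rw [pow_one]; exact h1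
    exact (Nat.pow_right_injective (le_refl 2) h2).symm
  have hDb := Helper25.defect_of_induced hpM (Subgroup.zpowers x)
    (Subgroup.centralizer ({x} : Set G)) hDC hCN b B hb hBD
  have hdb : blockDefect 2 b = 1 := by
    have h1 := Helper25.card_defectGroup hpM hb.1 _ hDb
    rw [Nat.card_congr (Subgroup.subgroupOfEquivOfLe hDC).toEquiv, hcardD] at h1
    have h2 : 2 ^ 1 = 2 ^ blockDefect 2 b := by rw [pow_one]; exact h1
    exact (Nat.pow_right_injective (le_refl 2) h2).symm
  obtain ⟨χ₁, χ₂, hne, hBiff, hreg, hsing⟩ := d1_structure hpM B hB hdB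
  obtain ⟨θ₁, θ₂, hθne, hbiff, hθreg, hθsing⟩ := d1_structure hpM b hb.1 hdb
  have hχ₁B : χ₁ ∈ B := (hBiff χ₁).2 (Or.inl rfl)
  have hχ₂B : χ₂ ∈ B := (hBiff χ₂).2 (Or.inr rfl)
  have hθθ₁ : ∀ y : Subgroup.centralizer ({x} : Set G), ¬ 2 ∣ orderOf y →
      (θ : Subgroup.centralizer ({x} : Set G) → ℂ) y
        = (θ₁ : Subgroup.centralizer ({x} : Set G) → ℂ) y := by
    intro y hy
    rcases (hbiff θ).1 hθ with h | h
    · rw [h]
    · rw [h]
      exact (hθreg y hy).symm
  obtain ⟨A, hAdef⟩ : ∃ A : Set (IrrCharacter (Subgroup.centralizer ({x} : Set G))),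
      A = bᶜ := ⟨_, rfl⟩
  have hAcl : ∀ ψ ∈ A, ∀ ψ₁ : IrrCharacter (Subgroup.centralizer ({x} : Set G)),
      SameBlock M (ψ : Subgroup.centralizer ({x} : Set G) → ℂ)
        (ψ₁ : Subgroup.centralizer ({x} : Set G) → ℂ) → ψ₁ ∈ A := by
    intro ψ hψ ψ₁ hs
    rw [hAdef] at hψ ⊢
    intro hψ₁
    exact hψ (Helper25.mem_block_of_sameBlock hM hb.1 hψ₁ (Helper25.sameBlock_symm hs))
  have hA : ∀ ψ ∈ A, ¬ IsInducedBlock M (Subgroup.centralizer ({x} : Set G))
      (blockOf M (ψ : Subgroup.centralizer ({x} : Set G) → ℂ)) B := by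
    intro ψ hψ hind
    rw [hAdef] at hψ
    apply hψ
    have h1 := d1_unique hpM x hx B hBD b _ hb hind θ hθ
    exact Helper25.mem_block_of_sameBlock hM hb.1 hθ
      (Helper25.sameBlock_symm (Helper25.mem_blockOf.1 h1))
  have hAmem : ∀ ψ : IrrCharacter (Subgroup.centralizer ({x} : Set G)),
      ψ ∉ A ↔ ψ = θ₁ ∨ ψ = θ₂ := by
    intro ψ
    rw [hAdef, Set.notMem_compl_iff]
    exact hbiff ψ
  have hexp : ∀ χ : IrrCharacter G, χ ∈ B →
      ∀ y : Subgroup.centralizer ({x} : Set G), ¬ 2 ∣ orderOf y →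
      (χ : G → ℂ) (x * (y : G))
        = (classInner (fun c : Subgroup.centralizer ({x} : Set G) => (χ : G → ℂ) (x * (c : G)))
              (θ₁ : Subgroup.centralizer ({x} : Set G) → ℂ)
            + classInner (fun c : Subgroup.centralizer ({x} : Set G) =>
                (χ : G → ℂ) (x * (c : G))) (θ₂ : Subgroup.centralizer ({x} : Set G) → ℂ))
          * (θ₁ : Subgroup.centralizer ({x} : Set G) → ℂ) y := by
    intro χ hχ y hy
    have h1 := Helper25.shift_expansion x (χ : G → ℂ)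
      (Helper2.IsIrrCharacter.isClassFunction χ.2) y
    have h2 := Helper25.second_main_closed hpM x ⟨1, by rw [hx, pow_one]⟩ B hB χ hχ A hAcl hA
      y hy
    rw [Helper25.finsum_mem_eq_sum_ite] at h2
    have h3 := d1_split A θ₁ θ₂ hθne hAmem
      (fun ψ : IrrCharacter (Subgroup.centralizer ({x} : Set G)) =>
        classInner (fun c : Subgroup.centralizer ({x} : Set G) => (χ : G → ℂ) (x * (c : G)))
          (ψ : Subgroup.centralizer ({x} : Set G) → ℂ)
          * (ψ : Subgroup.centralizer ({x} : Set G) → ℂ) y)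
    beta_reduce at h3
    rw [h3, h2, zero_add] at h1
    rw [h1, ← hθreg y hy]
    ring
  obtain ⟨κ, hκ⟩ : ∃ κ : ℂ, ∀ y : Subgroup.centralizer ({x} : Set G), ¬ 2 ∣ orderOf y →
      (χ₁ : G → ℂ) (x * (y : G)) = κ * (θ₁ : Subgroup.centralizer ({x} : Set G) → ℂ) y :=
    ⟨_, hexp χ₁ hχ₁B⟩
  have h1C : ¬ 2 ∣ orderOf (1 : Subgroup.centralizer ({x} : Set G)) := by
    rw [orderOf_one]
    norm_num
  have hκ1 := hκ 1 h1C
  rw [Subgroup.coe_one, mul_one] at hκ1
  have hχx : conj ((χ₁ : G → ℂ) x) = (χ₁ : G → ℂ) x := by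
    have h := Helper24.char_inv (Helper24.isCharacter_of_irr χ₁.2) x
    rw [← h, hxinv]
  have hκreal : conj κ = κ := by
    have hd : (θ₁ : Subgroup.centralizer ({x} : Set G) → ℂ) 1
        = (charDegree (θ₁ : Subgroup.centralizer ({x} : Set G) → ℂ) : ℂ) :=
      Helper25.irr_one_eq_degree θ₁
    have hd0 : (charDegree (θ₁ : Subgroup.centralizer ({x} : Set G) → ℂ) : ℂ) ≠ 0 :=
      Nat.cast_ne_zero.2 (Helper25.charDegree_irr_ne_zero θ₁)
    rw [hκ1, hd, map_mul, Complex.conj_natCast] at hχx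
    exact mul_right_cancel₀ hd0 hχx
  obtain ⟨F, hFdef⟩ : ∃ F : G → ℂ, F = fun g => (χ₁ : G → ℂ) g * conj ((χ₁ : G → ℂ) g) :=
    ⟨_, rfl⟩
  have hF' : ∀ g : G, F g = (χ₁ : G → ℂ) g * conj ((χ₁ : G → ℂ) g) := fun g => by rw [hFdef]
  have hFcl : IsClassFunction G F := by
    intro g h
    rw [hF', hF', Helper2.IsIrrCharacter.isClassFunction χ₁.2 g h]
  have hvan : ∀ g z : G, IsPPart 2 g z → z ≠ 1 → ¬ IsConj z x → F g = 0 := by
    intro g z hgz hz1 hzc
    have h0 : (χ₁ : G → ℂ) g = 0 := by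
      refine Cfsg.Agent.S0924.result 2 M hpM χ₁ g z hgz ?_
      intro D hD hzD
      rw [← Helper25.block_eq_blockOf_of_mem hM hB hχ₁B] at hD
      obtain ⟨t, ht⟩ := Helper25.defectGroup_le_conj hpM hB hBD hD
      obtain ⟨w, hw, hwz⟩ := Subgroup.mem_map.1 (ht hzD)
      rcases d1_zpowers x hx w hw with h | h
      · apply hz1
        rw [← hwz, h, map_one]
      · apply hzc
        rw [← hwz, h]
        exact (isConj_iff.2 ⟨t, rfl⟩).symm
    rw [hF', h0, zero_mul]
  have hsec := d1_section (p := 2) F hFcl x ⟨1, by rw [hx, pow_one]⟩ hx1 hvan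
  have hL : ∑ g : G, F g = (Nat.card G : ℂ) := by
    have h := Helper25.row_orth χ₁ χ₁
    rw [if_pos rfl] at h
    rw [← h]
    exact Finset.sum_congr rfl fun g _ => hF' g
  have hR1 : 2 * ∑ g : G, (if 2 ∣ orderOf g then 0 else F g) = (Nat.card G : ℂ) := by
    have h := d1_regsum χ₁ χ₂ hne hreg hsing
    rw [← h]
    congr 1
    refine Finset.sum_congr rfl fun g _ => ?_
    rw [hF']
  have hR2 : 2 * ∑ y : Subgroup.centralizer ({x} : Set G),
        (if 2 ∣ orderOf y then 0 else F (x * (y : G)))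
      = κ * conj κ * (Nat.card (Subgroup.centralizer ({x} : Set G)) : ℂ) := by
    have h := d1_regsum θ₁ θ₂ hθne hθreg hθsing
    rw [← h]
    have h2 : ∀ y : Subgroup.centralizer ({x} : Set G),
        (if 2 ∣ orderOf y then 0 else F (x * (y : G)))
          = κ * conj κ * (if 2 ∣ orderOf y then 0 else
              (θ₁ : Subgroup.centralizer ({x} : Set G) → ℂ) y
                * conj ((θ₁ : Subgroup.centralizer ({x} : Set G) → ℂ) y)) := by
      intro y
      by_cases hy : 2 ∣ orderOf y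
      · rw [if_pos hy, if_pos hy, mul_zero]
      · rw [if_neg hy, if_neg hy, hF', hκ y hy, map_mul]
        ring
    rw [Finset.sum_congr rfl (fun y _ => h2 y), ← Finset.mul_sum]
    ring
  have hidx : ((Subgroup.centralizer ({x} : Set G)).index : ℂ)
      * (Nat.card (Subgroup.centralizer ({x} : Set G)) : ℂ) = (Nat.card G : ℂ) := by
    rw [← Nat.cast_mul, Subgroup.index_mul_card]
  have hG0 : (Nat.card G : ℂ) ≠ 0 := Nat.cast_ne_zero.2 Nat.card_pos.ne'
  have hκκ : κ * conj κ = 1 := by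
    have h1 : (Nat.card G : ℂ) * (κ * conj κ) = (Nat.card G : ℂ) * 1 := by
      rw [hL] at hsec
      linear_combination (-2 : ℂ) * hsec - hR1
        - ((Subgroup.centralizer ({x} : Set G)).index : ℂ) * hR2 - (κ * conj κ) * hidx
    exact mul_left_cancel₀ hG0 h1
  have hκpm : κ = 1 ∨ κ = -1 := by
    rw [hκreal] at hκκ
    have h2 : (κ - 1) * (κ + 1) = 0 := by linear_combination hκκ
    rcases mul_eq_zero.1 h2 with h | h
    · left
      linear_combination h
    · right
      linear_combination h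
  have hcardB : Nat.card B = 2 := by
    have hBset : B = {χ₁, χ₂} := by
      ext φ
      rw [hBiff φ]
      simp
    rw [hBset, Nat.card_coe_set_eq, Set.ncard_pair hne]
  have hsingxy : ∀ y : Subgroup.centralizer ({x} : Set G), ¬ 2 ∣ orderOf y →
      2 ∣ orderOf (x * (y : G)) := by
    intro y hy
    have hcomm : Commute x (y : G) :=
      Subgroup.mem_centralizer_iff.1 y.2 x (Set.mem_singleton x)
    have hco : (orderOf x).Coprime (orderOf (y : G)) := by
      rw [hx, Subgroup.orderOf_coe]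
      exact (Nat.Prime.coprime_iff_not_dvd Nat.prime_two).2 hy
    rw [hcomm.orderOf_mul_eq_mul_orderOf_of_coprime hco, hx]
    exact dvd_mul_right 2 _
  refine ⟨hcardB, ?_, χ₁, hχ₁B, χ₂, hχ₂B, hne, ?_⟩
  · intro χ hχ ψ hψ g hg
    rcases (hBiff χ).1 hχ with rfl | rfl <;> rcases (hBiff ψ).1 hψ with rfl | rfl
    · rfl
    · exact hreg g hg
    · exact (hreg g hg).symm
    · rfl
  · rcases hκpm with h | h
    · refine ⟨1, -1, Or.inl rfl, Or.inr rfl, by norm_num, ?_⟩
      intro y hy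
      have h1 : (χ₁ : G → ℂ) (x * (y : G))
          = (θ : Subgroup.centralizer ({x} : Set G) → ℂ) y := by
        rw [hκ y hy, h, one_mul, hθθ₁ y hy]
      refine ⟨?_, ?_⟩
      · rw [h1]
        push_cast
        ring
      · rw [hsing _ (hsingxy y hy), h1]
        push_cast
        ring
    · refine ⟨-1, 1, Or.inr rfl, Or.inl rfl, by norm_num, ?_⟩
      intro y hy
      have h1 : (χ₁ : G → ℂ) (x * (y : G))
          = -(θ : Subgroup.centralizer ({x} : Set G) → ℂ) y := by
        rw [hκ y hy, h, hθθ₁ y hy]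
        ring
      refine ⟨?_, ?_⟩
      · rw [h1]
        push_cast
        ring
      · rw [hsing _ (hsingxy y hy), h1]
        push_cast
        ring

end DefectOne2

end Cfsg.Agent.Helper6
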