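import Cfsg.Agent.Helper24.Extraspecial
import Cfsg.Agent.Helper24.Schur
import Cfsg.Agent.Helper24.CharInv

set_option autoImplicit false

namespace Cfsg.Agent.Helper6

open Cfsg Finset
open scoped ComplexConjugate commutatorElement

/-- The centre of an extraspecial group is generated by any of its nontrivial elements. -/
theorem extraspecial_center_pow {P : Type*} [Group P] [Finite P] {p : ℕ} [Fact p.Prime]
    (h : IsExtraspecial p P) {z : P} (hz : z ∈ Subgroup.center P) (hz1 : z ≠ 1) {w : P}
    (hw : w ∈ Subgroup.center P) : ∃ i : ℕ, w = z ^ i := by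
  have hcard := h.2
  have hζ : (⟨z, hz⟩ : Subgroup.center P) ≠ 1 := by
    intro h1
    exact hz1 (congrArg Subtype.val h1)
  have hzgen := zpowers_eq_top_of_prime_card hcard hζ
  have hmem : (⟨w, hw⟩ : Subgroup.center P) ∈ Submonoid.powers (⟨z, hz⟩ : Subgroup.center P) := by
    rw [mem_powers_iff_mem_zpowers, hzgen]
    trivial
  obtain ⟨i, hi⟩ := (Submonoid.mem_powers_iff _ _).mp hmem
  exact ⟨i, (congrArg Subtype.val hi).symm⟩

/-- A non-central element of an extraspecial group is conjugate to itself times a nontrivial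
central element. -/
theorem extraspecial_exists_conj {P : Type*} [Group P] {p : ℕ}
    (h : IsExtraspecial p P) {g : P} (hg : g ∉ Subgroup.center P) :
    ∃ (k : P) (z : P), z ∈ Subgroup.center P ∧ z ≠ 1 ∧ k * g * k⁻¹ = z * g := by
  obtain ⟨⟨hPg, hfr, hcomm⟩, hcard⟩ := h
  rw [Subgroup.mem_center_iff] at hg
  push Not at hg
  obtain ⟨k, hk⟩ := hg
  have hz : ⁅k, g⁆ ∈ Subgroup.center P := by
    rw [← hcomm, commutator_def]
    exact Subgroup.commutator_mem_commutator (Subgroup.mem_top _) (Subgroup.mem_top _)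
  have hz1 : ⁅k, g⁆ ≠ 1 := by
    rw [Ne, commutatorElement_eq_one_iff_mul_comm]
    exact hk
  refine ⟨k, ⁅k, g⁆, hz, hz1, ?_⟩
  rw [commutatorElement_def]
  group

/-- An irreducible character of an extraspecial `p`-group of degree `≠ 1` vanishes off the
centre and the square of its degree is the index of the centre. -/
theorem extraspecial_nonlinear {P : Type*} [Group P] [Finite P] {p : ℕ} [Fact p.Prime]
    (h : IsExtraspecial p P) {f : P → ℂ} (hirr : IsIrrCharacter P f) (hχ1 : f 1 ≠ 1) :
    (∀ g : P, g ∉ Subgroup.center P → f g = 0) ∧ p * (charDegree f) ^ 2 = Nat.card P := by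
  classical
  have := Fintype.ofFinite P
  have hpp : p.Prime := Fact.out
  have hchar := Helper24.isCharacter_of_irr hirr
  have hex := h
  obtain ⟨⟨hPg, hfr, hcomm⟩, hcard⟩ := h
  have hc : ∀ z : P, z ∈ Subgroup.center P →
      ∃ c : ℂ, (∀ g : P, f (g * z) = c * f g) ∧ (∀ g : P, f (z * g) = c * f g) :=
    fun z hz => Helper24.char_central_mul hirr z hz
  have hzpow : ∀ z ∈ Subgroup.center P, z ^ p = 1 := by
    intro z hz
    have h1 : (⟨z, hz⟩ : Subgroup.center P) ^ Nat.card (Subgroup.center P) = 1 :=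
      pow_card_eq_one'
    rw [hcard] at h1
    exact congrArg Subtype.val h1
  have hcne : ∀ z ∈ Subgroup.center P, z ≠ 1 → ∀ c : ℂ, (∀ g : P, f (g * z) = c * f g) →
      c ≠ 1 := by
    intro z hz hz1 c hcz hc1
    apply hχ1
    apply Helper24.irr_linear_of_invariant hirr
    intro g w hw
    rw [hcomm] at hw
    obtain ⟨i, rfl⟩ := extraspecial_center_pow hex hz hz1 hw
    clear hw
    induction i generalizing g with
    | zero => simp
    | succ i ih => rw [pow_succ, ← mul_assoc, hcz, hc1, one_mul, ih]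
  have hvanish : ∀ g : P, g ∉ Subgroup.center P → f g = 0 := by
    intro g hg
    obtain ⟨k, z, hz, hz1, hkz⟩ := extraspecial_exists_conj hex hg
    obtain ⟨c, hc1, hc2⟩ := hc _ hz
    have hcne1 := hcne _ hz hz1 c hc1
    have h1 : f g = c * f g := by
      rw [← hc2 g, ← hkz]
      exact (Helper24.char_conj_invariant hchar g k).symm
    have h2 : (1 - c) * f g = 0 := by
      rw [sub_mul, one_mul, ← h1, sub_self]
    rcases mul_eq_zero.mp h2 with h3 | h3
    · exact absurd (sub_eq_zero.mp h3).symm hcne1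
    · exact h3
  refine ⟨hvanish, ?_⟩
  have hnormZ : ∀ z ∈ Subgroup.center P, ‖f z‖ = (charDegree f : ℝ) := by
    intro z hz
    obtain ⟨c, hc1, -⟩ := hc z hz
    have hpow : ∀ m : ℕ, f (z ^ m) = c ^ m * f 1 := by
      intro m
      induction m with
      | zero => simp
      | succ m ih => rw [pow_succ, hc1, ih, pow_succ]; ring
    have hcp : c ^ p = 1 := by
      have h1 := hpow p
      rw [hzpow z hz] at h1
      have hne := Helper24.irr_one_ne_zero hirr
      exact (mul_right_cancel₀ hne (by rw [one_mul]; exact h1)).symm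
    have hcn : ‖c‖ = 1 := Complex.norm_eq_one_of_pow_eq_one hcp hpp.ne_zero
    have h2 := hc1 1
    rw [one_mul] at h2
    rw [h2, norm_mul, hcn, one_mul, Helper24.charDegree_spec hchar, Complex.norm_natCast]
  have hsum := Helper24.irr_norm_sum hirr
  have hcardF : (Finset.univ.filter (fun g : P => g ∈ Subgroup.center P)).card = p := by
    rw [← hcard, Nat.card_eq_fintype_card, Fintype.card_subtype]
  have hsplit : ∑ g : P, ‖f g‖ ^ 2 = (p : ℝ) * (charDegree f : ℝ) ^ 2 := by
    have h1 : ∀ g : P, ‖f g‖ ^ 2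
        = if g ∈ Subgroup.center P then (charDegree f : ℝ) ^ 2 else 0 := by
      intro g
      split_ifs with hg
      · rw [hnormZ g hg]
      · rw [hvanish g hg]; simp
    rw [Finset.sum_congr rfl (fun g _ => h1 g), Finset.sum_ite, Finset.sum_const_zero,
      add_zero, Finset.sum_const, nsmul_eq_mul, hcardF]
  rw [hsplit] at hsum
  exact_mod_cast hsum

end Cfsg.Agent.Helper6
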