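import Cfsg.Agent.Helper25.FSIndicator

set_option autoImplicit false

namespace Cfsg.Agent.Helper6

open Cfsg Cfsg.Agent.Helper25
open scoped ComplexConjugate

/-- In the Frobenius–Schur setting with indicator `-1` there is a nonzero antisymmetric invariant
matrix. -/
theorem fs_antisymm {G : Type*} [Group G] [Fintype G] {n : ℕ}
    (M : G → Matrix (Fin n) (Fin n) ℂ) (hMmul : ∀ g h, M (g * h) = M g * M h)
    (hκ : (Nat.card G : ℂ)⁻¹ * ∑ g : G, (M g).trace ^ 2 = 1)
    (hν : (Nat.card G : ℂ)⁻¹ * ∑ g : G, (M g * M g).trace = -1) :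
    ∃ B : Matrix (Fin n) (Fin n) ℂ, B ≠ 0 ∧ B.transpose = -B ∧
      ∀ g, M g * B * (M g).transpose = B := by
  classical
  have hne : (Nat.card G : ℂ) ≠ 0 := by exact_mod_cast Nat.card_pos.ne'
  obtain ⟨P, hP⟩ : ∃ P : Module.End ℂ (Matrix (Fin n) (Fin n) ℂ),
      P = (Nat.card G : ℂ)⁻¹ • ∑ g : G, conjT (M g) := ⟨_, rfl⟩
  have hcomp : ∀ g h : G, conjT (M h) * conjT (M g) = conjT (M (h * g)) := by
    intro g h
    apply LinearMap.ext
    intro X
    simp only [Module.End.mul_apply, conjT_apply, hMmul, Matrix.transpose_mul, Matrix.mul_assoc]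
  have hinv : ∀ h : G, conjT (M h) * P = P := by
    intro h
    rw [hP, mul_smul_comm, Finset.mul_sum]
    congr 1
    simp only [hcomp]
    exact Fintype.sum_equiv (Equiv.mulLeft h) _ _ (fun g => rfl)
  have hidem : P * P = P := by
    calc P * P = ((Nat.card G : ℂ)⁻¹ • ∑ g : G, conjT (M g)) * P := by rw [← hP]
      _ = (Nat.card G : ℂ)⁻¹ • ∑ g : G, conjT (M g) * P := by
          rw [smul_mul_assoc, Finset.sum_mul]
      _ = (Nat.card G : ℂ)⁻¹ • ∑ _g : G, P := by simp only [hinv]
      _ = P := by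
          rw [Finset.sum_const, Finset.card_univ, ← Nat.card_eq_fintype_card,
            ← Nat.cast_smul_eq_nsmul ℂ, smul_smul, inv_mul_cancel₀ hne, one_smul]
  have hcomm : ∀ g : G, conjT (M g) * transT n = transT n * conjT (M g) := by
    intro g
    apply LinearMap.ext
    intro X
    simp only [Module.End.mul_apply, conjT_apply, transT_apply, Matrix.transpose_mul,
      Matrix.transpose_transpose, Matrix.mul_assoc]
  have hPT : P * transT n = transT n * P := by
    rw [hP, smul_mul_assoc, mul_smul_comm, Finset.sum_mul, Finset.mul_sum]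
    simp only [hcomm]
  have htrP : LinearMap.trace ℂ _ P = (Nat.card G : ℂ)⁻¹ * ∑ g : G, (M g).trace ^ 2 := by
    rw [hP, map_smul, map_sum]
    simp only [trace_conjT, smul_eq_mul]
  have htrPT : LinearMap.trace ℂ _ (P * transT n)
      = (Nat.card G : ℂ)⁻¹ * ∑ g : G, (M g * M g).trace := by
    rw [hP, smul_mul_assoc, Finset.sum_mul, map_smul, map_sum]
    simp only [trace_conjT_transT, smul_eq_mul]
  have hidem' : IsIdempotentElem P := hidem
  rw [← htrP] at hκ
  rw [← htrPT] at hν
  have hproj := LinearMap.IsIdempotentElem.isProj_range P hidem'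
  have hfr : Module.finrank ℂ (LinearMap.range P) = 1 := by
    have h1 := hproj.trace
    rw [hκ] at h1
    exact_mod_cast h1.symm
  obtain ⟨⟨B, hB⟩, hB0, hspan⟩ := finrank_eq_one_iff'.mp hfr
  have hPB : P B = B := hproj.map_id B hB
  have hB0' : B ≠ 0 := fun h => hB0 (Subtype.ext h)
  have hTB : transT n B ∈ LinearMap.range P :=
    ⟨transT n B, by rw [← Module.End.mul_apply, hPT, Module.End.mul_apply, hPB]⟩
  obtain ⟨ε, hε⟩ := hspan ⟨transT n B, hTB⟩
  have hε' : ε • B = transT n B := congrArg Subtype.val hε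
  have hPTε : P * transT n = ε • P := by
    apply LinearMap.ext
    intro X
    rw [hPT, Module.End.mul_apply, LinearMap.smul_apply]
    obtain ⟨c, hc⟩ := hspan ⟨P X, LinearMap.mem_range_self P X⟩
    have hc' : c • B = P X := congrArg Subtype.val hc
    rw [← hc', map_smul, ← hε', smul_comm]
  rw [hPTε, map_smul, hκ, smul_eq_mul, mul_one] at hν
  refine ⟨B, hB0', ?_, ?_⟩
  · rw [← transT_apply, ← hε', hν, neg_smul, one_smul]
  · intro g
    rw [← conjT_apply]
    nth_rewrite 1 [← hPB]
    rw [← Module.End.mul_apply, hinv g, hPB]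

end Cfsg.Agent.Helper6
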