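import Cfsg.Agent.Helper6.Laradji
import Cfsg.Agent.Helper25.VanishOrderP

set_option autoImplicit false
set_option linter.unusedSectionVars false

/-!
# Characters of defect at most one force the block defect (helper6)
-/

namespace Cfsg.Agent.Helper6

open Cfsg
open scoped ComplexConjugate

section HeightBound

variable {G : Type*} [Group G] [Fintype G] {M : Ideal AlgInt} {p : ℕ} [Fact p.Prime]

theorem hb_deg_split (θ : IrrCharacter G) :
    ∃ r : ℕ, ¬ p ∣ r ∧ (θ : G → ℂ) 1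
      = ((p ^ (charDegree (θ : G → ℂ)).factorization p : ℕ) : ℂ) * (r : ℂ) := by
  have hp : p.Prime := Fact.out
  refine ⟨charDegree (θ : G → ℂ) / p ^ (charDegree (θ : G → ℂ)).factorization p,
    Nat.not_dvd_ordCompl hp (Helper25.charDegree_irr_ne_zero θ), ?_⟩
  rw [Helper24.charDegree_spec (Helper24.isCharacter_of_irr θ.2), ← Nat.cast_mul,
    Nat.ordProj_mul_ordCompl_eq_self]

theorem hb_tilde_dvd (hpM : IsPModular p M) (χ ψ : IrrCharacter G) (m : ℤ)
    (hm : classInner (Helper25.tildeFun p (χ : G → ℂ)) (ψ : G → ℂ) = (m : ℂ)) :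
    (p : ℤ) ^ (charDegree (ψ : G → ℂ)).factorization p ∣ m := by
  have hp : p.Prime := Fact.out
  have hM := hpM.2.1.isPrime
  obtain ⟨r, hpr, hψ1⟩ := hb_deg_split (p := p) ψ
  have hp0 : (p : ℂ) ≠ 0 := Nat.cast_ne_zero.2 hp.ne_zero
  have hr0 : (r : ℂ) ≠ 0 := by
    rw [Nat.cast_ne_zero]
    rintro rfl
    exact hpr (dvd_zero p)
  apply Helper25.pow_dvd_of_memLocalRing_div hpM _ m
  have h2 := Helper25.MemLocalRing.mul hM (Helper25.tildeRatio_memLocalRing hpM χ ψ)
    (Helper25.memLocalRing_natCast hM.ne_top r)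
  have h3 : classInner (Helper25.tildeFun p (χ : G → ℂ)) (ψ : G → ℂ) / (ψ : G → ℂ) 1 * (r : ℂ)
      = (m : ℂ) / (p : ℂ) ^ (charDegree (ψ : G → ℂ)).factorization p := by
    rw [hm, hψ1]
    push_cast
    field_simp
  rwa [h3] at h2

theorem hb_unit (hpM : IsPModular p M) (χ : IrrCharacter G)
    (hν : (Nat.card G).factorization p - 1 ≤ (charDegree (χ : G → ℂ)).factorization p) :
    ¬ MemLocalIdeal M
      (classInner (Helper25.tildeFun p (χ : G → ℂ)) (χ : G → ℂ) / (χ : G → ℂ) 1) := by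
  classical
  intro hmem
  have hp : p.Prime := Fact.out
  have hM := hpM.2.1.isPrime
  obtain ⟨a, ha⟩ : ∃ a, a = (Nat.card G).factorization p := ⟨_, rfl⟩
  obtain ⟨ν, hνdef⟩ : ∃ ν, ν = (charDegree (χ : G → ℂ)).factorization p := ⟨_, rfl⟩
  rw [← ha, ← hνdef] at hν
  obtain ⟨r, hpr, hχ1⟩ := hb_deg_split (p := p) χ
  rw [← hνdef] at hχ1
  have hp0 : (p : ℂ) ≠ 0 := Nat.cast_ne_zero.2 hp.ne_zero
  have hr0 : (r : ℂ) ≠ 0 := by
    rw [Nat.cast_ne_zero]
    rintro rfl
    exact hpr (dvd_zero p)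
  obtain ⟨n, hn⟩ : ∃ n : ℤ,
      classInner (Helper25.tildeFun p (χ : G → ℂ)) (χ : G → ℂ) = (n : ℂ) :=
    ⟨_, Helper25.tildeFun_inner χ χ⟩
  have hdvd := hb_tilde_dvd hpM χ χ n hn
  rw [← hνdef] at hdvd
  obtain ⟨c, hc⟩ := hdvd
  obtain ⟨S, hS⟩ : ∃ S : ℝ, S = ∑ y : G, if p ∣ orderOf y then 0
      else Complex.normSq ((χ : G → ℂ) y) := ⟨_, rfl⟩
  have hin := lar_inner_eq (p := p) χ
  rw [← hS, hn, ← ha] at hin
  have hGpos : (0 : ℝ) < Nat.card G := by exact_mod_cast Nat.card_pos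
  have hnS : (n : ℝ) * (Nat.card G : ℝ) = (p : ℝ) ^ a * S := by
    apply Complex.ofReal_injective
    push_cast
    rw [hin]
    have : (Nat.card G : ℂ) ≠ 0 := by exact_mod_cast hGpos.ne'
    field_simp
    push_cast
    ring
  have hSpos : 0 < S := by
    rw [hS]
    apply Finset.sum_pos'
    · intro g _
      split_ifs
      · exact le_refl _
      · exact Complex.normSq_nonneg _
    · refine ⟨1, Finset.mem_univ _, ?_⟩
      rw [if_neg (by rw [orderOf_one]; exact hp.not_dvd_one)]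
      exact Complex.normSq_pos.2 (Helper24.irr_one_ne_zero χ.2)
  have htot := lar_sum_normSq χ
  have hSle : S ≤ (Nat.card G : ℝ) := by
    rw [hS, ← htot]
    apply Finset.sum_le_sum
    intro g _
    split_ifs
    · exact Complex.normSq_nonneg _
    · exact le_refl _
  have hppos : (0 : ℝ) < (p : ℝ) := by exact_mod_cast hp.pos
  have hnpos : 0 < n := by
    have h1 : (0 : ℝ) < (n : ℝ) * (Nat.card G : ℝ) := by
      rw [hnS]
      positivity
    have h2 : (0 : ℝ) < (n : ℝ) := by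
      by_contra hcon
      push_neg at hcon
      nlinarith
    exact_mod_cast h2
  have hnle : (n : ℝ) ≤ (p : ℝ) ^ a := by
    have h1 : (n : ℝ) * (Nat.card G : ℝ) ≤ (p : ℝ) ^ a * (Nat.card G : ℝ) := by
      rw [hnS]
      exact mul_le_mul_of_nonneg_left hSle (by positivity)
    exact le_of_mul_le_mul_right h1 hGpos
  have hpz : (0 : ℤ) < (p : ℤ) := by exact_mod_cast hp.pos
  have hcpos : 0 < c := by
    rw [hc] at hnpos
    exact (mul_pos_iff_of_pos_left (pow_pos hpz ν)).1 hnpos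
  obtain ⟨c', rfl⟩ := Int.eq_ofNat_of_zero_le hcpos.le
  have hpc : p ∣ c' := by
    rw [← Helper25.memLocalIdeal_natCast_iff hpM c']
    have h2 := Helper25.MemLocalIdeal.mul_left hM (Helper25.memLocalRing_natCast hM.ne_top r) hmem
    have h3 : (r : ℂ) * (classInner (Helper25.tildeFun p (χ : G → ℂ)) (χ : G → ℂ)
        / (χ : G → ℂ) 1) = (c' : ℂ) := by
      rw [hn, hχ1, hc]
      push_cast
      field_simp
    rwa [h3] at h2
  obtain ⟨c'', rfl⟩ := hpc
  have hc''pos : 0 < c'' := by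
    rcases Nat.eq_zero_or_pos c'' with h | h
    · rw [h, mul_zero] at hcpos
      exact absurd hcpos (by simp)
    · exact h
  have hnge : (p : ℝ) ^ (ν + 1) ≤ (n : ℝ) := by
    rw [hc]
    push_cast
    rw [pow_succ]
    have h1 : (1 : ℝ) ≤ (c'' : ℝ) := by exact_mod_cast hc''pos
    have h2 : (0 : ℝ) < (p : ℝ) ^ ν * (p : ℝ) := by positivity
    nlinarith
  have hle : ν + 1 ≤ a := by
    have h1 : (p : ℝ) ^ (ν + 1) ≤ (p : ℝ) ^ a := hnge.trans hnle
    have h2 : (1 : ℝ) < (p : ℝ) := by exact_mod_cast hp.one_lt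
    exact (pow_le_pow_iff_right₀ h2).1 h1
  have hνa : ν + 1 = a := by omega
  have hneq : (n : ℝ) = (p : ℝ) ^ a := le_antisymm hnle (by rw [← hνa]; exact hnge)
  have hSeq : S = (Nat.card G : ℝ) := by
    have h1 : (p : ℝ) ^ a * S = (p : ℝ) ^ a * (Nat.card G : ℝ) := by rw [← hnS, hneq]
    exact mul_left_cancel₀ (by positivity) h1
  have hvan : ∀ g : G, orderOf g = p → (χ : G → ℂ) g = 0 := by
    intro g hg
    have hsum0 : ∑ g : G, (Complex.normSq ((χ : G → ℂ) g)
        - (if p ∣ orderOf g then 0 else Complex.normSq ((χ : G → ℂ) g))) = 0 := by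
      rw [Finset.sum_sub_distrib, htot, ← hS, hSeq, sub_self]
    have hz := (Finset.sum_eq_zero_iff_of_nonneg (fun g _ => ?_)).1 hsum0 g (Finset.mem_univ g)
    · rw [if_pos (by rw [hg]), sub_zero, Complex.normSq_eq_zero] at hz
      exact hz
    · split_ifs
      · rw [sub_zero]
        exact Complex.normSq_nonneg _
      · rw [sub_self]
  have hfin := Helper25.defect_zero_of_vanish_order_p hpM χ hvan
  rw [← hνdef, ← ha] at hfin
  omega

theorem hb_main (hpM : IsPModular p M) (χ ψ : IrrCharacter G)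
    (hsame : SameBlock M (χ : G → ℂ) (ψ : G → ℂ))
    (hdiv : p ^ ((Nat.card G).factorization p - 1) ∣ charDegree (χ : G → ℂ)) :
    p ^ ((Nat.card G).factorization p - 1) ∣ charDegree (ψ : G → ℂ) := by
  have hp : p.Prime := Fact.out
  have hM := hpM.2.1.isPrime
  have hν : (Nat.card G).factorization p - 1 ≤ (charDegree (χ : G → ℂ)).factorization p :=
    (hp.pow_dvd_iff_le_factorization (Helper25.charDegree_irr_ne_zero χ)).1 hdiv
  rw [hp.pow_dvd_iff_le_factorization (Helper25.charDegree_irr_ne_zero ψ)]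
  by_contra hcon
  push_neg at hcon
  have hunit := hb_unit hpM χ hν
  have hsub := Helper25.tildeRatio_sub_mem hpM χ hsame
  apply hunit
  have hψmem : MemLocalIdeal M
      (classInner (Helper25.tildeFun p (χ : G → ℂ)) (ψ : G → ℂ) / (ψ : G → ℂ) 1) := by
    obtain ⟨m, hm⟩ : ∃ m : ℤ,
        classInner (Helper25.tildeFun p (ψ : G → ℂ)) (χ : G → ℂ) = (m : ℂ) :=
      ⟨_, Helper25.tildeFun_inner ψ χ⟩
    have hdvd := hb_tilde_dvd hpM ψ χ m hm
    rw [Helper25.tildeFun_symm χ ψ, hm]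
    obtain ⟨r, hpr, hψ1⟩ := hb_deg_split (p := p) ψ
    obtain ⟨νψ, hνψ⟩ : ∃ ν, ν = (charDegree (ψ : G → ℂ)).factorization p := ⟨_, rfl⟩
    rw [← hνψ] at hψ1 hcon
    have hdvd2 : (p : ℤ) ^ (νψ + 1) ∣ m := (pow_dvd_pow (p : ℤ) (by omega)).trans hdvd
    obtain ⟨k, hk⟩ := hdvd2
    have hr0' : r ≠ 0 := by
      rintro rfl
      exact hpr (dvd_zero p)
    have hp0 : (p : ℂ) ≠ 0 := Nat.cast_ne_zero.2 hp.ne_zero
    have hr0 : (r : ℂ) ≠ 0 := Nat.cast_ne_zero.2 hr0'
    have h1 : MemLocalRing M (((1 : ℕ) : ℂ) / (r : ℂ)) :=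
      Helper25.natCast_div_memLocalRing hpM hr0'
        (by rw [Nat.factorization_eq_zero_of_not_dvd hpr]; exact Nat.zero_le _)
    have h2 : MemLocalRing M ((k : ℂ)) := intCast_mem (Helper25.localRing M hM) k
    have h3 : MemLocalIdeal M ((p : ℂ)) := (Helper25.memLocalIdeal_natCast_iff hpM p).2 dvd_rfl
    have h4 := Helper25.MemLocalIdeal.mul_right hM h3 (Helper25.MemLocalRing.mul hM h2 h1)
    have h5 : (p : ℂ) * ((k : ℂ) * (((1 : ℕ) : ℂ) / (r : ℂ))) = (m : ℂ) / (ψ : G → ℂ) 1 := by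
      rw [hψ1, hk]
      push_cast
      field_simp
      ring
    rwa [h5] at h4
  have h6 := Helper25.MemLocalIdeal.add hM hsub hψmem
  rwa [sub_add_cancel] at h6

end HeightBound

end Cfsg.Agent.Helper6
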