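import Cfsg.Agent.Helper25.BlockCover
import Cfsg.Agent.Helper25.BlockAut
import Cfsg.Agent.Helper25.BlockIdem
import Cfsg.Agent.Helper24.ItoPSolv
import Cfsg.Agent.Helper6.ConjChar
import Cfsg.Agent.S0964
import Cfsg.Agent.S0966
import Cfsg.Agent.S0970

set_option autoImplicit false
set_option linter.unusedSectionVars false

/-!
# A height-zero character of an invariant block fixed by a `p`-group of automorphisms (helper6)
-/

namespace Cfsg.Agent.Helper6

open Cfsg Cfsg.Agent.Helper25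
open scoped ComplexConjugate

section HeightZeroStab

variable {M : Ideal AlgInt} {p : ℕ}

/-- An invariant block of a normal subgroup of `p`-power index contains an invariant character of
height zero. -/
theorem hzs_core {L : Type*} [Group L] [Fintype L] [Fact p.Prime] (hpM : IsPModular p M)
    (N : Subgroup L) [hN : N.Normal] [Fintype N] (hidx : ∃ k : ℕ, N.index = p ^ k)
    (b : Set (IrrCharacter N)) (hb : IsPBlock M b)
    (hinv : ∀ g : L, ∀ θ ∈ b, ∀ θ' : IrrCharacter N,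
      (∀ n : N, (θ' : N → ℂ) n = (θ : N → ℂ) ⟨g * n * g⁻¹, hN.conj_mem n n.2 g⟩) → θ' ∈ b) :
    ∃ φ ∈ b, blockHeight p b (φ : N → ℂ) = 0 ∧ ∀ (g : L) (n : N),
      (φ : N → ℂ) ⟨g * n * g⁻¹, hN.conj_mem n n.2 g⟩ = (φ : N → ℂ) n := by
  classical
  have hM := hpM.2.1.isPrime
  have hp := hpM.1
  have := Helper24.finite_irrCharacter (G := N)
  have : Fintype (IrrCharacter N) := Fintype.ofFinite _
  obtain ⟨B, ⟨hB, hcov⟩, huniq⟩ := Cfsg.Agent.S0966.result p M hpM N hidx b hb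
  obtain ⟨x, hdc⟩ := exists_defectClass hM hB
  obtain ⟨P'⟩ : Nonempty (Sylow p (Subgroup.centralizer ({x} : Set L))) := inferInstance
  have hP : IsDefectGroup p M B ((P' : Subgroup (Subgroup.centralizer ({x} : Set L))).map
      (Subgroup.centralizer ({x} : Set L)).subtype) := ⟨x, hdc, P', rfl⟩
  have hmax : ∀ B' : Set (IrrCharacter L), IsPBlock M B' →
      (∃ χ ∈ B', ∃ θ ∈ b, classInner (fun n : N => (χ : L → ℂ) n) (θ : N → ℂ) ≠ 0) →
      blockDefect p B' ≤ blockDefect p B := by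
    intro B' hB' hc'
    rw [huniq B' ⟨hB', hc'⟩]
  obtain ⟨-, -, hdef⟩ := Cfsg.Agent.S0970.result p M hpM N b hb hinv B hB hcov hmax _ hP
  obtain ⟨χ₁, hχ₁, θ₁, hθ₁, hne₁⟩ := hcov
  have hSBne : ((fun χ : IrrCharacter L => (charDegree (χ : L → ℂ)).factorization p) '' B).Nonempty :=
    ⟨_, χ₁, hχ₁, rfl⟩
  obtain ⟨χ, hχ, hχv⟩ := Nat.sInf_mem hSBne
  simp only at hχv
  obtain ⟨φ, hφne⟩ : ∃ φ : IrrCharacter N,
      classInner (fun n : N => (χ : L → ℂ) n) (φ : N → ℂ) ≠ 0 := by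
    by_contra h
    push Not at h
    have hcl : IsClassFunction N (fun n : N => (χ : L → ℂ) n) := by
      intro g k
      exact (Helper2.IsIrrCharacter.isClassFunction χ.2) (g : L) (k : L)
    have hexp := congrFun (Helper2.class_fn_expansion hcl) 1
    rw [Finset.sum_apply] at hexp
    simp only [Pi.smul_apply, smul_eq_mul, h, zero_mul, Finset.sum_const_zero] at hexp
    rw [OneMemClass.coe_one] at hexp
    exact Helper24.irr_one_ne_zero χ.2 hexp
  have hφb : φ ∈ b := by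
    obtain ⟨g, θ', hθ', h⟩ := Cfsg.Agent.S0964.result p M hpM N B hB b hb χ₁ hχ₁ θ₁ hθ₁ hne₁
      χ hχ φ hφne
    exact hinv g θ' hθ' φ h
  obtain ⟨hdvd, hquot⟩ := Helper24.charDegree_dvd_of_constituent N χ.2 φ.2 hφne
  obtain ⟨k, hk⟩ := hidx
  have hχpos := Helper24.irr_degree_pos χ.2
  have hφpos := Helper24.irr_degree_pos φ.2
  obtain ⟨r, hr⟩ := hdvd
  have hrq : charDegree (χ : L → ℂ) / charDegree (φ : N → ℂ) = r := by
    rw [hr]
    exact Nat.mul_div_cancel_left r hφpos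
  rw [hrq, hk] at hquot
  obtain ⟨j, -, hj⟩ := (Nat.dvd_prime_pow hp).1 hquot
  have hvχ : (charDegree (χ : L → ℂ)).factorization p
      = (charDegree (φ : N → ℂ)).factorization p + j := by
    rw [hr, hj, Nat.factorization_mul hφpos.ne' (pow_ne_zero j hp.ne_zero), Finsupp.add_apply,
      Nat.factorization_pow, Finsupp.smul_apply, hp.factorization_self]
    simp
  have hcard : Nat.card N * N.index = Nat.card L := Subgroup.card_mul_index N
  have haL : (Nat.card L).factorization p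
      = (Nat.card N).factorization p + N.index.factorization p := by
    rw [← hcard, Nat.factorization_mul Nat.card_pos.ne' (by rw [hk]; exact pow_ne_zero k hp.ne_zero),
      Finsupp.add_apply]
  have h1 : (charDegree (χ : L → ℂ)).factorization p ≤ (Nat.card L).factorization p :=
    (Nat.factorization_le_iff_dvd hχpos.ne' Nat.card_pos.ne').2
      (Helper2.irr_degree_dvd_card χ.2) p
  have h2 : (charDegree (φ : N → ℂ)).factorization p ≤ (Nat.card N).factorization p :=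
    (Nat.factorization_le_iff_dvd hφpos.ne' Nat.card_pos.ne').2
      (Helper2.irr_degree_dvd_card φ.2) p
  have h3 : sInf ((fun θ : IrrCharacter N => (charDegree (θ : N → ℂ)).factorization p) '' b)
      ≤ (charDegree (φ : N → ℂ)).factorization p := Nat.sInf_le ⟨φ, hφb, rfl⟩
  unfold blockDefect at hdef
  rw [← hχv] at hdef
  have hj0 : j = 0 := by omega
  have hv0 : (charDegree (φ : N → ℂ)).factorization p
      = sInf ((fun θ : IrrCharacter N => (charDegree (θ : N → ℂ)).factorization p) '' b) := by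
    omega
  have hdeg : charDegree (χ : L → ℂ) = charDegree (φ : N → ℂ) := by
    rw [hr, hj, hj0, pow_zero, mul_one]
  have hres : (fun n : N => (χ : L → ℂ) n) = (φ : N → ℂ) := by
    refine char_eq_of_degree_le (Helper24.isCharacter_restrict N (Helper24.isCharacter_of_irr χ.2))
      φ.2 hφne ?_
    have h4 : charDegree (fun n : N => (χ : L → ℂ) n) = charDegree (χ : L → ℂ) := by
      unfold charDegree
      show ⌊((χ : L → ℂ) ((1 : N) : L)).re⌋₊ = _
      rw [OneMemClass.coe_one]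
    rw [h4, hdeg]
  refine ⟨φ, hφb, ?_, ?_⟩
  · unfold blockHeight
    rw [hv0]
    exact Nat.sub_self _
  · intro g n
    rw [← hres]
    exact (Helper2.IsIrrCharacter.isClassFunction χ.2) (n : L) g

/-- Transfer of `hzs_core` to a normal subgroup and a `p`-subgroup stabilizing one of its
blocks. -/
theorem hzs_transfer {G : Type*} [Group G] [Fintype G] [Fact p.Prime] (hpM : IsPModular p M)
    (H : Subgroup G) [hH : H.Normal] (b : Set (IrrCharacter H)) (hb : IsPBlock M b)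
    (Q : Subgroup G) (hQ : IsPGroup p Q)
    (hQinv : ∀ q ∈ H ⊔ Q, ∀ θ ∈ b, ∀ θ' : IrrCharacter H,
      (∀ h h' : H, (h' : G) = q * h * q⁻¹ → (θ' : H → ℂ) h' = (θ : H → ℂ) h) → θ' ∈ b) :
    ∃ θ ∈ b, blockHeight p b (θ : H → ℂ) = 0 ∧ Q ≤ inertia H (θ : H → ℂ) := by
  classical
  have hp := hpM.1
  obtain ⟨L, hL⟩ : ∃ L : Subgroup G, L = H ⊔ Q := ⟨_, rfl⟩
  have hHL : H ≤ L := hL ▸ le_sup_left
  have hQL : Q ≤ L := hL ▸ le_sup_right
  have : Fintype L := Fintype.ofFinite _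
  have : Fintype H := Fintype.ofFinite _
  have : Fintype (H.subgroupOf L) := Fintype.ofFinite _
  have hNn : (H.subgroupOf L).Normal := inferInstance
  obtain ⟨e, he⟩ : ∃ e : H.subgroupOf L ≃* H, e = Subgroup.subgroupOfEquivOfLe hHL := ⟨_, rfl⟩
  have he1 : ∀ n : H.subgroupOf L, ((e n : H) : G) = ((n : L) : G) := by
    intro n
    rw [he]
    rfl
  have he2 : ∀ h : H, (((e.symm h : H.subgroupOf L) : L) : G) = (h : G) := by
    intro h
    rw [he]
    rfl
  have hidx : ∃ k : ℕ, (H.subgroupOf L).index = p ^ k := by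
    obtain ⟨m, hm⟩ := hQ.exists_card_eq
    have h1 : (H.subgroupOf L).index = H.relIndex Q := by
      show H.relIndex L = _
      rw [hL]
      exact Subgroup.relIndex_sup_left ..
    have h2 : H.relIndex Q ∣ Nat.card Q := Subgroup.relIndex_dvd_card H Q
    rw [hm] at h2
    obtain ⟨k, -, hk⟩ := (Nat.dvd_prime_pow hp).1 h2
    exact ⟨k, h1.trans hk⟩
  obtain ⟨b', hb'⟩ : ∃ b' : Set (IrrCharacter (H.subgroupOf L)),
      b' = {θ' : IrrCharacter (H.subgroupOf L) | ∃ θ ∈ b,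
        (θ' : H.subgroupOf L → ℂ) = (θ : H → ℂ) ∘ e} := ⟨_, rfl⟩
  have hτ : ∀ θ : IrrCharacter H, IsIrrCharacter (H.subgroupOf L) ((θ : H → ℂ) ∘ e) :=
    fun θ => isIrrCharacter_comp_mulEquiv e θ.2
  have hσ : ∀ θ' : IrrCharacter (H.subgroupOf L),
      IsIrrCharacter H ((θ' : H.subgroupOf L → ℂ) ∘ e.symm) :=
    fun θ' => isIrrCharacter_comp_mulEquiv e.symm θ'.2
  have hστ : ∀ θ' : H.subgroupOf L → ℂ, (θ' ∘ e.symm) ∘ e = θ' := by
    intro θ'
    funext n
    simp
  have hτσ : ∀ θ : H → ℂ, (θ ∘ e) ∘ e.symm = θ := by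
    intro θ
    funext n
    simp
  have hblock : IsPBlock M b' := by
    obtain ⟨θ₀, hθ₀⟩ := hb
    refine ⟨⟨_, hτ θ₀⟩, ?_⟩
    rw [hb']
    ext θ'
    constructor
    · rintro ⟨θ, hθ, hθ'⟩
      show SameBlock M _ _
      rw [hθ']
      rw [hθ₀] at hθ
      exact sameBlock_comp_mulEquiv e hθ
    · intro h
      have h' : SameBlock M ((θ₀ : H → ℂ) ∘ e) (θ' : H.subgroupOf L → ℂ) := h
      refine ⟨⟨_, hσ θ'⟩, ?_, (hστ _).symm⟩
      rw [hθ₀]
      show SameBlock M _ _
      have h2 := sameBlock_comp_mulEquiv e.symm h'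
      rw [hτσ] at h2
      exact h2
  have hinv : ∀ g : L, ∀ θ ∈ b', ∀ θ' : IrrCharacter (H.subgroupOf L),
      (∀ n : H.subgroupOf L, (θ' : H.subgroupOf L → ℂ) n
        = (θ : H.subgroupOf L → ℂ) ⟨g * n * g⁻¹, hNn.conj_mem n n.2 g⟩) → θ' ∈ b' := by
    intro g θ hθ θ'' hconj
    rw [hb'] at hθ ⊢
    obtain ⟨θ₁, hθ₁, hθe⟩ := hθ
    refine ⟨⟨_, hσ θ''⟩, ?_, (hστ _).symm⟩
    have hgL : ((g : L) : G)⁻¹ ∈ H ⊔ Q := by
      rw [← hL]
      exact L.inv_mem g.2
    refine hQinv _ hgL θ₁ hθ₁ _ ?_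
    intro h h' hh'
    show (θ'' : H.subgroupOf L → ℂ) (e.symm h') = _
    rw [hconj, hθe, Function.comp_apply]
    refine congrArg (θ₁ : H → ℂ) (Subtype.ext ?_)
    rw [he1]
    show (g : G) * (((e.symm h' : H.subgroupOf L) : L) : G) * (g : G)⁻¹ = _
    rw [he2, hh']
    group
  obtain ⟨φ', hφ', hht, hfix⟩ := hzs_core hpM (H.subgroupOf L) hidx b' hblock hinv
  rw [hb'] at hφ'
  obtain ⟨θ, hθ, hθe⟩ := hφ'
  refine ⟨θ, hθ, ?_, ?_⟩
  · have hdeg : ∀ ψ : H → ℂ, charDegree (ψ ∘ e) = charDegree ψ := by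
      intro ψ
      unfold charDegree
      rw [Function.comp_apply, map_one]
    have hset : ((fun ψ : IrrCharacter (H.subgroupOf L) =>
        (charDegree (ψ : H.subgroupOf L → ℂ)).factorization p) '' b')
        = ((fun ψ : IrrCharacter H => (charDegree (ψ : H → ℂ)).factorization p) '' b) := by
      ext v
      constructor
      · rintro ⟨ψ', hψ', rfl⟩
        rw [hb'] at hψ'
        obtain ⟨ψ, hψ, hψe⟩ := hψ'
        refine ⟨ψ, hψ, ?_⟩
        simp only
        rw [hψe, hdeg]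
      · rintro ⟨ψ, hψ, rfl⟩
        refine ⟨⟨_, hτ ψ⟩, ?_, ?_⟩
        · rw [hb']
          exact ⟨ψ, hψ, rfl⟩
        · simp only
          rw [hdeg]
    unfold blockHeight at hht ⊢
    rw [hset, hθe, hdeg] at hht
    exact hht
  · intro q hq
    rw [mem_inertia]
    intro n
    have h1 := hfix ⟨q, hQL hq⟩ (e.symm n)
    rw [hθe, Function.comp_apply, Function.comp_apply, MulEquiv.apply_symm_apply] at h1
    rw [← h1]
    refine congrArg (θ : H → ℂ) (Subtype.ext ?_)
    rw [he1]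
    show _ = q * (((e.symm n : H.subgroupOf L) : L) : G) * q⁻¹
    rw [he2]

/-- The stabilizer of a block of a normal subgroup contains a Sylow subgroup fixing a character
of height zero. -/
theorem hzs_main {G : Type*} [Group G] [Fintype G] [Fact p.Prime] (hpM : IsPModular p M)
    (H : Subgroup G) [hH : H.Normal] (b : Set (IrrCharacter H)) (hb : IsPBlock M b)
    (T : Subgroup G)
    (hT : ∀ g : G, g ∈ T ↔ ∀ θ ∈ b, ∀ θ' : IrrCharacter H,
      (∀ h h' : H, (h' : G) = g * h * g⁻¹ → (θ' : H → ℂ) h' = (θ : H → ℂ) h) → θ' ∈ b) :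
    ∃ θ ∈ b, blockHeight p b (θ : H → ℂ) = 0 ∧ ∃ S : Subgroup G, S ≤ T ∧
      (∀ g : G, g ∈ S ↔ (g ∈ T ∧ ∀ h h' : H, (h' : G) = g * h * g⁻¹ →
        (θ : H → ℂ) h' = (θ : H → ℂ) h)) ∧ ¬ p ∣ S.relIndex T := by
  classical
  have : Fintype H := Fintype.ofFinite _
  have hHT : H ≤ T := by
    intro h0 hh0
    rw [hT]
    intro θ hθ θ' hθ'
    have hEq : θ' = θ := by
      apply Subtype.ext
      funext h'
      have hcl := Helper2.IsIrrCharacter.isClassFunction θ.2
      rw [hθ' ((⟨h0, hh0⟩ : H)⁻¹ * h' * ⟨h0, hh0⟩) h' (by simp [mul_assoc])]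
      have h3 := hcl h' ((⟨h0, hh0⟩ : H)⁻¹)
      rw [inv_inv] at h3
      exact h3
    rw [hEq]
    exact hθ
  obtain ⟨Q₀⟩ : Nonempty (Sylow p T) := inferInstance
  have hQ : IsPGroup p ((Q₀ : Subgroup T).map T.subtype) := Q₀.isPGroup'.map T.subtype
  have hQT : (Q₀ : Subgroup T).map T.subtype ≤ T := Subgroup.map_subtype_le _
  obtain ⟨θ, hθ, hht, hQI⟩ := hzs_transfer hpM H b hb _ hQ (by
    intro q hq
    exact (hT q).1 (sup_le hHT hQT hq))
  refine ⟨θ, hθ, hht, T ⊓ inertia H (θ : H → ℂ), inf_le_left, ?_, ?_⟩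
  · intro g
    rw [Subgroup.mem_inf, mem_inertia]
    constructor
    · rintro ⟨hgT, hg⟩
      refine ⟨hgT, fun h h' hh' => ?_⟩
      rw [← hg h]
      refine congrArg (θ : H → ℂ) (Subtype.ext ?_)
      exact hh'
    · rintro ⟨hgT, hg⟩
      exact ⟨hgT, fun n => hg n _ rfl⟩
  · intro hdvd
    have hle : (Q₀ : Subgroup T) ≤ (T ⊓ inertia H (θ : H → ℂ)).subgroupOf T := by
      intro x hx
      rw [Subgroup.mem_subgroupOf, Subgroup.mem_inf]
      exact ⟨x.2, hQI ⟨x, hx, rfl⟩⟩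
    have h1 : ((T ⊓ inertia H (θ : H → ℂ)).subgroupOf T).index ∣ (Q₀ : Subgroup T).index :=
      Subgroup.index_dvd_of_le hle
    exact Q₀.not_dvd_index (dvd_trans hdvd h1)

end HeightZeroStab

end Cfsg.Agent.Helper6
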