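import Mathlib
import Cfsg.Agent.Helper6.PowCongr
import Cfsg.Agent.Helper6.Inflate
import Cfsg.Agent.Helper6.TwoCompl
import Cfsg.Agent.Helper24.ItoPSolv
import Cfsg.Agent.Helper24.CharInv
import Cfsg.Agent.Helper2.CharCount
import Cfsg.Agent.Helper2.CharReg
import Cfsg.Agent.Helper2.CharOrtho

set_option autoImplicit false

universe u

namespace Cfsg.Agent.Helper6.KGV

open Cfsg Polynomial

/-- Second orthogonality on the diagonal, in real form. -/
theorem sum_normSq_eq_card_centralizer {X : Type*} [Group X] [Fintype X]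
    [Fintype (IrrCharacter X)] (g : X) :
    ∑ χ : IrrCharacter X, ‖(χ : X → ℂ) g‖ ^ 2 =
      (Nat.card (Subgroup.centralizer ({g} : Set X)) : ℝ) := by
  classical
  have h := Helper2.second_orthogonality g g
  rw [if_pos (IsConj.refl g)] at h
  have h3 : ∀ χ : IrrCharacter X, (χ : X → ℂ) g * (starRingEnd ℂ) ((χ : X → ℂ) g) =
      ((‖(χ : X → ℂ) g‖ ^ 2 : ℝ) : ℂ) := by
    intro χ
    rw [Complex.mul_conj, Complex.normSq_eq_norm_sq]
  rw [Finset.sum_congr rfl (fun χ _ => h3 χ), ← Complex.ofReal_sum] at h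
  exact_mod_cast h

/-- Irreducible characters do not vanish on an abelian normal Sylow subgroup. -/
theorem char_ne_zero_of_mem {X : Type u} [Group X] [Finite X] (p : ℕ) [Fact p.Prime]
    (V : Subgroup X) [hVn : V.Normal] (hVp : IsPGroup p V) (hidx : ¬ p ∣ V.index)
    (hab : ∀ a ∈ V, ∀ b ∈ V, a * b = b * a) {χ : X → ℂ} (hχ : IsIrrCharacter X χ) (u : X)
    (hu : u ∈ V) : χ u ≠ 0 := by
  have hp : p.Prime := Fact.out
  obtain ⟨M, hM⟩ := PowCongr.exists_pModular p hp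
  have hχc := Helper24.isCharacter_of_irr hχ
  have hdeg : ¬ p ∣ charDegree χ := by
    apply Helper24.ito_sylow_forward p (hVp.toSylow hidx) hVn (fun a b => ?_) hχ
    apply Subtype.ext
    exact hab a a.2 b b.2
  obtain ⟨k, hk⟩ := (IsPGroup.iff_orderOf.mp hVp) ⟨u, hu⟩
  have hk' : orderOf u = p ^ k := by
    rw [← hk]
    exact (Subgroup.orderOf_mk u hu).symm
  have h1 := PRegular.char_ppart_congr hM hχc u 1 (Commute.one_right u) k hk'
  rw [mul_one] at h1
  intro h0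
  rw [h0, zero_sub] at h1
  have h2 := Helper25.MemLocalIdeal.neg h1
  rw [neg_neg, Helper24.charDegree_spec hχc] at h2
  exact hdeg ((Helper25.memLocalIdeal_natCast_iff hM _).mp h2)

/-- Coprime powers have the same centralizer. -/
theorem centralizer_pow_coprime {X : Type*} [Group X] (v : X) (N k : ℕ) (hN : N = orderOf v)
    (hNpos : 0 < N) (hk : Nat.Coprime k N) :
    Subgroup.centralizer ({v ^ k} : Set X) = Subgroup.centralizer ({v} : Set X) := by
  have hvN : v ^ N = 1 := by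
    rw [hN]
    exact pow_orderOf_eq_one v
  obtain ⟨m, hm⟩ : ∃ m : ℕ, (v ^ k) ^ m = v := by
    by_cases hN1 : N = 1
    · refine ⟨0, ?_⟩
      rw [hN1, pow_one] at hvN
      rw [hvN, one_pow, pow_zero]
    · have hN2 : 1 < N := by omega
      obtain ⟨m, hm⟩ := Nat.exists_mul_mod_eq_one_of_coprime hk hN2
      refine ⟨m, ?_⟩
      have hdecomp : k * m = N * (k * m / N) + 1 := by
        have := Nat.div_add_mod (k * m) N
        omega
      rw [← pow_mul, hdecomp, pow_add, pow_mul, hvN, one_pow, one_mul, pow_one]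
  ext x
  rw [Subgroup.mem_centralizer_iff, Subgroup.mem_centralizer_iff]
  constructor
  · intro h y hy
    rw [Set.mem_singleton_iff] at hy
    rw [hy]
    have h1 : Commute (v ^ k) x := h (v ^ k) rfl
    have h2 : Commute ((v ^ k) ^ m) x := h1.pow_left m
    rw [hm] at h2
    exact h2.eq
  · intro h y hy
    rw [Set.mem_singleton_iff] at hy
    rw [hy]
    have h1 : Commute v x := h v rfl
    exact (h1.pow_left k).eq

/-- The centralizer of an element of an abelian complemented normal subgroup. -/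
theorem card_centralizer_eq {X : Type*} [Group X] [Finite X] (V G : Subgroup X)
    (hab : ∀ a ∈ V, ∀ b ∈ V, a * b = b * a) (hGV : Subgroup.IsComplement' V G) (v : X)
    (hv : v ∈ V) :
    Nat.card (Subgroup.centralizer ({v} : Set X)) =
      Nat.card ↥(G ⊓ Subgroup.centralizer ({v} : Set X)) * Nat.card V := by
  have hVC : V ≤ Subgroup.centralizer ({v} : Set X) := by
    intro a ha
    rw [Subgroup.mem_centralizer_iff]
    intro y hy
    rw [Set.mem_singleton_iff] at hy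
    subst hy
    exact hab y hv a ha
  rw [← Nat.card_prod]
  symm
  refine Nat.card_congr (Equiv.ofBijective
    (fun x : ↥(G ⊓ Subgroup.centralizer ({v} : Set X)) × ↥V =>
      (⟨(x.2 : X) * (x.1 : X), Subgroup.mul_mem _ (hVC x.2.2) x.1.2.2⟩ :
        ↥(Subgroup.centralizer ({v} : Set X)))) ⟨?_, ?_⟩)
  · rintro ⟨g, a⟩ ⟨g', a'⟩ h
    have h1 : (a : X) * (g : X) = (a' : X) * (g' : X) := congrArg Subtype.val h
    have h2 := hGV.1 (a₁ := ((⟨(a : X), a.2⟩ : (V : Set X)), (⟨(g : X), g.2.1⟩ : (G : Set X))))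
      (a₂ := ((⟨(a' : X), a'.2⟩ : (V : Set X)), (⟨(g' : X), g'.2.1⟩ : (G : Set X)))) h1
    have h3 : (a : X) = (a' : X) := congrArg (fun z => ((z.1 : (V : Set X)) : X)) h2
    have h5 : (g : X) = (g' : X) := congrArg (fun z => ((z.2 : (G : Set X)) : X)) h2
    exact Prod.ext (Subtype.ext h5) (Subtype.ext h3)
  · rintro ⟨c, hc⟩
    obtain ⟨⟨a, g⟩, hag⟩ := hGV.2 c
    have hag' : (a : X) * (g : X) = c := hag
    have hg : (g : X) ∈ Subgroup.centralizer ({v} : Set X) := by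
      have : (g : X) = (a : X)⁻¹ * c := by rw [← hag']; group
      rw [this]
      exact Subgroup.mul_mem _ (Subgroup.inv_mem _ (hVC a.2)) hc
    exact ⟨(⟨(g : X), g.2, hg⟩, ⟨(a : X), a.2⟩), Subtype.ext hag'⟩

/-- The class number bound `k(GV) + |G| ≤ |C_G(v)| |V| + k(G)`. -/
theorem kgv_bound {X : Type u} [Group X] [Finite X] (p : ℕ) [Fact p.Prime] (V : Subgroup X)
    [V.Normal] (hVp : IsPGroup p V) (hidx : ¬ p ∣ V.index)
    (hab : ∀ a ∈ V, ∀ b ∈ V, a * b = b * a) (G : Subgroup X)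
    (hGV : Subgroup.IsComplement' V G) (v : X) (hv : v ∈ V) :
    Nat.card (ConjClasses X) + Nat.card G ≤
      Nat.card ↥(G ⊓ Subgroup.centralizer ({v} : Set X)) * Nat.card V +
        Nat.card (ConjClasses G) := by
  classical
  haveI := Fintype.ofFinite X
  haveI := Helper24.finite_irrCharacter (G := X)
  haveI := Fintype.ofFinite (IrrCharacter X)
  haveI : Fintype G := Fintype.ofFinite _
  haveI := Helper24.finite_irrCharacter (G := ↥G)
  haveI := Fintype.ofFinite (IrrCharacter ↥G)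
  obtain ⟨N, hN⟩ : ∃ N : ℕ, N = orderOf v := ⟨_, rfl⟩
  have hNpos : 0 < N := hN ▸ orderOf_pos v
  have hvN : v ^ N = 1 := by
    rw [hN]
    exact pow_orderOf_eq_one v
  haveI : NeZero N := ⟨hNpos.ne'⟩
  obtain ⟨ζ, hζ⟩ : ∃ ζ : ℂ, IsPrimitiveRoot ζ N := ⟨_, Complex.isPrimitiveRoot_exp N hNpos.ne'⟩
  have hpoly : ∀ χ : IrrCharacter X, ∃ P : ℤ[X], ∀ k : ℕ,
      (χ : X → ℂ) (v ^ k) = aeval (ζ ^ k) P :=
    fun χ => Helper24.char_poly (Helper24.isCharacter_of_irr χ.2) v N hNpos hvN ζ hζ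
  choose P hP using hpoly
  obtain ⟨w, hw⟩ : ∃ w : IrrCharacter X → ℝ,
      w = fun χ => ∑ η ∈ primitiveRoots N ℂ, ‖aeval η (P χ)‖ ^ 2 := ⟨_, rfl⟩
  obtain ⟨φ, hφ⟩ : ∃ φ : ℕ, φ = (primitiveRoots N ℂ).card := ⟨_, rfl⟩
  have hφpos : 0 < φ := by
    rw [hφ]
    exact Finset.card_pos.mpr ⟨ζ, (mem_primitiveRoots hNpos).mpr hζ⟩
  -- every weight is at least `φ`
  have hw1 : ∀ χ : IrrCharacter X, (φ : ℝ) ≤ w χ := by
    intro χ
    rw [hw, hφ]
    apply Helper24.sum_normSq_primitiveRoots_ge hNpos hζ (P χ)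
    have h1 := hP χ 1
    rw [pow_one, pow_one] at h1
    rw [← h1]
    exact char_ne_zero_of_mem p V hVp hidx hab χ.2 v hv
  -- the total weight
  have htotal : ∑ χ : IrrCharacter X, w χ =
      (φ : ℝ) * (Nat.card (Subgroup.centralizer ({v} : Set X)) : ℝ) := by
    rw [hw]
    show ∑ χ : IrrCharacter X, ∑ η ∈ primitiveRoots N ℂ, ‖aeval η (P χ)‖ ^ 2 = _
    rw [Finset.sum_comm]
    have hη : ∀ η ∈ primitiveRoots N ℂ, ∑ χ : IrrCharacter X, ‖aeval η (P χ)‖ ^ 2 =
        (Nat.card (Subgroup.centralizer ({v} : Set X)) : ℝ) := by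
      intro η hη
      obtain ⟨k, -, hcop, rfl⟩ :=
        hζ.isPrimitiveRoot_iff.mp ((mem_primitiveRoots hNpos).mp hη)
      have h1 : ∀ χ : IrrCharacter X, ‖aeval (ζ ^ k) (P χ)‖ ^ 2 =
          ‖(χ : X → ℂ) (v ^ k)‖ ^ 2 := fun χ => by rw [hP χ k]
      rw [Finset.sum_congr rfl (fun χ _ => h1 χ), sum_normSq_eq_card_centralizer,
        centralizer_pow_coprime v N k hN hNpos hcop]
    rw [Finset.sum_congr rfl hη, Finset.sum_const, nsmul_eq_mul, hφ]
  -- inflation from the complement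
  obtain ⟨π, hπG, hπker⟩ := TwoCompl.exists_retraction V G hGV
  have hπsurj : Function.Surjective π := fun g => ⟨g, hπG g⟩
  obtain ⟨infl, hinfl⟩ : ∃ infl : IrrCharacter ↥G → IrrCharacter X,
      ∀ ψ, ((infl ψ : IrrCharacter X) : X → ℂ) = (ψ : ↥G → ℂ) ∘ π :=
    ⟨fun ψ => ⟨(ψ : ↥G → ℂ) ∘ π, isIrrCharacter_comp_surjective π hπsurj ψ.2⟩, fun _ => rfl⟩
  have hinj : Function.Injective infl := by
    intro ψ ψ' h
    apply Subtype.ext
    funext g
    obtain ⟨x, rfl⟩ := hπsurj g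
    have h1 := congrFun (congrArg Subtype.val h) x
    rw [hinfl, hinfl] at h1
    exact h1
  have hwinfl : ∀ ψ : IrrCharacter ↥G,
      w (infl ψ) = (φ : ℝ) * (charDegree (ψ : ↥G → ℂ) : ℝ) ^ 2 := by
    intro ψ
    rw [hw]
    show ∑ η ∈ primitiveRoots N ℂ, ‖aeval η (P (infl ψ))‖ ^ 2 = _
    have hη : ∀ η ∈ primitiveRoots N ℂ, ‖aeval η (P (infl ψ))‖ ^ 2 =
        (charDegree (ψ : ↥G → ℂ) : ℝ) ^ 2 := by
      intro η hη
      obtain ⟨k, -, -, rfl⟩ :=
        hζ.isPrimitiveRoot_iff.mp ((mem_primitiveRoots hNpos).mp hη)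
      rw [← hP (infl ψ) k, hinfl, Function.comp_apply]
      have hker : π (v ^ k) = 1 := by
        rw [← MonoidHom.mem_ker, hπker]
        exact V.pow_mem hv k
      rw [hker, Helper24.charDegree_spec (Helper24.isCharacter_of_irr ψ.2), Complex.norm_natCast]
    rw [Finset.sum_congr rfl hη, Finset.sum_const, nsmul_eq_mul, hφ]
  -- sum of squares of degrees of the complement
  have hdeg : ∑ ψ : IrrCharacter ↥G, (charDegree (ψ : ↥G → ℂ) : ℝ) ^ 2 = (Nat.card G : ℝ) := by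
    have h := Helper2.sum_degree_sq (G := ↥G)
    have h1 : ∀ ψ : IrrCharacter ↥G, (ψ : ↥G → ℂ) 1 * (ψ : ↥G → ℂ) 1 =
        (((charDegree (ψ : ↥G → ℂ) : ℝ) ^ 2 : ℝ) : ℂ) := by
      intro ψ
      rw [Helper24.charDegree_spec (Helper24.isCharacter_of_irr ψ.2)]
      push_cast
      ring
    rw [Finset.sum_congr rfl (fun ψ _ => h1 ψ), ← Complex.ofReal_sum] at h
    exact_mod_cast h
  -- lower bound for the total weight
  have hlower : (φ : ℝ) * ((Fintype.card (IrrCharacter X) : ℝ) + (Nat.card G : ℝ) -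
      (Fintype.card (IrrCharacter ↥G) : ℝ)) ≤ ∑ χ : IrrCharacter X, w χ := by
    have h1 : ∑ χ ∈ (Finset.univ : Finset (IrrCharacter ↥G)).image infl, (w χ - (φ : ℝ)) ≤
        ∑ χ : IrrCharacter X, (w χ - (φ : ℝ)) :=
      Finset.sum_le_sum_of_subset_of_nonneg (Finset.subset_univ _)
        (fun χ _ _ => sub_nonneg.mpr (hw1 χ))
    rw [Finset.sum_image (fun a _ b _ h => hinj h)] at h1
    have h2 : ∑ ψ : IrrCharacter ↥G, (w (infl ψ) - (φ : ℝ)) =
        (φ : ℝ) * ((Nat.card G : ℝ) - (Fintype.card (IrrCharacter ↥G) : ℝ)) := by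
      rw [Finset.sum_congr rfl (fun ψ _ => by rw [hwinfl ψ]), Finset.sum_sub_distrib,
        ← Finset.mul_sum, hdeg, Finset.sum_const, Finset.card_univ, nsmul_eq_mul]
      ring
    rw [h2, Finset.sum_sub_distrib, Finset.sum_const, Finset.card_univ, nsmul_eq_mul] at h1
    linarith
  rw [htotal] at hlower
  have hφ0 : (0 : ℝ) < φ := by exact_mod_cast hφpos
  have hfin : (Fintype.card (IrrCharacter X) : ℝ) + (Nat.card G : ℝ) -
      (Fintype.card (IrrCharacter ↥G) : ℝ) ≤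
      (Nat.card (Subgroup.centralizer ({v} : Set X)) : ℝ) := le_of_mul_le_mul_left hlower hφ0
  have hkX := Helper2.card_irrCharacter (G := X)
  have hkG := Helper2.card_irrCharacter (G := ↥G)
  rw [Nat.card_eq_fintype_card] at hkX hkG
  rw [card_centralizer_eq V G hab hGV v hv] at hfin
  rw [← hkX, ← hkG]
  have hfin' : (Fintype.card (IrrCharacter X) : ℝ) + (Nat.card G : ℝ) ≤
      ((Nat.card ↥(G ⊓ Subgroup.centralizer ({v} : Set X)) * Nat.card V : ℕ) : ℝ) +
        (Fintype.card (IrrCharacter ↥G) : ℝ) := by linarith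
  exact_mod_cast hfin'

end Cfsg.Agent.Helper6.KGV
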