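import Cfsg.Agent.Helper6.KleinFour

set_option autoImplicit false
set_option linter.unusedSectionVars false

/-!
# The principal `2`-block for a Klein four Sylow subgroup: assembling the statement (helper6)
-/

namespace Cfsg.Agent.Helper6

open Cfsg
open scoped ComplexConjugate

section KleinFour2

variable {G : Type*} [Group G] [Fintype G] {M : Ideal AlgInt}

theorem kf_assemble (P : Sylow 2 G) (hP4 : Nat.card P = 4) (hexp : ∀ x : P, x * x = 1)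
    (hone : ∀ s t : G, orderOf s = 2 → orderOf t = 2 → IsConj s t)
    (J : G) (hJ : orderOf J = 2)
    (ζ₂ ζ₃ ζ₄ : IrrCharacter G) (ε : ℤ) (hε : ε = 1 ∨ ε = -1)
    (h2 : ζ₂ ≠ Helper25.oneIrr G) (h3 : ζ₃ ≠ Helper25.oneIrr G)
    (h23 : ζ₂ ≠ ζ₃) (h24 : ζ₂ ≠ ζ₄) (h34 : ζ₃ ≠ ζ₄)
    (hB : ∀ φ : IrrCharacter G, φ ∈ principalBlock M G ↔
      φ = Helper25.oneIrr G ∨ φ = ζ₂ ∨ φ = ζ₃ ∨ φ = ζ₄)
    (hv2 : (ζ₂ : G → ℂ) J = 1) (hv3 : (ζ₃ : G → ℂ) J = (ε : ℂ)) (hv4 : (ζ₄ : G → ℂ) J = -1)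
    (horth : ∀ y : G, ¬ 2 ∣ orderOf y →
      1 + (ζ₂ : G → ℂ) y + (ε : ℂ) * (ζ₃ : G → ℂ) y - (ζ₄ : G → ℂ) y = 0) :
    ∃ ζ₂ ζ₃ ζ₄ : IrrCharacter G, ∃ ε : ℤ, (ε = 1 ∨ ε = -1) ∧ (ζ₂ : G → ℂ) ≠ (fun _ => 1) ∧
      (ζ₃ : G → ℂ) ≠ (fun _ => 1) ∧ ζ₂ ≠ ζ₃ ∧ ζ₂ ≠ ζ₄ ∧ ζ₃ ≠ ζ₄ ∧
      principalBlock M G = {χ : IrrCharacter G |
        (χ : G → ℂ) = (fun _ => 1) ∨ χ = ζ₂ ∨ χ = ζ₃ ∨ χ = ζ₄} ∧
      (∀ z : G, orderOf z = 2 →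
        (ζ₂ : G → ℂ) z = 1 ∧ (ζ₃ : G → ℂ) z = (ε : ℂ) ∧ (ζ₄ : G → ℂ) z = -1) ∧
      (4 : ℤ) ∣ (charDegree (ζ₂ : G → ℂ) : ℤ) - 1 ∧
      (4 : ℤ) ∣ (charDegree (ζ₃ : G → ℂ) : ℤ) - ε ∧
      (4 : ℤ) ∣ (charDegree (ζ₄ : G → ℂ) : ℤ) + 1 ∧
      ∀ y : G, Odd (orderOf y) →
        1 + (ζ₂ : G → ℂ) y + (ε : ℂ) * (ζ₃ : G → ℂ) y - (ζ₄ : G → ℂ) y = 0 := by
  have hval : ∀ (χ : IrrCharacter G) (z : G), orderOf z = 2 →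
      (χ : G → ℂ) z = (χ : G → ℂ) J := by
    intro χ z hz
    exact Helper2.IsClassFunction.apply_eq_of_isConj
      (Helper2.IsIrrCharacter.isClassFunction χ.2) (hone z J hz hJ)
  have hne : ∀ ζ : IrrCharacter G, ζ ≠ Helper25.oneIrr G → (ζ : G → ℂ) ≠ (fun _ => 1) := by
    intro ζ h h'
    exact h (Subtype.ext h')
  refine ⟨ζ₂, ζ₃, ζ₄, ε, hε, hne ζ₂ h2, hne ζ₃ h3, h23, h24, h34, ?_, ?_, ?_, ?_, ?_, ?_⟩
  · ext χ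
    rw [hB χ]
    constructor
    · rintro (h | h)
      · left
        rw [h]
        rfl
      · right
        exact h
    · rintro (h | h)
      · left
        exact Subtype.ext h
      · right
        exact h
  · intro z hz
    exact ⟨by rw [hval ζ₂ z hz, hv2], by rw [hval ζ₃ z hz, hv3], by rw [hval ζ₄ z hz, hv4]⟩
  · have h := kf_deg P hP4 hexp ζ₂ 1 (fun z hz => by rw [hval ζ₂ z hz, hv2]; simp)
    exact h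
  · exact kf_deg P hP4 hexp ζ₃ ε (fun z hz => by rw [hval ζ₃ z hz, hv3])
  · have h := kf_deg P hP4 hexp ζ₄ (-1) (fun z hz => by rw [hval ζ₄ z hz, hv4]; simp)
    rw [sub_neg_eq_add] at h
    exact h
  · intro y hy
    exact horth y (fun h => (Nat.not_even_iff_odd.2 hy) (even_iff_two_dvd.2 h))

end KleinFour2

end Cfsg.Agent.Helper6
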