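import Mathlib
import Cfsg.Agent.S0071
import Cfsg.Agent.Helper6.TwoCompl
import Cfsg.Agent.Helper2.KleinSylow
import Cfsg.Agent.Helper18.KleinCount
import Cfsg.Agent.Helper8.BSQ8Grp

set_option autoImplicit false
set_option linter.unusedSectionVars false

/-!
# Counting pairs of involutions for a Klein four Sylow subgroup (helper6)
-/

namespace Cfsg.Agent.Helper6

section KleinOrder

/-- A group with a central involution and a Sylow `2`-subgroup of order four and exponent two
has a normal `2`-complement. -/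
theorem ko_complement {H : Type*} [Group H] [Finite H] (Jh : H) (hJ : orderOf Jh = 2)
    (hJc : Jh ∈ Subgroup.center H) (Q : Sylow 2 H) (hQ4 : Nat.card Q = 4)
    (hexp : ∀ x : Q, x * x = 1) :
    (Jh ∈ (Q : Subgroup H)) ∧ ∃ N : Subgroup H, N.Normal ∧ N.IsComplement' (Q : Subgroup H) := by
  haveI : Fact (Nat.Prime 2) := ⟨Nat.prime_two⟩
  have hV : IsKleinFour (Q : Subgroup H) :=
    Helper18.KleinCount.kc_isKleinFour _ hQ4 (fun x hx => congrArg Subtype.val (hexp ⟨x, hx⟩))
  have hJQ : Jh ∈ (Q : Subgroup H) := by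
    have hzp : IsPGroup 2 (Subgroup.zpowers Jh) :=
      IsPGroup.of_card (n := 1) (by rw [Nat.card_zpowers, hJ]; rfl)
    obtain ⟨c, hc⟩ := Helper8.bsq_conj_into Q _ hzp
    have h1 := hc Jh (Subgroup.mem_zpowers Jh)
    have h2 : c * Jh * c⁻¹ = Jh := by
      rw [Subgroup.mem_center_iff.1 hJc c]
      group
    rwa [h2] at h1
  refine ⟨hJQ, ?_⟩
  rw [Cfsg.Agent.S0071.result Q]
  intro Q' hQ' g hg hcop
  have hgodd : Odd (orderOf g) := Nat.coprime_two_right.1 hcop
  have hJ1 : Jh ≠ 1 := by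
    intro h
    rw [h, orderOf_one] at hJ
    omega
  have hJJ : Jh * Jh = 1 := by
    have h := pow_orderOf_eq_one Jh
    rwa [hJ, pow_two] at h
  have hJg : g * Jh * g⁻¹ = Jh := by
    rw [Subgroup.mem_center_iff.1 hJc g]
    group
  rw [Subgroup.mem_centralizer_iff]
  intro q hq
  have hqQ : q ∈ (Q : Subgroup H) := hQ' hq
  by_cases hq1 : q = 1
  · rw [hq1, one_mul, mul_one]
  by_cases hqJ : q = Jh
  · rw [hqJ]
    exact (Subgroup.mem_center_iff.1 hJc g).symm
  have hr : g * q * g⁻¹ ∈ Q' := (Subgroup.mem_set_normalizer_iff.1 hg q).1 hq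
  have hrQ : g * q * g⁻¹ ∈ (Q : Subgroup H) := hQ' hr
  have hqe : q = g⁻¹ * (g * q * g⁻¹) * g := by group
  rcases (Helper18.KleinCount.kc_kf_mem _ hV Jh q hJQ hqQ hJ1 hq1 (Ne.symm hqJ) _).1 hrQ
    with h | h | h | h
  · exfalso
    apply hq1
    rw [hqe, h]
    group
  · exfalso
    apply hqJ
    rw [hqe, h]
    have h3 : g⁻¹ * Jh * g = g⁻¹ * (g * Jh * g⁻¹) * g := by rw [hJg]
    rw [h3]
    group
  · have h3 : g * q = g * q * g⁻¹ * g := by group
    rw [h3, h]
  · exfalso
    have h2 : g ^ 2 * q = q * g ^ 2 := by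
      have h3 : g ^ 2 * q * (g ^ 2)⁻¹ = q := by
        calc g ^ 2 * q * (g ^ 2)⁻¹ = g * (g * q * g⁻¹) * g⁻¹ := by
              rw [pow_two]
              group
          _ = g * (Jh * q) * g⁻¹ := by rw [h]
          _ = (g * Jh * g⁻¹) * (g * q * g⁻¹) := by group
          _ = Jh * (Jh * q) := by rw [hJg, h]
          _ = q := by rw [← mul_assoc, hJJ, one_mul]
      calc g ^ 2 * q = g ^ 2 * q * (g ^ 2)⁻¹ * g ^ 2 := by group
        _ = q * g ^ 2 := by rw [h3]
    have h4 := Helper8.bsq_odd_comm_of_sq hgodd h2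
    have h5 : g * q * g⁻¹ = q := by
      rw [h4]
      group
    rw [h5] at h
    apply hJ1
    calc Jh = Jh * q * q⁻¹ := by group
      _ = q * q⁻¹ := by rw [← h]
      _ = 1 := by group

/-- The retraction onto the Sylow subgroup whose kernel is the set of odd-order elements. -/
theorem ko_retract {H : Type*} [Group H] [Finite H] (Jh : H) (hJ : orderOf Jh = 2)
    (hJc : Jh ∈ Subgroup.center H) (Q : Sylow 2 H) (hQ4 : Nat.card Q = 4)
    (hexp : ∀ x : Q, x * x = 1) :
    ∃ π : H →* (Q : Subgroup H), (∀ q : (Q : Subgroup H), π (q : H) = q) ∧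
      (∀ h : H, π h = 1 ↔ ¬ 2 ∣ orderOf h) := by
  haveI : Fact (Nat.Prime 2) := ⟨Nat.prime_two⟩
  obtain ⟨-, N, hN, hc⟩ := ko_complement Jh hJ hJc Q hQ4 hexp
  obtain ⟨π, hπ, hker⟩ := TwoCompl.exists_retraction N (Q : Subgroup H) hc
  refine ⟨π, hπ, fun h => ⟨fun h1 => ?_, fun h1 => ?_⟩⟩
  · have hN' : h ∈ N := by
      rw [← hker]
      exact MonoidHom.mem_ker.2 h1
    have h2 : orderOf h ∣ Nat.card N := by
      have h3 := orderOf_dvd_natCard (⟨h, hN'⟩ : N)
      rwa [Subgroup.orderOf_mk] at h3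
    have h3 : (Q : Subgroup H).index = Nat.card N := hc.index_eq_card
    intro h4
    exact Q.not_dvd_index (by rw [h3]; exact dvd_trans h4 h2)
  · have h2 : orderOf (π h) ∣ orderOf h := orderOf_map_dvd π h
    have h3 : orderOf (π h) ∣ 2 ^ 2 := by
      have h5 := orderOf_dvd_natCard (π h)
      have h6 : Nat.card (Q : Subgroup H) = 4 := hQ4
      rw [h6] at h5
      exact h5
    have hodd : ¬ 2 ∣ orderOf (π h) := fun hd => h1 (dvd_trans hd h2)
    obtain ⟨k, hk, hk'⟩ := (Nat.dvd_prime_pow Nat.prime_two).1 h3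
    rcases k with _ | k
    · rw [pow_zero] at hk'
      exact orderOf_eq_one_iff.1 hk'
    · exfalso
      apply hodd
      rw [hk', pow_succ]
      exact dvd_mul_left 2 _

/-- Counting pairs of involutions whose product lies in the coset of the central involution
modulo odd-order elements. -/
theorem ko_pairs {H : Type*} [Group H] [Fintype H] (Jh : H) (hJ : orderOf Jh = 2)
    (hJc : Jh ∈ Subgroup.center H) (Q : Sylow 2 H) (hQ4 : Nat.card Q = 4)
    (hexp : ∀ x : Q, x * x = 1) (t : H) (ht : t ∈ (Q : Subgroup H)) (ht1 : t ≠ 1)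
    (htJ : t ≠ Jh) :
    (Nat.card (Subgroup.centralizer ({t} : Set H)) : ℂ) ^ 2 *
      ∑ u : H, ∑ v : H, (if orderOf u = 2 ∧ orderOf v = 2 ∧ ¬ 2 ∣ orderOf (Jh * (u * v))
        then (1 : ℂ) else 0)
      = 2 * (Nat.card H : ℂ) ^ 2 := by
  classical
  haveI : Fact (Nat.Prime 2) := ⟨Nat.prime_two⟩
  obtain ⟨hJQ, -⟩ := ko_complement Jh hJ hJc Q hQ4 hexp
  obtain ⟨π, hπ, hodd⟩ := ko_retract Jh hJ hJc Q hQ4 hexp
  have hV : IsKleinFour (Q : Subgroup H) :=
    Helper18.KleinCount.kc_isKleinFour _ hQ4 (fun x hx => congrArg Subtype.val (hexp ⟨x, hx⟩))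
  have hJ1 : Jh ≠ 1 := by
    intro h
    rw [h, orderOf_one] at hJ
    omega
  have hinvQ : ∀ a : (Q : Subgroup H), a⁻¹ = a := fun a => inv_eq_of_mul_eq_one_left (hexp a)
  have hcommQ : ∀ a b : (Q : Subgroup H), a * b = b * a := by
    intro a b
    calc a * b = (a * b)⁻¹ := (hinvQ (a * b)).symm
      _ = b⁻¹ * a⁻¹ := mul_inv_rev a b
      _ = b * a := by rw [hinvQ, hinvQ]
  obtain ⟨Jq, hJq⟩ : ∃ Jq : (Q : Subgroup H), (Jq : H) = Jh := ⟨⟨Jh, hJQ⟩, rfl⟩
  obtain ⟨tq, htq⟩ : ∃ tq : (Q : Subgroup H), (tq : H) = t := ⟨⟨t, ht⟩, rfl⟩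
  have hπJ : π Jh = Jq := by
    rw [← hJq]
    exact hπ Jq
  have hJq1 : Jq ≠ 1 := fun h => hJ1 (by rw [← hJq, h]; rfl)
  have htq1 : tq ≠ 1 := fun h => ht1 (by rw [← htq, h]; rfl)
  have htqJ : tq ≠ Jq := fun h => htJ (by rw [← htq, h, hJq])
  have hQel : ∀ q : (Q : Subgroup H), q = 1 ∨ q = Jq ∨ q = tq ∨ q = tq * Jq := by
    intro q
    rcases (Helper18.KleinCount.kc_kf_mem _ hV Jh t hJQ ht hJ1 ht1 (Ne.symm htJ) (q : H)).1 q.2
      with h | h | h | h
    · left
      exact Subtype.ext h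
    · right; left
      exact Subtype.ext (by rw [h, hJq])
    · right; right; left
      exact Subtype.ext (by rw [h, htq])
    · right; right; right
      apply Subtype.ext
      rw [h, Subgroup.coe_mul, htq, hJq]
      exact (Subgroup.mem_center_iff.1 hJc t).symm
  have hP1 : ∀ u : H, orderOf u = 2 →
      IsConj u ((π u : (Q : Subgroup H)) : H) ∧ π u ≠ 1 := by
    intro u hu
    obtain ⟨g, hg⟩ := Helper2.exists_conj_mem_sylow Q u hu
    have h1 : π (g * u * g⁻¹) = ⟨g * u * g⁻¹, hg⟩ := hπ ⟨_, hg⟩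
    have h2 : π (g * u * g⁻¹) = π u := by
      rw [map_mul, map_mul, map_inv, hcommQ (π g) (π u), mul_assoc, mul_inv_cancel, mul_one]
    constructor
    · rw [isConj_iff]
      refine ⟨g, ?_⟩
      rw [← h2, h1]
    · intro h
      have h3 := (hodd u).1 h
      rw [hu] at h3
      exact h3 (dvd_refl 2)
  have hP2 : ∀ q : (Q : Subgroup H), q ≠ 1 → ∀ v : H, IsConj (q : H) v →
      orderOf v = 2 ∧ π v = q := by
    intro q hq v hc
    obtain ⟨g, hg⟩ := isConj_iff.1 hc
    have hq2 : orderOf (q : H) = 2 := by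
      apply orderOf_eq_prime
      · rw [pow_two]
        exact congrArg Subtype.val (hexp q)
      · intro h
        exact hq (Subtype.ext h)
    constructor
    · rw [← hg]
      have h3 := (MulAut.conj g).orderOf_eq (q : H)
      rw [MulAut.conj_apply] at h3
      rw [h3, hq2]
    · rw [← hg, map_mul, map_mul, map_inv, hπ q, hcommQ (π g) q, mul_assoc, mul_inv_cancel,
        mul_one]
  obtain ⟨n, hn⟩ : ∃ n : ↥(Q : Subgroup H) → ℂ, n = fun q =>
      ∑ v : H, (if orderOf v = 2 ∧ π v = q then (1 : ℂ) else 0) := ⟨_, rfl⟩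
  have hn' : ∀ q, n q = ∑ v : H, (if orderOf v = 2 ∧ π v = q then (1 : ℂ) else 0) :=
    fun q => by rw [hn]
  have hn1 : n 1 = 0 := by
    rw [hn']
    apply Finset.sum_eq_zero
    intro v _
    rw [if_neg]
    rintro ⟨hv, h1⟩
    exact (hP1 v hv).2 h1
  have hP3 : ∀ q : (Q : Subgroup H), q ≠ 1 →
      n q * (Nat.card (Subgroup.centralizer ({(q : H)} : Set H)) : ℂ) = (Nat.card H : ℂ) := by
    intro q hq
    have h1 : n q = (Nat.card (ConjClasses.mk (q : H)).carrier : ℂ) := by
      rw [hn', Finset.sum_boole, Nat.card_eq_fintype_card, Fintype.card_subtype]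
      congr 2
      apply Finset.filter_congr
      intro v _
      rw [ConjClasses.mem_carrier_iff_mk_eq, ConjClasses.mk_eq_mk_iff_isConj]
      constructor
      · rintro ⟨hv, hpv⟩
        have h2 := (hP1 v hv).1
        rw [hpv] at h2
        exact h2
      · intro hc
        exact hP2 q hq v hc.symm
    rw [h1, ← Nat.cast_mul, Helper18.KleinCount.kc_card_class]
  have hinner : ∀ u : H, orderOf u = 2 →
      ∑ v : H, (if orderOf u = 2 ∧ orderOf v = 2 ∧ ¬ 2 ∣ orderOf (Jh * (u * v))
        then (1 : ℂ) else 0) = n (π u * Jq) := by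
    intro u hu
    rw [hn']
    refine Finset.sum_congr rfl fun v _ => ?_
    have hiff : (orderOf u = 2 ∧ orderOf v = 2 ∧ ¬ 2 ∣ orderOf (Jh * (u * v))) ↔
        (orderOf v = 2 ∧ π v = π u * Jq) := by
      rw [← hodd, map_mul, map_mul, hπJ]
      constructor
      · rintro ⟨-, hv, h⟩
        refine ⟨hv, ?_⟩
        have h2 : π v = (Jq * π u)⁻¹ := by
          rw [← mul_assoc] at h
          exact (inv_eq_of_mul_eq_one_right h).symm
        rw [h2, hinvQ, hcommQ]
      · rintro ⟨hv, h⟩
        refine ⟨hu, hv, ?_⟩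
        rw [h, ← mul_assoc (π u), hexp (π u), one_mul, hexp Jq]
    by_cases h : orderOf v = 2 ∧ π v = π u * Jq
    · rw [if_pos h, if_pos (hiff.2 h)]
    · rw [if_neg h, if_neg (fun h' => h (hiff.1 h'))]
  have htJne : tq * Jq ≠ 1 := by
    intro h
    apply htqJ
    calc tq = (Jq)⁻¹ := eq_inv_of_mul_eq_one_left h
      _ = Jq := hinvQ Jq
  have hpt : ∀ u : H, (∑ v : H, (if orderOf u = 2 ∧ orderOf v = 2 ∧
        ¬ 2 ∣ orderOf (Jh * (u * v)) then (1 : ℂ) else 0))
      = (if orderOf u = 2 ∧ π u = tq then (1 : ℂ) else 0) * n (tq * Jq)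
        + (if orderOf u = 2 ∧ π u = tq * Jq then (1 : ℂ) else 0) * n tq := by
    intro u
    by_cases hu : orderOf u = 2
    · rw [hinner u hu]
      rcases hQel (π u) with h | h | h | h
      · exact absurd h (hP1 u hu).2
      · have e1 : ¬ (orderOf u = 2 ∧ π u = tq) := fun h' => htqJ (h'.2.symm.trans h)
        have e2 : ¬ (orderOf u = 2 ∧ π u = tq * Jq) := by
          rintro ⟨-, h'⟩
          apply htq1
          have h3 : tq * Jq = 1 * Jq := by rw [one_mul, ← h', h]
          exact mul_right_cancel h3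
        rw [if_neg e1, if_neg e2, h, hexp Jq, hn1]
        ring
      · have e2 : ¬ (orderOf u = 2 ∧ π u = tq * Jq) := by
          rintro ⟨-, h'⟩
          apply hJq1
          have h3 : tq * Jq = tq * 1 := by rw [mul_one, ← h', h]
          exact mul_left_cancel h3
        rw [if_pos ⟨hu, h⟩, if_neg e2, h]
        ring
      · have e1 : ¬ (orderOf u = 2 ∧ π u = tq) := by
          rintro ⟨-, h'⟩
          apply hJq1
          have h3 : tq * Jq = tq * 1 := by rw [mul_one, ← h, h']
          exact mul_left_cancel h3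
        rw [if_neg e1, if_pos ⟨hu, h⟩, h, mul_assoc, hexp Jq, mul_one]
        ring
    · rw [if_neg (fun h => hu h.1), if_neg (fun h => hu h.1), zero_mul, zero_mul, add_zero]
      apply Finset.sum_eq_zero
      intro v _
      rw [if_neg (fun h => hu h.1)]
  have htotal : ∑ u : H, ∑ v : H, (if orderOf u = 2 ∧ orderOf v = 2 ∧
        ¬ 2 ∣ orderOf (Jh * (u * v)) then (1 : ℂ) else 0) = 2 * (n tq * n (tq * Jq)) := by
    rw [Finset.sum_congr rfl (fun u _ => hpt u), Finset.sum_add_distrib, ← Finset.sum_mul,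
      ← Finset.sum_mul, ← hn' tq, ← hn' (tq * Jq)]
    ring
  have h3t := hP3 tq htq1
  have h3tJ := hP3 (tq * Jq) htJne
  have hcent : Subgroup.centralizer ({((tq * Jq : (Q : Subgroup H)) : H)} : Set H)
      = Subgroup.centralizer ({t} : Set H) := by
    ext x
    rw [Subgroup.mem_centralizer_singleton_iff, Subgroup.mem_centralizer_singleton_iff,
      Subgroup.coe_mul, htq, hJq]
    have hJx : Jh * x = x * Jh := (Subgroup.mem_center_iff.1 hJc x).symm
    constructor
    · intro h
      have h2 : x * t * Jh = t * x * Jh := by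
        calc x * t * Jh = x * (t * Jh) := mul_assoc _ _ _
          _ = t * Jh * x := h
          _ = t * (Jh * x) := mul_assoc _ _ _
          _ = t * (x * Jh) := by rw [hJx]
          _ = t * x * Jh := (mul_assoc _ _ _).symm
      exact mul_right_cancel h2
    · intro h
      calc x * (t * Jh) = x * t * Jh := (mul_assoc _ _ _).symm
        _ = t * x * Jh := by rw [h]
        _ = t * (x * Jh) := mul_assoc _ _ _
        _ = t * (Jh * x) := by rw [hJx]
        _ = t * Jh * x := (mul_assoc _ _ _).symm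
  rw [htq] at h3t
  rw [hcent] at h3tJ
  rw [htotal]
  linear_combination (2 * n (tq * Jq) * (Nat.card (Subgroup.centralizer ({t} : Set H)) : ℂ)) * h3t
    + (2 * (Nat.card H : ℂ)) * h3tJ

/-- Two involutions whose product is the involution `J` times an odd-order element commuting
with `J` both commute with `J`. -/
theorem ko_T1 {G : Type*} [Group G] (J u v y : G) (hJ : orderOf J = 2) (hu : u * u = 1)
    (hv : v * v = 1) (hy : J * y = y * J) (hodd : ¬ 2 ∣ orderOf y) (h : u * v = J * y) :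
    u * J = J * u ∧ v * J = J * v := by
  have hJJ : J * J = 1 := by
    have h := pow_orderOf_eq_one J
    rwa [hJ, pow_two] at h
  have huinv : u⁻¹ = u := inv_eq_of_mul_eq_one_left hu
  have hvinv : v⁻¹ = v := inv_eq_of_mul_eq_one_left hv
  have hJinv : J⁻¹ = J := inv_eq_of_mul_eq_one_left hJJ
  obtain ⟨k, hk⟩ : Odd (orderOf y) :=
    Nat.not_even_iff_odd.1 (fun he => hodd (even_iff_two_dvd.1 he))
  have hpow : (u * v) ^ orderOf y = J := by
    have hc : Commute J y := hy
    rw [h, hc.mul_pow, pow_orderOf_eq_one, mul_one, hk, pow_succ, pow_mul, pow_two, hJJ,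
      one_pow, one_mul]
  have hwinv : (u * v)⁻¹ = v * u := by rw [mul_inv_rev, huinv, hvinv]
  constructor
  · have h1 : u * (u * v) * u⁻¹ = (u * v)⁻¹ := by
      rw [hwinv, huinv, ← mul_assoc, hu, one_mul]
    have h2 : u * (u * v) ^ orderOf y * u⁻¹ = ((u * v) ^ orderOf y)⁻¹ := by
      rw [← conj_pow, h1, inv_pow]
    rw [hpow, hJinv] at h2
    calc u * J = u * J * u⁻¹ * u := by group
      _ = J * u := by rw [h2]
  · have h1 : v * (u * v) * v⁻¹ = (u * v)⁻¹ := by
      rw [hwinv]
      group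
    have h2 : v * (u * v) ^ orderOf y * v⁻¹ = ((u * v) ^ orderOf y)⁻¹ := by
      rw [← conj_pow, h1, inv_pow]
    rw [hpow, hJinv] at h2
    calc v * J = v * J * v⁻¹ * v := by group
      _ = J * v := by rw [h2]

/-- Summing over conjugates of an involution when all involutions are conjugate. -/
theorem ko_fiber {G : Type*} [Group G] [Fintype G] (J : G) (hJ : orderOf J = 2)
    (hone : ∀ s t : G, orderOf s = 2 → orderOf t = 2 → IsConj s t) (φ : G → ℂ) :
    ∑ a : G, φ (a * J * a⁻¹) = (Nat.card (Subgroup.centralizer ({J} : Set G)) : ℂ)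
      * ∑ u : G, (if orderOf u = 2 then φ u else 0) := by
  classical
  have hcnt : ∀ g : G, ∑ a : G, (if g * J * g⁻¹ = a * J * a⁻¹ then (1 : ℂ) else 0)
      = (Nat.card (Subgroup.centralizer ({J} : Set G)) : ℂ) := by
    intro g
    rw [← Equiv.sum_comp (Equiv.mulLeft g)]
    have hiff : ∀ a : G, (g * J * g⁻¹ = (Equiv.mulLeft g a) * J * (Equiv.mulLeft g a)⁻¹) ↔
        a ∈ Subgroup.centralizer ({J} : Set G) := by
      intro a
      rw [Equiv.coe_mulLeft, Subgroup.mem_centralizer_singleton_iff]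
      constructor
      · intro h
        have h2 : J = a * J * a⁻¹ := by
          have h3 : g * J * g⁻¹ = g * (a * J * a⁻¹) * g⁻¹ := by
            rw [h]
            group
          exact mul_left_cancel (mul_right_cancel h3)
        calc a * J = a * J * a⁻¹ * a := by group
          _ = J * a := by rw [← h2]
      · intro h
        have h2 : a * J * a⁻¹ = J := by
          rw [h]
          group
        calc g * J * g⁻¹ = g * (a * J * a⁻¹) * g⁻¹ := by rw [h2]
          _ = g * a * J * (g * a)⁻¹ := by group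
    rw [Finset.sum_congr rfl (fun a _ => if_congr (hiff a) rfl rfl), Finset.sum_boole,
      Nat.card_eq_fintype_card, Fintype.card_subtype]
  have h1 : ∀ a : G, φ (a * J * a⁻¹) = ∑ u : G, (if u = a * J * a⁻¹ then φ u else 0) := by
    intro a
    rw [Finset.sum_ite_eq', if_pos (Finset.mem_univ _)]
  rw [Finset.sum_congr rfl (fun a _ => h1 a), Finset.sum_comm, Finset.mul_sum]
  refine Finset.sum_congr rfl fun u _ => ?_
  by_cases hu : orderOf u = 2
  · rw [if_pos hu]
    obtain ⟨g, hg⟩ := isConj_iff.1 (hone J u hJ hu)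
    have h2 : ∀ a : G, (if u = a * J * a⁻¹ then φ u else 0)
        = φ u * (if g * J * g⁻¹ = a * J * a⁻¹ then (1 : ℂ) else 0) := by
      intro a
      rw [hg]
      by_cases h : u = a * J * a⁻¹
      · rw [if_pos h, if_pos h, mul_one]
      · rw [if_neg h, if_neg h, mul_zero]
    rw [Finset.sum_congr rfl (fun a _ => h2 a), ← Finset.mul_sum, hcnt g, mul_comm]
  · rw [if_neg hu, mul_zero]
    apply Finset.sum_eq_zero
    intro a _
    rw [if_neg]
    intro h
    apply hu
    rw [h]
    have h3 := (MulAut.conj a).orderOf_eq J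
    rw [MulAut.conj_apply] at h3
    rw [h3, hJ]

/-- Sums over a subgroup as sums with a membership indicator. -/
theorem ko_sub {G : Type*} [Group G] [Fintype G] (C : Subgroup G) [Fintype C]
    [DecidablePred (· ∈ C)] (f : G → ℂ) :
    ∑ u : G, (if u ∈ C then f u else 0) = ∑ u : C, f (u : G) := by
  rw [← Finset.sum_filter]
  exact Finset.sum_subtype (Finset.univ.filter (· ∈ C)) (fun x => by simp) f

/-- The count of pairs of conjugates of `J` whose product lies in `J` times the odd-order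
elements of the centralizer of `J`. -/
theorem ko_count {G : Type*} [Group G] [Fintype G] [DecidableEq G] (P : Sylow 2 G)
    (hP4 : Nat.card P = 4)
    (hexp : ∀ x : P, x * x = 1) (hone : ∀ s t : G, orderOf s = 2 → orderOf t = 2 → IsConj s t)
    (J : G) (hJP : J ∈ (P : Subgroup G)) (hJ : orderOf J = 2)
    (haC : (Nat.card (Subgroup.centralizer ({J} : Set G))).factorization 2 = 2)
    [Fintype (Subgroup.centralizer ({J} : Set G))] :
    (Nat.card (Subgroup.centralizer ((P : Subgroup G) : Set G)) : ℂ) ^ 2 *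
      ∑ y : Subgroup.centralizer ({J} : Set G), (if 2 ∣ orderOf y then (0 : ℂ) else
        ∑ a : G, ∑ b : G, (if a * J * a⁻¹ * (b * J * b⁻¹) = J * (y : G) then (1 : ℂ) else 0))
    = 2 * (Nat.card (Subgroup.centralizer ({J} : Set G)) : ℂ) ^ 4 := by
  classical
  haveI : Fact (Nat.Prime 2) := ⟨Nat.prime_two⟩
  have hJJ : J * J = 1 := by
    have h := pow_orderOf_eq_one J
    rwa [hJ, pow_two] at h
  have hJ1 : J ≠ 1 := by
    intro h
    rw [h, orderOf_one] at hJ
    omega
  have hVP : IsKleinFour (P : Subgroup G) :=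
    Helper18.KleinCount.kc_isKleinFour _ hP4 (fun x hx => congrArg Subtype.val (hexp ⟨x, hx⟩))
  have h2el : ∀ x : G, (∃ k : ℕ, orderOf x = 2 ^ k) → x * x = 1 := by
    rintro x ⟨k, hk⟩
    have hQ : IsPGroup 2 (Subgroup.zpowers x) :=
      IsPGroup.of_card (n := k) (by rw [Nat.card_zpowers, hk])
    obtain ⟨g, hg⟩ := Helper8.bsq_conj_into P _ hQ
    have h1 := hg x (Subgroup.mem_zpowers x)
    have h2 : (g * x * g⁻¹) * (g * x * g⁻¹) = 1 := congrArg Subtype.val (hexp ⟨_, h1⟩)
    have h3 : x * x = g⁻¹ * ((g * x * g⁻¹) * (g * x * g⁻¹)) * g := by group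
    rw [h3, h2]
    group
  have hJC : J ∈ Subgroup.centralizer ({J} : Set G) :=
    Subgroup.mem_centralizer_singleton_iff.2 rfl
  obtain ⟨Jh, hJh⟩ : ∃ Jh : Subgroup.centralizer ({J} : Set G), (Jh : G) = J :=
    ⟨⟨J, hJC⟩, rfl⟩
  have hJh2 : orderOf Jh = 2 := by
    rw [← Subgroup.orderOf_coe, hJh]
    exact hJ
  have hJhc : Jh ∈ Subgroup.center (Subgroup.centralizer ({J} : Set G)) := by
    rw [Subgroup.mem_center_iff]
    intro c
    apply Subtype.ext
    show (c : G) * (Jh : G) = (Jh : G) * (c : G)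
    rw [hJh]
    exact Subgroup.mem_centralizer_singleton_iff.1 c.2
  obtain ⟨x₁, x₂, hx₁, hx₂, hx₁1, hx₂1, hx12⟩ := @Helper2.klein_exists_pair G _ _ P hVP
  obtain ⟨t₀, ht₀P, ht₀1, ht₀J⟩ : ∃ t₀ : G, t₀ ∈ (P : Subgroup G) ∧ t₀ ≠ 1 ∧ t₀ ≠ J := by
    by_cases h : x₁ = J
    · exact ⟨x₂, hx₂, hx₂1, fun h' => hx12 (h.trans h'.symm)⟩
    · exact ⟨x₁, hx₁, hx₁1, h⟩
  have ht₀C : t₀ ∈ Subgroup.centralizer ({J} : Set G) := by
    rw [Subgroup.mem_centralizer_singleton_iff]
    exact Helper18.KleinCount.kc_kf_comm _ hVP t₀ J ht₀P hJP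
  have hP' : IsPGroup 2 ((P : Subgroup G).subgroupOf (Subgroup.centralizer ({J} : Set G))) :=
    P.isPGroup'.comap_subtype
  obtain ⟨Q, hQ⟩ := hP'.exists_le_sylow
  have hQ4 : Nat.card Q = 4 := by
    rw [Sylow.card_eq_multiplicity Q, haC]
    norm_num
  have hexpQ : ∀ x : Q, x * x = 1 := by
    intro x
    obtain ⟨k, hk⟩ := (IsPGroup.iff_orderOf.1 Q.isPGroup') x
    have h1 : ∃ k : ℕ, orderOf (((x : Subgroup.centralizer ({J} : Set G)) : G)) = 2 ^ k :=
      ⟨k, by rw [Subgroup.orderOf_coe, Subgroup.orderOf_coe]; exact hk⟩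
    have h2 := h2el _ h1
    apply Subtype.ext
    apply Subtype.ext
    exact h2
  obtain ⟨t, ht⟩ : ∃ t : Subgroup.centralizer ({J} : Set G), (t : G) = t₀ :=
    ⟨⟨t₀, ht₀C⟩, rfl⟩
  have htQ : t ∈ (Q : Subgroup (Subgroup.centralizer ({J} : Set G))) := by
    apply hQ
    rw [Subgroup.mem_subgroupOf, ht]
    exact ht₀P
  have ht1 : t ≠ 1 := fun h => ht₀1 (by rw [← ht, h]; rfl)
  have htJ : t ≠ Jh := fun h => ht₀J (by rw [← ht, h, hJh])
  have hpairs := ko_pairs Jh hJh2 hJhc Q hQ4 hexpQ t htQ ht1 htJ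
  have hcard : Nat.card (Subgroup.centralizer ({t} : Set (Subgroup.centralizer ({J} : Set G))))
      = Nat.card (Subgroup.centralizer ((P : Subgroup G) : Set G)) := by
    refine Nat.card_congr ⟨fun x => ⟨((x : Subgroup.centralizer ({J} : Set G)) : G), ?_⟩,
      fun z => ⟨⟨(z : G), ?_⟩, ?_⟩, ?_, ?_⟩
    · rw [Subgroup.mem_centralizer_iff]
      intro p hp
      have hxJ : ((x : Subgroup.centralizer ({J} : Set G)) : G) * J
          = J * ((x : Subgroup.centralizer ({J} : Set G)) : G) :=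
        Subgroup.mem_centralizer_singleton_iff.1 (x : Subgroup.centralizer ({J} : Set G)).2
      have hxt : ((x : Subgroup.centralizer ({J} : Set G)) : G) * t₀
          = t₀ * ((x : Subgroup.centralizer ({J} : Set G)) : G) := by
        have h := Subgroup.mem_centralizer_singleton_iff.1 x.2
        have h' := congrArg Subtype.val h
        rw [Subgroup.coe_mul, Subgroup.coe_mul, ht] at h'
        exact h'
      rcases (Helper18.KleinCount.kc_kf_mem _ hVP J t₀ hJP ht₀P hJ1 ht₀1 (Ne.symm ht₀J) p).1 hp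
        with h | h | h | h
      · rw [h, one_mul, mul_one]
      · rw [h]
        exact hxJ.symm
      · rw [h]
        exact hxt.symm
      · rw [h]
        calc J * t₀ * ((x : Subgroup.centralizer ({J} : Set G)) : G)
            = J * (t₀ * ((x : Subgroup.centralizer ({J} : Set G)) : G)) := mul_assoc _ _ _
          _ = J * (((x : Subgroup.centralizer ({J} : Set G)) : G) * t₀) := by rw [hxt]
          _ = J * ((x : Subgroup.centralizer ({J} : Set G)) : G) * t₀ := (mul_assoc _ _ _).symm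
          _ = ((x : Subgroup.centralizer ({J} : Set G)) : G) * J * t₀ := by rw [hxJ]
          _ = ((x : Subgroup.centralizer ({J} : Set G)) : G) * (J * t₀) := mul_assoc _ _ _
    · rw [Subgroup.mem_centralizer_singleton_iff]
      exact (Subgroup.mem_centralizer_iff.1 z.2 J hJP).symm
    · rw [Subgroup.mem_centralizer_singleton_iff]
      apply Subtype.ext
      rw [Subgroup.coe_mul, Subgroup.coe_mul, ht]
      exact (Subgroup.mem_centralizer_iff.1 z.2 t₀ ht₀P).symm
    · intro x
      rfl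
    · intro z
      rfl
  -- the indicator on pairs of involutions
  have hA : ∀ u v : G, u * u = 1 → v * v = 1 →
      ∑ y : Subgroup.centralizer ({J} : Set G), (if 2 ∣ orderOf y then (0 : ℂ) else
        if u * v = J * (y : G) then 1 else 0)
      = if (u ∈ Subgroup.centralizer ({J} : Set G) ∧ v ∈ Subgroup.centralizer ({J} : Set G) ∧
          ¬ 2 ∣ orderOf (J * (u * v))) then 1 else 0 := by
    intro u v hu hv
    by_cases hc : (u ∈ Subgroup.centralizer ({J} : Set G) ∧
        v ∈ Subgroup.centralizer ({J} : Set G) ∧ ¬ 2 ∣ orderOf (J * (u * v)))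
    · rw [if_pos hc]
      obtain ⟨huC, hvC, hodd⟩ := hc
      have hmem : J * (u * v) ∈ Subgroup.centralizer ({J} : Set G) :=
        Subgroup.mul_mem _ hJC (Subgroup.mul_mem _ huC hvC)
      rw [Finset.sum_eq_single (⟨J * (u * v), hmem⟩ : Subgroup.centralizer ({J} : Set G))]
      · rw [if_neg (by rw [Subgroup.orderOf_mk]; exact hodd), if_pos]
        show u * v = J * (J * (u * v))
        rw [← mul_assoc, hJJ, one_mul]
      · intro y _ hy
        by_cases h2 : 2 ∣ orderOf y
        · rw [if_pos h2]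
        · rw [if_neg h2, if_neg]
          intro h
          apply hy
          apply Subtype.ext
          show (y : G) = J * (u * v)
          rw [h, ← mul_assoc, hJJ, one_mul]
      · intro h
        exact absurd (Finset.mem_univ _) h
    · rw [if_neg hc]
      apply Finset.sum_eq_zero
      intro y _
      by_cases h2 : 2 ∣ orderOf y
      · rw [if_pos h2]
      · rw [if_neg h2, if_neg]
        intro h
        apply hc
        have h2' : ¬ 2 ∣ orderOf (y : G) := by rwa [Subgroup.orderOf_coe]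
        have hyJ : J * (y : G) = (y : G) * J :=
          (Subgroup.mem_centralizer_singleton_iff.1 y.2).symm
        obtain ⟨h3, h4⟩ := ko_T1 J u v (y : G) hJ hu hv hyJ h2' h
        refine ⟨Subgroup.mem_centralizer_singleton_iff.2 h3,
          Subgroup.mem_centralizer_singleton_iff.2 h4, ?_⟩
        rw [h, ← mul_assoc, hJJ, one_mul]
        exact h2'
  have hsq : ∀ a : G, (a * J * a⁻¹) * (a * J * a⁻¹) = 1 := by
    intro a
    have h : (a * J * a⁻¹) * (a * J * a⁻¹) = a * (J * J) * a⁻¹ := by group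
    rw [h, hJJ]
    group
  -- swap the sums
  have hB : ∑ y : Subgroup.centralizer ({J} : Set G), (if 2 ∣ orderOf y then (0 : ℂ) else
        ∑ a : G, ∑ b : G, (if a * J * a⁻¹ * (b * J * b⁻¹) = J * (y : G) then (1 : ℂ) else 0))
      = ∑ a : G, ∑ b : G,
        (if (a * J * a⁻¹ ∈ Subgroup.centralizer ({J} : Set G) ∧
          b * J * b⁻¹ ∈ Subgroup.centralizer ({J} : Set G) ∧
          ¬ 2 ∣ orderOf (J * (a * J * a⁻¹ * (b * J * b⁻¹)))) then (1 : ℂ) else 0) := by
    have h1 : ∀ y : Subgroup.centralizer ({J} : Set G), (if 2 ∣ orderOf y then (0 : ℂ) else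
        ∑ a : G, ∑ b : G, (if a * J * a⁻¹ * (b * J * b⁻¹) = J * (y : G) then (1 : ℂ) else 0))
        = ∑ a : G, ∑ b : G, (if 2 ∣ orderOf y then (0 : ℂ) else
          if a * J * a⁻¹ * (b * J * b⁻¹) = J * (y : G) then 1 else 0) := by
      intro y
      by_cases h : 2 ∣ orderOf y
      · simp [h]
      · simp [h]
    rw [Finset.sum_congr rfl (fun y _ => h1 y), Finset.sum_comm]
    refine Finset.sum_congr rfl fun a _ => ?_
    rw [Finset.sum_comm]
    refine Finset.sum_congr rfl fun b _ => ?_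
    exact hA _ _ (hsq a) (hsq b)
  -- pass to involutions
  have hC : ∑ a : G, ∑ b : G,
        (if (a * J * a⁻¹ ∈ Subgroup.centralizer ({J} : Set G) ∧
          b * J * b⁻¹ ∈ Subgroup.centralizer ({J} : Set G) ∧
          ¬ 2 ∣ orderOf (J * (a * J * a⁻¹ * (b * J * b⁻¹)))) then (1 : ℂ) else 0)
      = (Nat.card (Subgroup.centralizer ({J} : Set G)) : ℂ) ^ 2 *
        ∑ u : G, ∑ v : G, (if orderOf u = 2 then (if orderOf v = 2 then
          (if (u ∈ Subgroup.centralizer ({J} : Set G) ∧
            v ∈ Subgroup.centralizer ({J} : Set G) ∧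
            ¬ 2 ∣ orderOf (J * (u * v))) then (1 : ℂ) else 0) else 0) else 0) := by
    have h1 : ∀ a : G, ∑ b : G,
        (if (a * J * a⁻¹ ∈ Subgroup.centralizer ({J} : Set G) ∧
          b * J * b⁻¹ ∈ Subgroup.centralizer ({J} : Set G) ∧
          ¬ 2 ∣ orderOf (J * (a * J * a⁻¹ * (b * J * b⁻¹)))) then (1 : ℂ) else 0)
        = (Nat.card (Subgroup.centralizer ({J} : Set G)) : ℂ) *
          ∑ v : G, (if orderOf v = 2 then
            (if (a * J * a⁻¹ ∈ Subgroup.centralizer ({J} : Set G) ∧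
            v ∈ Subgroup.centralizer ({J} : Set G) ∧
            ¬ 2 ∣ orderOf (J * (a * J * a⁻¹ * v))) then (1 : ℂ) else 0) else 0) := by
      intro a
      exact ko_fiber J hJ hone (fun v =>
        if (a * J * a⁻¹ ∈ Subgroup.centralizer ({J} : Set G) ∧
            v ∈ Subgroup.centralizer ({J} : Set G) ∧
            ¬ 2 ∣ orderOf (J * (a * J * a⁻¹ * v))) then (1 : ℂ) else 0)
    rw [Finset.sum_congr rfl (fun a _ => h1 a), ← Finset.mul_sum]
    have h2 := ko_fiber J hJ hone (fun u => ∑ v : G, (if orderOf v = 2 then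
            (if (u ∈ Subgroup.centralizer ({J} : Set G) ∧
            v ∈ Subgroup.centralizer ({J} : Set G) ∧
            ¬ 2 ∣ orderOf (J * (u * v))) then (1 : ℂ) else 0) else 0))
    beta_reduce at h2
    rw [h2, ← mul_assoc, ← pow_two]
    congr 1
    refine Finset.sum_congr rfl fun u _ => ?_
    by_cases hu : orderOf u = 2
    · rw [if_pos hu]
      refine Finset.sum_congr rfl fun v _ => ?_
      rw [if_pos hu]
    · rw [if_neg hu]
      symm
      apply Finset.sum_eq_zero
      intro v _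
      rw [if_neg hu]
  -- pass to the subgroup
  have hD : ∑ u : G, ∑ v : G, (if orderOf u = 2 then (if orderOf v = 2 then
          (if (u ∈ Subgroup.centralizer ({J} : Set G) ∧
            v ∈ Subgroup.centralizer ({J} : Set G) ∧
            ¬ 2 ∣ orderOf (J * (u * v))) then (1 : ℂ) else 0) else 0) else 0)
      = ∑ u : Subgroup.centralizer ({J} : Set G), ∑ v : Subgroup.centralizer ({J} : Set G),
        (if orderOf u = 2 ∧ orderOf v = 2 ∧ ¬ 2 ∣ orderOf (Jh * (u * v)) then (1 : ℂ) else 0) := by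
    have h1 : ∀ u v : G, (if orderOf u = 2 then (if orderOf v = 2 then
          (if (u ∈ Subgroup.centralizer ({J} : Set G) ∧
            v ∈ Subgroup.centralizer ({J} : Set G) ∧
            ¬ 2 ∣ orderOf (J * (u * v))) then (1 : ℂ) else 0) else 0) else 0)
        = if u ∈ Subgroup.centralizer ({J} : Set G) then
            (if v ∈ Subgroup.centralizer ({J} : Set G) then
              (if orderOf u = 2 ∧ orderOf v = 2 ∧ ¬ 2 ∣ orderOf (J * (u * v)) then (1 : ℂ)
                else 0) else 0) else 0 := by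
      intro u v
      by_cases h1 : orderOf u = 2 <;> by_cases h2 : orderOf v = 2 <;>
        by_cases h3 : u ∈ Subgroup.centralizer ({J} : Set G) <;>
        by_cases h4 : v ∈ Subgroup.centralizer ({J} : Set G) <;>
        by_cases h5 : 2 ∣ orderOf (J * (u * v)) <;> simp [h1, h2, h3, h4, h5]
    have h2 : ∀ u : G, ∑ v : G, (if orderOf u = 2 then (if orderOf v = 2 then
          (if (u ∈ Subgroup.centralizer ({J} : Set G) ∧
            v ∈ Subgroup.centralizer ({J} : Set G) ∧
            ¬ 2 ∣ orderOf (J * (u * v))) then (1 : ℂ) else 0) else 0) else 0)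
        = if u ∈ Subgroup.centralizer ({J} : Set G) then
            ∑ v : Subgroup.centralizer ({J} : Set G),
              (if orderOf u = 2 ∧ orderOf (v : G) = 2 ∧ ¬ 2 ∣ orderOf (J * (u * (v : G)))
                then (1 : ℂ) else 0) else 0 := by
      intro u
      rw [Finset.sum_congr rfl (fun v _ => h1 u v)]
      by_cases h3 : u ∈ Subgroup.centralizer ({J} : Set G)
      · simp only [if_pos h3]
        exact ko_sub (Subgroup.centralizer ({J} : Set G)) (fun v =>
          if orderOf u = 2 ∧ orderOf v = 2 ∧ ¬ 2 ∣ orderOf (J * (u * v)) then (1 : ℂ) else 0)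
      · simp only [if_neg h3]
        exact Finset.sum_const_zero
    rw [Finset.sum_congr rfl (fun u _ => h2 u)]
    have h3 := ko_sub (Subgroup.centralizer ({J} : Set G)) (fun u =>
      ∑ v : Subgroup.centralizer ({J} : Set G),
        (if orderOf u = 2 ∧ orderOf (v : G) = 2 ∧ ¬ 2 ∣ orderOf (J * (u * (v : G)))
          then (1 : ℂ) else 0))
    beta_reduce at h3
    rw [h3]
    refine Finset.sum_congr rfl fun u _ => ?_
    refine Finset.sum_congr rfl fun v _ => ?_
    have e1 : orderOf (u : G) = orderOf u := Subgroup.orderOf_coe u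
    have e2 : orderOf (v : G) = orderOf v := Subgroup.orderOf_coe v
    have e3 : orderOf (J * ((u : G) * (v : G))) = orderOf (Jh * (u * v)) := by
      rw [← Subgroup.orderOf_coe (Jh * (u * v)), Subgroup.coe_mul, Subgroup.coe_mul, hJh]
    rw [e1, e2, e3]
  rw [hB, hC, hD, ← hcard]
  have hpairs' := hpairs
  linear_combination (Nat.card (Subgroup.centralizer ({J} : Set G)) : ℂ) ^ 2 * hpairs'

end KleinOrder

end Cfsg.Agent.Helper6
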