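import Cfsg.Agent.Helper6.KleinOrder
import Cfsg.Agent.Helper6.KleinFour
import Cfsg.Agent.Helper25.SchurTrace

set_option autoImplicit false
set_option linter.unusedSectionVars false

/-!
# The order formula for a Klein four Sylow subgroup (helper6)
-/

namespace Cfsg.Agent.Helper6

open Cfsg
open scoped ComplexConjugate

section KleinOrder2

variable {G : Type*} [Group G] [Fintype G] {M : Ideal AlgInt}

/-- The order formula, in polynomial form. -/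
theorem ko_main [Fintype (IrrCharacter G)] (hpM : IsPModular 2 M) (P : Sylow 2 G)
    (hP4 : Nat.card P = 4) (hexp : ∀ x : P, x * x = 1)
    (hone : ∀ s t : G, orderOf s = 2 → orderOf t = 2 → IsConj s t)
    (J : G) (hJP : J ∈ (P : Subgroup G)) (hJ : orderOf J = 2)
    (χ₁ χ₂ χ₃ : IrrCharacter G) (ε₁ ε₂ ε₃ : ℤ)
    (hd1 : χ₁ ≠ Helper25.oneIrr G) (hd2 : χ₂ ≠ Helper25.oneIrr G)
    (hd3 : χ₃ ≠ Helper25.oneIrr G) (h12 : χ₁ ≠ χ₂) (h13 : χ₁ ≠ χ₃) (h23 : χ₂ ≠ χ₃)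
    (hB : ∀ φ : IrrCharacter G, φ ∈ principalBlock M G ↔
      φ = Helper25.oneIrr G ∨ φ = χ₁ ∨ φ = χ₂ ∨ φ = χ₃)
    (hε₁ : ε₁ = 1 ∨ ε₁ = -1) (hε₂ : ε₂ = 1 ∨ ε₂ = -1) (hε₃ : ε₃ = 1 ∨ ε₃ = -1)
    (hv₁ : (χ₁ : G → ℂ) J = ε₁) (hv₂ : (χ₂ : G → ℂ) J = ε₂) (hv₃ : (χ₃ : G → ℂ) J = ε₃) :
    (1 + (ε₁ : ℂ) * (χ₁ : G → ℂ) 1 + (ε₂ : ℂ) * (χ₂ : G → ℂ) 1
      + (ε₃ : ℂ) * (χ₃ : G → ℂ) 1 = 0) ∧
    (Nat.card (Subgroup.centralizer ((P : Subgroup G) : Set G)) : ℂ) ^ 2 * (Nat.card G : ℂ) *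
      ((χ₁ : G → ℂ) 1 * (χ₂ : G → ℂ) 1 * (χ₃ : G → ℂ) 1
        + ε₁ * ((χ₂ : G → ℂ) 1 * (χ₃ : G → ℂ) 1) + ε₂ * ((χ₁ : G → ℂ) 1 * (χ₃ : G → ℂ) 1)
        + ε₃ * ((χ₁ : G → ℂ) 1 * (χ₂ : G → ℂ) 1))
      = 8 * (Nat.card (Subgroup.centralizer ({J} : Set G)) : ℂ) ^ 3
        * ((χ₁ : G → ℂ) 1 * (χ₂ : G → ℂ) 1 * (χ₃ : G → ℂ) 1) := by
  classical
  haveI : Fact (Nat.Prime 2) := ⟨Nat.prime_two⟩
  have hM := hpM.2.1.isPrime
  haveI : Fintype (Subgroup.centralizer ({J} : Set G)) := Fintype.ofFinite _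
  have := Helper24.finite_irrCharacter (G := Subgroup.centralizer ({J} : Set G))
  haveI : Fintype (IrrCharacter (Subgroup.centralizer ({J} : Set G))) := Fintype.ofFinite _
  have hJ1 : J ≠ 1 := by
    intro h
    rw [h, orderOf_one] at hJ
    omega
  have hJJ : J * J = 1 := by
    have h := pow_orderOf_eq_one J
    rwa [hJ, pow_two] at h
  have hJpow : ∃ k : ℕ, orderOf J = 2 ^ k := ⟨1, by rw [hJ, pow_one]⟩
  have hB₀ : IsPBlock M (principalBlock M G) := ⟨Helper25.oneIrr G, rfl⟩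
  obtain ⟨J', -, hJ'2, ha, haC', hsec'⟩ := kf_setup P hP4 hexp hone
  have hsec : ∀ z : G, (∃ k : ℕ, orderOf z = 2 ^ k) → z ≠ 1 → IsConj z J :=
    fun z hz hz1 => (hsec' z hz hz1).trans (hone J' J hJ'2 hJ)
  have haC : (Nat.card (Subgroup.centralizer ({J} : Set G))).factorization 2 = 2 := by
    obtain ⟨g, hg⟩ := isConj_iff.1 (hone J' J hJ'2 hJ)
    have h := Helper18.KleinCount.kc_card_centralizer_conj g J'
    rw [hg] at h
    rw [h]
    exact haC'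
  have hJC : J ∈ Subgroup.centralizer ({J} : Set G) :=
    Subgroup.mem_centralizer_singleton_iff.2 rfl
  obtain ⟨Jc, hJc⟩ : ∃ Jc : Subgroup.centralizer ({J} : Set G), (Jc : G) = J :=
    ⟨⟨J, hJC⟩, rfl⟩
  have hJc2 : orderOf Jc = 2 := by
    rw [← Subgroup.orderOf_coe, hJc]
    exact hJ
  have hJcc : Jc ∈ Subgroup.center (Subgroup.centralizer ({J} : Set G)) := by
    rw [Subgroup.mem_center_iff]
    intro c
    apply Subtype.ext
    show (c : G) * (Jc : G) = (Jc : G) * (c : G)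
    rw [hJc]
    exact Subgroup.mem_centralizer_singleton_iff.1 c.2
  obtain ⟨⟨θ₁, θ₂, θ₃, hθ₁, hθ₂, hθ₃, hθ12, hθ13, hθ23, hbiff⟩, hθone, hCR⟩ :=
    d2_central hpM Jc hJc2 hJcc haC
  have hA : ∀ ψ : IrrCharacter (Subgroup.centralizer ({J} : Set G)),
      ψ ∈ principalBlock M (Subgroup.centralizer ({J} : Set G)) ↔
      IsInducedBlock M (Subgroup.centralizer ({J} : Set G))
        (blockOf M (ψ : Subgroup.centralizer ({J} : Set G) → ℂ)) (principalBlock M G) := by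
    intro ψ
    have hdef := Helper25.inducedBlockDefined_centralizer_elt hpM J hJpow
      (blockOf M (ψ : Subgroup.centralizer ({J} : Set G) → ℂ)) ⟨ψ, rfl⟩
    rw [Cfsg.Agent.S0936.result 2 M hpM (Subgroup.centralizer ({J} : Set G)) _ hdef]
    constructor
    · intro hψ
      exact (Helper25.blockOf_eq_of_mem hM hψ).symm
    · intro h
      rw [← h]
      exact Helper25.mem_blockOf_self hM.ne_top ψ
  -- principal block characters are constant on `J` times odd elements of the centralizer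
  have hshift : ∀ χ : IrrCharacter G, χ ∈ principalBlock M G →
      ∀ y : Subgroup.centralizer ({J} : Set G), ¬ 2 ∣ orderOf y →
      (χ : G → ℂ) (J * (y : G)) = (χ : G → ℂ) J := by
    intro χ hχ y hy
    have key : ∀ w : Subgroup.centralizer ({J} : Set G), ¬ 2 ∣ orderOf w →
        (χ : G → ℂ) (J * (w : G)) = (Nat.card (Subgroup.centralizer ({J} : Set G)) : ℂ)⁻¹
          * ∑ c : Subgroup.centralizer ({J} : Set G), (χ : G → ℂ) (J * (c : G))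
            * ∑ᶠ ψ ∈ principalBlock M (Subgroup.centralizer ({J} : Set G)),
                conj ((ψ : Subgroup.centralizer ({J} : Set G) → ℂ) c) := by
      intro w hw
      have h := Helper25.block_part_formula hpM J hJpow (χ : G → ℂ)
        (Helper2.IsIrrCharacter.isClassFunction χ.2) (principalBlock M G) hB₀
        (principalBlock M (Subgroup.centralizer ({J} : Set G))) hA w hw
      rw [Helper25.finsum_mem_eq_sum_ite, Finset.sum_eq_single χ] at h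
      · rw [if_pos hχ, Helper2.classInner_irr χ.2 χ.2, if_pos rfl, one_mul] at h
        rw [h]
        congr 1
        refine Finset.sum_congr rfl fun c _ => ?_
        congr 1
        refine finsum_mem_congr rfl fun ψ hψ => ?_
        rw [hθone ψ hψ w hw, one_mul]
      · intro χ' _ hne
        by_cases hχ' : χ' ∈ principalBlock M G
        · rw [if_pos hχ', Helper2.classInner_irr χ.2 χ'.2, if_neg, zero_mul]
          intro h'
          exact hne (Subtype.ext h').symm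
        · rw [if_neg hχ']
      · intro h'
        exact absurd (Finset.mem_univ _) h'
    have h1C : ¬ 2 ∣ orderOf (1 : Subgroup.centralizer ({J} : Set G)) := by
      rw [orderOf_one]
      norm_num
    have e1 := key y hy
    have e2 := key 1 h1C
    rw [Subgroup.coe_one, mul_one] at e2
    rw [e1, e2]
  have horth : ∀ y : G, ¬ 2 ∣ orderOf y →
      1 + (ε₁ : ℂ) * (χ₁ : G → ℂ) y + (ε₂ : ℂ) * (χ₂ : G → ℂ) y
        + (ε₃ : ℂ) * (χ₃ : G → ℂ) y = 0 := by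
    intro y hy
    have hPJ : IsPPart 2 J J :=
      ⟨1, mul_one J, Commute.one_right J, hJpow, by rw [orderOf_one]; norm_num⟩
    have hPy : IsPPart 2 y⁻¹ 1 :=
      ⟨y⁻¹, one_mul _, Commute.one_left _, ⟨0, by rw [orderOf_one, pow_zero]⟩,
        by rw [orderOf_inv]; exact hy⟩
    have hnc : ¬ IsConj J 1 := fun h => hJ1 (isConj_one_left.1 h)
    have h := (Cfsg.Agent.S0925.result 2 M hpM).2 J y⁻¹ J 1 hPJ hPy hnc (principalBlock M G) hB₀
    rw [inv_inv, Helper25.finsum_mem_eq_sum_ite, d2_sum4 _ (Helper25.oneIrr G) χ₁ χ₂ χ₃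
      hd1.symm hd2.symm hd3.symm h12 h13 h23 hB] at h
    rw [hv₁, hv₂, hv₃, Helper25.oneIrr_apply, Helper25.oneIrr_apply] at h
    linear_combination h
  have hε₁sq : (ε₁ : ℂ) * ε₁ = 1 := by
    rcases hε₁ with h | h <;> rw [h] <;> norm_num
  have hε₂sq : (ε₂ : ℂ) * ε₂ = 1 := by
    rcases hε₂ with h | h <;> rw [h] <;> norm_num
  have hε₃sq : (ε₃ : ℂ) * ε₃ = 1 := by
    rcases hε₃ with h | h <;> rw [h] <;> norm_num
  obtain ⟨Θ, hΘdef⟩ : ∃ Θ : G → ℂ, Θ = fun g => 1 + (ε₁ : ℂ) * (χ₁ : G → ℂ) g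
      + (ε₂ : ℂ) * (χ₂ : G → ℂ) g + (ε₃ : ℂ) * (χ₃ : G → ℂ) g := ⟨_, rfl⟩
  have hΘ : ∀ g, Θ g = 1 + (ε₁ : ℂ) * (χ₁ : G → ℂ) g
      + (ε₂ : ℂ) * (χ₂ : G → ℂ) g + (ε₃ : ℂ) * (χ₃ : G → ℂ) g := fun g => by rw [hΘdef]
  have hΘcl : IsClassFunction G Θ := by
    intro g h
    rw [hΘ, hΘ, Helper2.IsIrrCharacter.isClassFunction χ₁.2 g h,
      Helper2.IsIrrCharacter.isClassFunction χ₂.2 g h,
      Helper2.IsIrrCharacter.isClassFunction χ₃.2 g h]
  have hΘJ : ∀ y : Subgroup.centralizer ({J} : Set G), ¬ 2 ∣ orderOf y →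
      Θ (J * (y : G)) = 4 := by
    intro y hy
    rw [hΘ, hshift χ₁ ((hB χ₁).2 (Or.inr (Or.inl rfl))) y hy,
      hshift χ₂ ((hB χ₂).2 (Or.inr (Or.inr (Or.inl rfl)))) y hy,
      hshift χ₃ ((hB χ₃).2 (Or.inr (Or.inr (Or.inr rfl)))) y hy, hv₁, hv₂, hv₃]
    linear_combination hε₁sq + hε₂sq + hε₃sq
  obtain ⟨m, hmdef⟩ : ∃ m : G → ℂ, m = fun g => ∑ a : G, ∑ b : G,
      (if a * J * a⁻¹ * (b * J * b⁻¹) = g then (1 : ℂ) else 0) := ⟨_, rfl⟩
  have hm : ∀ g, m g = ∑ a : G, ∑ b : G,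
      (if a * J * a⁻¹ * (b * J * b⁻¹) = g then (1 : ℂ) else 0) := fun g => by rw [hmdef]
  have hmcl : ∀ g h : G, m (h * g * h⁻¹) = m g := by
    intro g h
    rw [hm, hm, ← Equiv.sum_comp (Equiv.mulLeft h)]
    refine Finset.sum_congr rfl fun a _ => ?_
    rw [← Equiv.sum_comp (Equiv.mulLeft h)]
    refine Finset.sum_congr rfl fun b _ => ?_
    have hiff : (h * a * J * (h * a)⁻¹ * (h * b * J * (h * b)⁻¹) = h * g * h⁻¹) ↔
        (a * J * a⁻¹ * (b * J * b⁻¹) = g) := by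
      have e : h * a * J * (h * a)⁻¹ * (h * b * J * (h * b)⁻¹)
          = h * (a * J * a⁻¹ * (b * J * b⁻¹)) * h⁻¹ := by group
      rw [e]
      constructor
      · intro h'
        exact mul_left_cancel (mul_right_cancel h')
      · intro h'
        rw [h']
    exact if_congr hiff rfl rfl
  obtain ⟨F, hFdef⟩ : ∃ F : G → ℂ, F = fun g => Θ g * m g := ⟨_, rfl⟩
  have hF : ∀ g, F g = Θ g * m g := fun g => by rw [hFdef]
  have hFcl : IsClassFunction G F := by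
    intro g h
    rw [hF, hF, hΘcl g h, hmcl g h]
  have hvan : ∀ g z : G, IsPPart 2 g z → z ≠ 1 → ¬ IsConj z J → F g = 0 := by
    intro g z hgz hz1 hzc
    obtain ⟨y, -, -, hzp, -⟩ := hgz
    exact absurd (hsec z hzp hz1) hzc
  have hsect := d1_section (p := 2) F hFcl J hJpow hJ1 hvan
  have hL1 : ∑ g : G, F g = ∑ a : G, ∑ b : G, Θ (a * J * a⁻¹ * (b * J * b⁻¹)) := by
    have h1 : ∀ g : G, F g = ∑ a : G, ∑ b : G,
        (if a * J * a⁻¹ * (b * J * b⁻¹) = g then Θ g else 0) := by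
      intro g
      rw [hF, hm, Finset.mul_sum]
      refine Finset.sum_congr rfl fun a _ => ?_
      rw [Finset.mul_sum]
      refine Finset.sum_congr rfl fun b _ => ?_
      rw [mul_ite, mul_one, mul_zero]
    rw [Finset.sum_congr rfl (fun g _ => h1 g), Finset.sum_comm]
    refine Finset.sum_congr rfl fun a _ => ?_
    rw [Finset.sum_comm]
    refine Finset.sum_congr rfl fun b _ => ?_
    rw [Finset.sum_ite_eq, if_pos (Finset.mem_univ _)]
  have hclJ : ∀ (χ : IrrCharacter G) (b : G), (χ : G → ℂ) (b * J * b⁻¹) = (χ : G → ℂ) J :=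
    fun χ b => Helper2.IsIrrCharacter.isClassFunction χ.2 J b
  have hS : ∀ χ : IrrCharacter G, (χ : G → ℂ) 1 * ∑ a : G, ∑ b : G,
      (χ : G → ℂ) (a * J * a⁻¹ * (b * J * b⁻¹))
      = (Nat.card G : ℂ) ^ 2 * ((χ : G → ℂ) J * (χ : G → ℂ) J) := by
    intro χ
    rw [Finset.sum_comm, Finset.mul_sum]
    have h1 : ∀ b : G, (χ : G → ℂ) 1 * ∑ a : G, (χ : G → ℂ) (a * J * a⁻¹ * (b * J * b⁻¹))
        = (Nat.card G : ℂ) * ((χ : G → ℂ) J * (χ : G → ℂ) J) := by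
      intro b
      rw [Helper25.irr_sum_conj_mul χ.2 J (b * J * b⁻¹), hclJ χ b, mul_assoc]
    rw [Finset.sum_congr rfl (fun b _ => h1 b), Finset.sum_const, Finset.card_univ,
      nsmul_eq_mul, ← Nat.card_eq_fintype_card]
    ring
  obtain ⟨S₁, hS₁⟩ : ∃ S, S = ∑ a : G, ∑ b : G,
      (χ₁ : G → ℂ) (a * J * a⁻¹ * (b * J * b⁻¹)) := ⟨_, rfl⟩
  obtain ⟨S₂, hS₂⟩ : ∃ S, S = ∑ a : G, ∑ b : G,
      (χ₂ : G → ℂ) (a * J * a⁻¹ * (b * J * b⁻¹)) := ⟨_, rfl⟩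
  obtain ⟨S₃, hS₃⟩ : ∃ S, S = ∑ a : G, ∑ b : G,
      (χ₃ : G → ℂ) (a * J * a⁻¹ * (b * J * b⁻¹)) := ⟨_, rfl⟩
  have hL2 : ∑ a : G, ∑ b : G, Θ (a * J * a⁻¹ * (b * J * b⁻¹))
      = (Nat.card G : ℂ) ^ 2 + ε₁ * S₁ + ε₂ * S₂ + ε₃ * S₃ := by
    rw [Finset.sum_congr rfl (fun a _ => Finset.sum_congr rfl (fun b _ => hΘ _))]
    simp only [Finset.sum_add_distrib, ← Finset.mul_sum]
    rw [← hS₁, ← hS₂, ← hS₃]
    simp only [Finset.sum_const, Finset.card_univ, nsmul_eq_mul, mul_one]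
    rw [← Nat.card_eq_fintype_card]
    ring
  have hreg0 : ∑ g : G, (if 2 ∣ orderOf g then 0 else F g) = 0 := by
    apply Finset.sum_eq_zero
    intro g _
    by_cases hg : 2 ∣ orderOf g
    · rw [if_pos hg]
    · rw [if_neg hg, hF, hΘ, horth g hg, zero_mul]
  have hsec2 : ∑ y : Subgroup.centralizer ({J} : Set G),
      (if 2 ∣ orderOf y then 0 else F (J * (y : G)))
      = 4 * ∑ y : Subgroup.centralizer ({J} : Set G), (if 2 ∣ orderOf y then (0 : ℂ) else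
        ∑ a : G, ∑ b : G, (if a * J * a⁻¹ * (b * J * b⁻¹) = J * (y : G) then (1 : ℂ) else 0)) := by
    rw [Finset.mul_sum]
    refine Finset.sum_congr rfl fun y _ => ?_
    by_cases hy : 2 ∣ orderOf y
    · rw [if_pos hy, if_pos hy, mul_zero]
    · rw [if_neg hy, if_neg hy, hF, hΘJ y hy, hm]
  have hcount := ko_count P hP4 hexp hone J hJP hJ haC
  have hidx : ((Subgroup.centralizer ({J} : Set G)).index : ℂ)
      * (Nat.card (Subgroup.centralizer ({J} : Set G)) : ℂ) = (Nat.card G : ℂ) := by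
    rw [← Nat.cast_mul, Subgroup.index_mul_card]
  have hx₁ := hS χ₁
  have hx₂ := hS χ₂
  have hx₃ := hS χ₃
  rw [← hS₁, hv₁, hε₁sq, mul_one] at hx₁
  rw [← hS₂, hv₂, hε₂sq, mul_one] at hx₂
  rw [← hS₃, hv₃, hε₃sq, mul_one] at hx₃
  rw [hL1, hL2, hreg0, hsec2, zero_add] at hsect
  have hG0 : (Nat.card G : ℂ) ≠ 0 := Nat.cast_ne_zero.2 Nat.card_pos.ne'
  have h1odd : ¬ 2 ∣ orderOf (1 : G) := by
    rw [orderOf_one]
    norm_num
  refine ⟨horth 1 h1odd, ?_⟩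
  apply mul_left_cancel₀ hG0
  linear_combination
    (Nat.card (Subgroup.centralizer ((P : Subgroup G) : Set G)) : ℂ) ^ 2
        * ((χ₁ : G → ℂ) 1 * (χ₂ : G → ℂ) 1 * (χ₃ : G → ℂ) 1) * hsect
      - (Nat.card (Subgroup.centralizer ((P : Subgroup G) : Set G)) : ℂ) ^ 2 * ε₁
        * ((χ₂ : G → ℂ) 1 * (χ₃ : G → ℂ) 1) * hx₁
      - (Nat.card (Subgroup.centralizer ((P : Subgroup G) : Set G)) : ℂ) ^ 2 * ε₂
        * ((χ₁ : G → ℂ) 1 * (χ₃ : G → ℂ) 1) * hx₂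
      - (Nat.card (Subgroup.centralizer ((P : Subgroup G) : Set G)) : ℂ) ^ 2 * ε₃
        * ((χ₁ : G → ℂ) 1 * (χ₂ : G → ℂ) 1) * hx₃
      + 4 * ((χ₁ : G → ℂ) 1 * (χ₂ : G → ℂ) 1 * (χ₃ : G → ℂ) 1)
        * ((Subgroup.centralizer ({J} : Set G)).index : ℂ) * hcount
      + 8 * ((χ₁ : G → ℂ) 1 * (χ₂ : G → ℂ) 1 * (χ₃ : G → ℂ) 1)
        * (Nat.card (Subgroup.centralizer ({J} : Set G)) : ℂ) ^ 3 * hidx

end KleinOrder2

end Cfsg.Agent.Helper6
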