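import Cfsg.Agent.Helper6.KleinOrder2
import Cfsg.Agent.Helper24.PermReal
import Cfsg.Agent.Helper25.BlockReal

set_option autoImplicit false
set_option linter.unusedSectionVars false

/-!
# Klein four Sylow subgroups: the case of sign product `-1` (helper6)
-/

namespace Cfsg.Agent.Helper6

open Cfsg
open scoped ComplexConjugate

section KleinOrder3

/-- The basic structure forced by order `4 * odd` and the absence of a normal `2`-complement. -/
theorem ko_setup {G : Type*} [Group G] [Finite G] (g₀ : ℕ) (hg₀ : Odd g₀)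
    (hG : Nat.card G = 4 * g₀) (hnc : ¬ ∃ N : Subgroup G, N.Normal ∧ Nat.card N = g₀)
    (P : Sylow 2 G) :
    Nat.card P = 4 ∧ (∀ x : P, x * x = 1) ∧
      (∀ s t : G, orderOf s = 2 → orderOf t = 2 → IsConj s t) := by
  classical
  haveI : Fact (Nat.Prime 2) := ⟨Nat.prime_two⟩
  haveI : Fintype G := Fintype.ofFinite G
  have hg0ne : g₀ ≠ 0 := by
    rintro rfl
    exact (Nat.not_odd_iff_even.2 (by decide : Even 0)) hg₀
  have h2g : ¬ 2 ∣ g₀ := fun h => (Nat.not_even_iff_odd.2 hg₀) (even_iff_two_dvd.2 h)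
  have hfac : (Nat.card G).factorization 2 = 2 := by
    have h4 : (4 : ℕ) = 2 ^ 2 := by norm_num
    rw [hG, h4, Nat.factorization_mul (by norm_num) hg0ne, Finsupp.add_apply,
      Nat.Prime.factorization_pow Nat.prime_two, Finsupp.single_eq_same,
      Nat.factorization_eq_zero_of_not_dvd h2g]
  have hP4 : Nat.card P = 4 := by
    rw [Sylow.card_eq_multiplicity P, hfac]
    norm_num
  have hidxP : (P : Subgroup G).index = g₀ := by
    have h := (P : Subgroup G).card_mul_index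
    have hP4' : Nat.card (P : Subgroup G) = 4 := hP4
    rw [hP4', hG] at h
    omega
  have hnoc : ¬ ∃ N : Subgroup G, N.Normal ∧ N.IsComplement' (P : Subgroup G) := by
    rintro ⟨N, hN, hc⟩
    apply hnc
    refine ⟨N, hN, ?_⟩
    rw [← hidxP]
    exact hc.index_eq_card.symm
  have hncyc : ¬ IsCyclic P := by
    intro hcyc
    obtain ⟨K, hKn, -, hKc, -⟩ := TwoCompl.exists_odd_complement P hcyc
    exact hnoc ⟨K, hKn, hKc⟩
  have hexp : ∀ x : P, x * x = 1 := by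
    intro x
    have h1 : orderOf x ∣ 2 ^ 2 := (orderOf_dvd_natCard x).trans (dvd_of_eq hP4)
    obtain ⟨k, hk, hk'⟩ := (Nat.dvd_prime_pow Nat.prime_two).1 h1
    have hk1 : k ≤ 1 := by
      by_contra hlt
      have hk2 : k = 2 := by omega
      apply hncyc
      apply isCyclic_of_orderOf_eq_card x
      have h24 : 2 ^ k = 4 := by
        rw [hk2]
        norm_num
      exact (hk'.trans h24).trans hP4.symm
    have h2 : orderOf x ∣ 2 := by
      rw [hk']
      exact pow_dvd_pow 2 hk1 |>.trans (by norm_num)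
    rw [← pow_two]
    exact orderOf_dvd_iff_pow_eq_one.1 h2
  haveI hVP : IsKleinFour (P : Subgroup G) :=
    Helper18.KleinCount.kc_isKleinFour _ hP4 (fun x hx => congrArg Subtype.val (hexp ⟨x, hx⟩))
  have hPconj : ∀ a b : G, a ∈ (P : Subgroup G) → b ∈ (P : Subgroup G) → a ≠ 1 → b ≠ 1 →
      IsConj a b := by
    rw [Cfsg.Agent.S0071.result P] at hnoc
    push Not at hnoc
    obtain ⟨Q, hQP, g, hg, hcop, hgc⟩ := hnoc
    rw [Subgroup.mem_centralizer_iff] at hgc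
    push Not at hgc
    obtain ⟨q, hq, hqg⟩ := hgc
    have hr : g * q * g⁻¹ ∈ Q := (Subgroup.mem_set_normalizer_iff.1 hg q).1 hq
    have hne : q ≠ g * q * g⁻¹ := by
      intro h
      apply hqg
      calc q * g = g * q * g⁻¹ * g := by rw [← h]
        _ = g * q := by group
    have hq1 : q ≠ 1 := by
      rintro rfl
      exact hqg (by rw [one_mul, mul_one])
    have hr1 : g * q * g⁻¹ ≠ 1 := by
      intro h
      apply hq1
      have h2 : q = g⁻¹ * (g * q * g⁻¹) * g := by group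
      rw [h2, h]
      group
    intro a b ha hb ha1 hb1
    exact Helper2.klein_all_conj P q (g * q * g⁻¹) (hQP hq) (hQP hr) hq1 hr1 hne
      (isConj_iff.2 ⟨g, rfl⟩) a b ha hb ha1 hb1
  have hone : ∀ s t : G, orderOf s = 2 → orderOf t = 2 → IsConj s t := by
    intro s t hs ht
    obtain ⟨g, hg⟩ := Helper2.exists_conj_mem_sylow P s hs
    obtain ⟨h, hh⟩ := Helper2.exists_conj_mem_sylow P t ht
    have hs1 : g * s * g⁻¹ ≠ 1 := by
      intro h1
      have h2 : s = g⁻¹ * (g * s * g⁻¹) * g := by group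
      rw [h2, h1] at hs
      simp at hs
    have ht1 : h * t * h⁻¹ ≠ 1 := by
      intro h1
      have h2 : t = h⁻¹ * (h * t * h⁻¹) * h := by group
      rw [h2, h1] at ht
      simp at ht
    have h3 := hPconj _ _ hg hh hs1 ht1
    exact ((isConj_iff.2 ⟨g, rfl⟩).trans h3).trans (isConj_iff.2 ⟨h, rfl⟩).symm
  exact ⟨hP4, hexp, hone⟩

variable {G : Type*} [Group G] [Fintype G] {M : Ideal AlgInt}

/-- The signed sum of the principal block characters vanishes on elements of odd order. -/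
theorem ko_orth [Fintype (IrrCharacter G)] (hpM : IsPModular 2 M)
    (J : G) (hJ : orderOf J = 2)
    (χ₁ χ₂ χ₃ : IrrCharacter G) (ε₁ ε₂ ε₃ : ℤ)
    (hd1 : χ₁ ≠ Helper25.oneIrr G) (hd2 : χ₂ ≠ Helper25.oneIrr G)
    (hd3 : χ₃ ≠ Helper25.oneIrr G) (h12 : χ₁ ≠ χ₂) (h13 : χ₁ ≠ χ₃) (h23 : χ₂ ≠ χ₃)
    (hB : ∀ φ : IrrCharacter G, φ ∈ principalBlock M G ↔
      φ = Helper25.oneIrr G ∨ φ = χ₁ ∨ φ = χ₂ ∨ φ = χ₃)
    (hv₁ : (χ₁ : G → ℂ) J = ε₁) (hv₂ : (χ₂ : G → ℂ) J = ε₂) (hv₃ : (χ₃ : G → ℂ) J = ε₃)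
    (y : G) (hy : ¬ 2 ∣ orderOf y) :
    1 + (ε₁ : ℂ) * (χ₁ : G → ℂ) y + (ε₂ : ℂ) * (χ₂ : G → ℂ) y
      + (ε₃ : ℂ) * (χ₃ : G → ℂ) y = 0 := by
  classical
  haveI : Fact (Nat.Prime 2) := ⟨Nat.prime_two⟩
  have hJ1 : J ≠ 1 := by
    intro h
    rw [h, orderOf_one] at hJ
    omega
  have hJpow : ∃ k : ℕ, orderOf J = 2 ^ k := ⟨1, by rw [hJ, pow_one]⟩
  have hB₀ : IsPBlock M (principalBlock M G) := ⟨Helper25.oneIrr G, rfl⟩
  have hPJ : IsPPart 2 J J :=
    ⟨1, mul_one J, Commute.one_right J, hJpow, by rw [orderOf_one]; norm_num⟩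
  have hPy : IsPPart 2 y⁻¹ 1 :=
    ⟨y⁻¹, one_mul _, Commute.one_left _, ⟨0, by rw [orderOf_one, pow_zero]⟩,
      by rw [orderOf_inv]; exact hy⟩
  have hnc : ¬ IsConj J 1 := fun h => hJ1 (isConj_one_left.1 h)
  have h := (Cfsg.Agent.S0925.result 2 M hpM).2 J y⁻¹ J 1 hPJ hPy hnc (principalBlock M G) hB₀
  rw [inv_inv, Helper25.finsum_mem_eq_sum_ite, d2_sum4 _ (Helper25.oneIrr G) χ₁ χ₂ χ₃
    hd1.symm hd2.symm hd3.symm h12 h13 h23 hB] at h
  rw [hv₁, hv₂, hv₃, Helper25.oneIrr_apply, Helper25.oneIrr_apply] at h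
  linear_combination h

/-- With an elementary abelian Sylow `2`-subgroup, squares have odd order. -/
theorem ko_sq_odd (P : Sylow 2 G) (hexp : ∀ x : P, x * x = 1) (s : G) :
    ¬ 2 ∣ orderOf (s * s) := by
  classical
  haveI : Fact (Nat.Prime 2) := ⟨Nat.prime_two⟩
  intro h2
  have ho : orderOf s ≠ 0 := (orderOf_pos s).ne'
  have h4 : 4 ∣ orderOf s := by
    rw [← pow_two, orderOf_pow' s (by norm_num : (2 : ℕ) ≠ 0)] at h2
    obtain ⟨c, hc⟩ := h2
    have hg : Nat.gcd (orderOf s) 2 ∣ orderOf s := Nat.gcd_dvd_left _ _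
    have hg2 : Nat.gcd (orderOf s) 2 = 1 ∨ Nat.gcd (orderOf s) 2 = 2 := by
      have := Nat.gcd_dvd_right (orderOf s) 2
      rcases (Nat.dvd_prime Nat.prime_two).1 this with h | h
      · exact Or.inl h
      · exact Or.inr h
    have hmul := Nat.div_mul_cancel hg
    rcases hg2 with h | h
    · have h5 : Nat.gcd (orderOf s) 2 = 2 := by
        apply Nat.gcd_eq_right
        rw [h, Nat.div_one] at hc
        exact ⟨c, hc⟩
      omega
    · rw [h] at hmul
      rw [h] at hc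
      exact ⟨c, by omega⟩
  obtain ⟨y, hy⟩ : ∃ y : G, y = s ^ (orderOf s / 4) := ⟨_, rfl⟩
  have hy4 : orderOf y = 4 := by
    rw [hy]
    exact orderOf_pow_orderOf_div ho h4
  have hzp : IsPGroup 2 (Subgroup.zpowers y) := by
    apply IsPGroup.of_card (n := 2)
    rw [Nat.card_zpowers, hy4]
    norm_num
  obtain ⟨Q, hQ⟩ := hzp.exists_le_sylow
  obtain ⟨g, hg⟩ := MulAction.exists_smul_eq G P Q
  have h1 : y ∈ Q := hQ (Subgroup.mem_zpowers y)
  rw [← hg, Helper2.mem_sylow_smul_iff] at h1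
  have h3 := congrArg Subtype.val (hexp ⟨_, h1⟩)
  have h5 : y * y = 1 := by
    have h6 : g⁻¹ * y * g * (g⁻¹ * y * g) = 1 := h3
    have h8 : y * y = g * (g⁻¹ * y * g * (g⁻¹ * y * g)) * g⁻¹ := by group
    rw [h8, h6]
    group
  have h9 : orderOf y ∣ 2 := by
    rw [orderOf_dvd_iff_pow_eq_one, pow_two]
    exact h5
  rw [hy4] at h9
  omega

/-- An irreducible character with Frobenius–Schur indicator `-1` has even degree. -/
theorem ko_fs_even (χ : IrrCharacter G)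
    (hν : (Nat.card G : ℂ)⁻¹ * ∑ g : G, (χ : G → ℂ) (g * g) = -1) :
    Even (charDegree (χ : G → ℂ)) := by
  classical
  obtain ⟨n, ρ, hirr, hχ⟩ := χ.2
  have hdeg := Helper25.irr_one_eq_degree χ
  rw [← hχ] at hν hdeg ⊢
  have h := Helper24.invariants_even_of_fs_neg ρ hirr hν ⊥
    (ρ.comp (⊥ : Subgroup G).subtype) rfl
  have htop : Representation.invariants (ρ.comp (⊥ : Subgroup G).subtype) = ⊤ := by
    rw [eq_top_iff]
    intro v _
    rw [Representation.mem_invariants]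
    intro g
    have hg : (g : G) = 1 := Subgroup.mem_bot.1 g.2
    show ρ (g : G) v = v
    rw [hg, map_one, Module.End.one_apply]
  rw [htop, finrank_top, Module.finrank_fin_fun] at h
  have h1 : ρ.character 1 = (n : ℂ) := by
    rw [Representation.char_one]
    simp
  rw [h1] at hdeg
  have h2 : n = charDegree ρ.character := by exact_mod_cast hdeg
  rw [← h2]
  exact h

/-- The principal block is closed under complex conjugation. -/
theorem ko_bar_mem (χ : IrrCharacter G) (hχ : χ ∈ principalBlock M G) :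
    Helper25.barIrr χ ∈ principalBlock M G := by
  have h : SameBlock M ((Helper25.oneIrr G : IrrCharacter G) : G → ℂ) (χ : G → ℂ) := hχ
  have h2 := Helper25.sameBlock_barIrr h
  have e : (Helper25.barIrr (Helper25.oneIrr G) : G → ℂ) = fun _ => 1 := by
    funext g
    show conj ((Helper25.oneIrr G : G → ℂ) g) = 1
    rw [Helper25.oneIrr_apply, map_one]
  rw [e] at h2
  exact h2

/-- The degree divides the class size when the character value is `-1`. -/
theorem ko_dvd (χ : IrrCharacter G) (J : G) (hv : (χ : G → ℂ) J = -1)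
    (hx : charDegree (χ : G → ℂ) ≠ 0) :
    charDegree (χ : G → ℂ) ∣ (Subgroup.centralizer ({J} : Set G)).index := by
  have h := Helper25.centralChar_isIntegral χ J
  unfold centralChar at h
  rw [hv, Helper25.irr_one_eq_degree χ] at h
  have hx' : (charDegree (χ : G → ℂ) : ℚ) ≠ 0 := Nat.cast_ne_zero.2 hx
  have e : ((Subgroup.centralizer ({J} : Set G)).index : ℂ) * -1
        / (charDegree (χ : G → ℂ) : ℂ)
      = ((-((Subgroup.centralizer ({J} : Set G)).index : ℚ)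
          / (charDegree (χ : G → ℂ) : ℚ) : ℚ) : ℂ) := by
    push_cast
    ring
  rw [e] at h
  obtain ⟨z, hz⟩ := Helper2.int_of_isIntegral_rat h
  have h1 : ((Subgroup.centralizer ({J} : Set G)).index : ℚ)
      = -(z : ℚ) * (charDegree (χ : G → ℂ) : ℚ) := by
    rw [div_eq_iff hx'] at hz
    linear_combination -hz
  have h2 : ((Subgroup.centralizer ({J} : Set G)).index : ℤ)
      = -z * (charDegree (χ : G → ℂ) : ℤ) := by exact_mod_cast h1
  exact Int.natCast_dvd_natCast.1 ⟨-z, by rw [h2]; ring⟩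

/-- The arithmetic behind the order formula in the case of sign product `-1`. -/
theorem ko_arith (N cJ cP t a k : ℕ) (hcJ : 0 < cJ) (hcP : cP ∣ cJ) (hN : cJ * t = N)
    (ha : a = 4 * k + 1) (hqt : (2 * a + 1) ∣ t)
    (hform : cP ^ 2 * N * (2 * a * (a + 1) ^ 2) = 8 * cJ ^ 3 * (a * a * (2 * a + 1))) :
    ∃ m : ℕ, 4 * cJ = m * cP * ((2 * a + 1) + 1) ∧
      8 * N = m ^ 3 * cP * ((2 * a + 1) ^ 3 - (2 * a + 1)) := by
  subst ha
  obtain ⟨n, rfl⟩ := hcP
  obtain ⟨s, rfl⟩ := hqt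
  subst hN
  have hcP0 : 0 < cP := Nat.pos_of_ne_zero (by
    rintro rfl
    simp at hcJ)
  have hn0 : 0 < n := Nat.pos_of_ne_zero (by
    rintro rfl
    simp at hcJ)
  have e1 : cP ^ 2 * (cP * n * ((2 * (4 * k + 1) + 1) * s))
        * (2 * (4 * k + 1) * ((4 * k + 1) + 1) ^ 2)
      = (8 * cP ^ 3 * n * (4 * k + 1) * (8 * k + 3)) * (s * (2 * k + 1) ^ 2) := by ring
  have e2 : 8 * (cP * n) ^ 3 * ((4 * k + 1) * (4 * k + 1) * (2 * (4 * k + 1) + 1))
      = (8 * cP ^ 3 * n * (4 * k + 1) * (8 * k + 3)) * (n ^ 2 * (4 * k + 1)) := by ring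
  have hpos : 0 < 8 * cP ^ 3 * n * (4 * k + 1) * (8 * k + 3) := by positivity
  have key : s * (2 * k + 1) ^ 2 = n ^ 2 * (4 * k + 1) :=
    Nat.eq_of_mul_eq_mul_left hpos (e1.symm.trans (hform.trans e2))
  have hcop : Nat.Coprime (2 * k + 1) (4 * k + 1) := by
    have hd1 : Nat.gcd (2 * k + 1) (4 * k + 1) ∣ 4 * k + 1 := Nat.gcd_dvd_right _ _
    have hd2 : Nat.gcd (2 * k + 1) (4 * k + 1) ∣ (4 * k + 1) + 1 := by
      have h3 : (4 * k + 1) + 1 = 2 * (2 * k + 1) := by ring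
      rw [h3]
      exact dvd_mul_of_dvd_right (Nat.gcd_dvd_left _ _) 2
    exact Nat.dvd_one.1 ((Nat.dvd_add_right hd1).1 hd2)
  have hdvd2 : (2 * k + 1) ^ 2 ∣ n ^ 2 := by
    apply Nat.Coprime.dvd_of_dvd_mul_right (Nat.Coprime.pow_left 2 hcop)
    rw [← key]
    exact dvd_mul_left _ _
  have hdvd : (2 * k + 1) ∣ n := (Nat.pow_dvd_pow_iff (by norm_num)).1 hdvd2
  obtain ⟨m, rfl⟩ := hdvd
  have hs : s = m ^ 2 * (4 * k + 1) := by
    have h3 : (2 * k + 1) ^ 2 * s = (2 * k + 1) ^ 2 * (m ^ 2 * (4 * k + 1)) := by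
      rw [mul_comm _ s, key]
      ring
    exact Nat.eq_of_mul_eq_mul_left (by positivity) h3
  refine ⟨m, by ring, ?_⟩
  have e : (2 * (4 * k + 1) + 1) ^ 3 - (2 * (4 * k + 1) + 1)
      = 8 * (4 * k + 1) * (2 * k + 1) * (8 * k + 3) := by
    apply Nat.sub_eq_of_eq_add
    ring
  rw [e, hs]
  ring

/-- In the case of signs `(1, 1, -1)` the first two characters have the same degree. -/
theorem ko_deg_eq [Fintype (IrrCharacter G)] (hpM : IsPModular 2 M) (P : Sylow 2 G)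
    (hexp : ∀ x : P, x * x = 1) (J : G) (hJ : orderOf J = 2)
    (χ₁ χ₂ χ₃ : IrrCharacter G)
    (hd1 : χ₁ ≠ Helper25.oneIrr G) (hd2 : χ₂ ≠ Helper25.oneIrr G)
    (hd3 : χ₃ ≠ Helper25.oneIrr G) (h12 : χ₁ ≠ χ₂) (h13 : χ₁ ≠ χ₃) (h23 : χ₂ ≠ χ₃)
    (hB : ∀ φ : IrrCharacter G, φ ∈ principalBlock M G ↔
      φ = Helper25.oneIrr G ∨ φ = χ₁ ∨ φ = χ₂ ∨ φ = χ₃)
    (hv₁ : (χ₁ : G → ℂ) J = 1) (hv₂ : (χ₂ : G → ℂ) J = 1) (hv₃ : (χ₃ : G → ℂ) J = -1)
    (ho1 : Odd (charDegree (χ₁ : G → ℂ))) (ho2 : Odd (charDegree (χ₂ : G → ℂ)))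
    (ho3 : Odd (charDegree (χ₃ : G → ℂ))) :
    charDegree (χ₁ : G → ℂ) = charDegree (χ₂ : G → ℂ) := by
  classical
  have hb1 := (hB _).1 (ko_bar_mem χ₁ ((hB χ₁).2 (Or.inr (Or.inl rfl))))
  have hb2 := (hB _).1 (ko_bar_mem χ₂ ((hB χ₂).2 (Or.inr (Or.inr (Or.inl rfl)))))
  have hb3 := (hB _).1 (ko_bar_mem χ₃ ((hB χ₃).2 (Or.inr (Or.inr (Or.inr rfl)))))
  have hbar : ∀ (χ : IrrCharacter G) (g : G),
      (Helper25.barIrr χ : G → ℂ) g = conj ((χ : G → ℂ) g) := fun _ _ => rfl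
  have hbone : ∀ χ : IrrCharacter G, χ ≠ Helper25.oneIrr G →
      Helper25.barIrr χ ≠ Helper25.oneIrr G := by
    intro χ hχ h
    apply hχ
    apply Subtype.ext
    funext g
    have h1 := congrFun (congrArg Subtype.val h) g
    have h2 : conj ((χ : G → ℂ) g) = 1 := by
      rw [← hbar]
      exact h1.trans (Helper25.oneIrr_apply G g)
    have h3 := congrArg conj h2
    rw [Complex.conj_conj, map_one] at h3
    exact h3.trans (Helper25.oneIrr_apply G g).symm
  have hdegbar : ∀ χ ψ : IrrCharacter G, Helper25.barIrr χ = ψ →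
      charDegree (χ : G → ℂ) = charDegree (ψ : G → ℂ) := by
    intro χ ψ h
    have h1 : (ψ : G → ℂ) 1 = conj ((χ : G → ℂ) 1) := by
      rw [← h]
      rfl
    rw [Helper25.irr_one_eq_degree χ, Helper25.irr_one_eq_degree ψ, Complex.conj_natCast] at h1
    exact_mod_cast h1.symm
  have hJbar : ∀ χ ψ : IrrCharacter G, Helper25.barIrr χ = ψ →
      (ψ : G → ℂ) J = conj ((χ : G → ℂ) J) := by
    intro χ ψ h
    rw [← h]
    rfl
  have hreal : ∀ χ : IrrCharacter G, Helper25.barIrr χ = χ →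
      ∀ s, ((χ : G → ℂ) s).im = 0 := by
    intro χ h s
    have h1 : conj ((χ : G → ℂ) s) = (χ : G → ℂ) s := by
      rw [← hbar, h]
    exact Complex.conj_eq_iff_im.1 h1
  have hfs : ∀ χ : IrrCharacter G, Helper25.barIrr χ = χ → Odd (charDegree (χ : G → ℂ)) →
      (Nat.card G : ℂ)⁻¹ * ∑ s : G, (χ : G → ℂ) (s * s) = 1 := by
    intro χ h hodd
    rcases (Helper25.fs_indicator χ.2).1 (hreal χ h) with h1 | h1
    · exact h1
    · exact absurd (ko_fs_even χ h1) (Nat.not_even_iff_odd.2 hodd)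
  by_contra hne
  have e1 : Helper25.barIrr χ₁ = χ₁ := by
    rcases hb1 with h | h | h | h
    · exact absurd h (hbone χ₁ hd1)
    · exact h
    · exact absurd (hdegbar _ _ h) hne
    · exfalso
      have h5 := hJbar _ _ h
      rw [hv₁, hv₃, map_one] at h5
      norm_num at h5
  have e2 : Helper25.barIrr χ₂ = χ₂ := by
    rcases hb2 with h | h | h | h
    · exact absurd h (hbone χ₂ hd2)
    · exact absurd (hdegbar _ _ h).symm hne
    · exact h
    · exfalso
      have h5 := hJbar _ _ h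
      rw [hv₂, hv₃, map_one] at h5
      norm_num at h5
  have e3 : Helper25.barIrr χ₃ = χ₃ := by
    rcases hb3 with h | h | h | h
    · exact absurd h (hbone χ₃ hd3)
    · exfalso
      have h5 := hJbar _ _ h
      rw [hv₁, hv₃, map_neg, map_one] at h5
      norm_num at h5
    · exfalso
      have h5 := hJbar _ _ h
      rw [hv₂, hv₃, map_neg, map_one] at h5
      norm_num at h5
    · exact h
  have s1 := hfs χ₁ e1 ho1
  have s2 := hfs χ₂ e2 ho2
  have s3 := hfs χ₃ e3 ho3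
  have hsum : ∑ s : G, (1 + (χ₁ : G → ℂ) (s * s) + (χ₂ : G → ℂ) (s * s)
      - (χ₃ : G → ℂ) (s * s)) = 0 := by
    refine Finset.sum_eq_zero fun s _ => ?_
    have h5 := ko_orth hpM J hJ χ₁ χ₂ χ₃ 1 1 (-1) hd1 hd2 hd3 h12 h13 h23 hB
      (by rw [hv₁]; norm_num) (by rw [hv₂]; norm_num) (by rw [hv₃]; norm_num)
      (s * s) (ko_sq_odd P hexp s)
    push_cast at h5
    linear_combination h5
  have hN : (Nat.card G : ℂ) ≠ 0 := Nat.cast_ne_zero.2 Nat.card_pos.ne'
  have h6 : (Nat.card G : ℂ)⁻¹ * ∑ s : G, (1 + (χ₁ : G → ℂ) (s * s) + (χ₂ : G → ℂ) (s * s)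
      - (χ₃ : G → ℂ) (s * s)) = 1 + 1 + 1 - 1 := by
    rw [Finset.sum_sub_distrib, Finset.sum_add_distrib, Finset.sum_add_distrib,
      Finset.sum_const, Finset.card_univ, mul_sub, mul_add, mul_add, s1, s2, s3,
      nsmul_eq_mul, mul_one, ← Nat.card_eq_fintype_card, inv_mul_cancel₀ hN]
  rw [hsum, mul_zero] at h6
  norm_num at h6

end KleinOrder3

end Cfsg.Agent.Helper6
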