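import Mathlib
import Cfsg.Agent.Helper24.MGroup
import Cfsg.Agent.Helper6.RelM
import Cfsg.Agent.Helper6.ConjChar
import Cfsg.Agent.Helper10.IrrCoh
import Cfsg.Agent.Helper10.AbelChar
import Cfsg.Agent.Helper10.CohSys

/-!
A character of a solvable group whose restriction to a normal subgroup with abelian Sylow
subgroups is irreducible is monomial.
-/

set_option autoImplicit false

namespace Cfsg.Agent.Helper6

open Cfsg
open scoped ComplexConjugate
open scoped commutatorElement

universe u

/-- With abelian Sylow subgroups, the centre meets the derived subgroup trivially. -/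
theorem center_inf_commutator_of_abelian_sylow {G : Type*} [Group G] [Finite G]
    (hab : ∀ (p : ℕ), p.Prime → ∀ Q : Subgroup G, IsPGroup p Q →
      ∀ a ∈ Q, ∀ b ∈ Q, a * b = b * a)
    (z : G) (hz1 : z ∈ commutator G) (hz2 : z ∈ Subgroup.center G) : z = 1 := by
  classical
  by_contra hne
  have hord : orderOf z ≠ 1 := fun h => hne (orderOf_eq_one_iff.mp h)
  obtain ⟨p, hp, hpd⟩ := Nat.exists_prime_and_dvd hord
  haveI : Fact p.Prime := ⟨hp⟩
  obtain ⟨w, hw⟩ : ∃ w : G, w = z ^ (orderOf z / p) := ⟨_, rfl⟩
  have hwo : orderOf w = p := by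
    rw [hw]
    exact orderOf_pow_orderOf_div (orderOf_pos z).ne' hpd
  have hw1 : w ∈ commutator G := by rw [hw]; exact Subgroup.pow_mem _ hz1 _
  have hw2 : w ∈ Subgroup.center G := by rw [hw]; exact Subgroup.pow_mem _ hz2 _
  have hpg : IsPGroup p (Subgroup.zpowers w) := by
    apply IsPGroup.of_card (n := 1)
    rw [Nat.card_zpowers, hwo, pow_one]
  obtain ⟨P, hP⟩ := hpg.exists_le_sylow
  have hPab := hab p hp P P.isPGroup'
  letI : CommGroup (P : Subgroup G) :=
    { (inferInstance : Group (P : Subgroup G)) with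
      mul_comm := fun a b => Subtype.ext (hPab a a.2 b b.2) }
  have hkey : ∀ (k : ℕ) (g₀ : G), g₀⁻¹ * w ^ k * g₀ ∈ (P : Subgroup G) →
      g₀⁻¹ * w ^ k * g₀ = w ^ k := by
    intro k g₀ _
    have hc : w ^ k ∈ Subgroup.center G := Subgroup.pow_mem _ hw2 _
    rw [mul_assoc, ← Subgroup.mem_center_iff.mp hc g₀, inv_mul_cancel_left]
  have h1 := MonoidHom.transfer_eq_pow (MonoidHom.id (P : Subgroup G)) w hkey
  have h2 : MonoidHom.transfer (MonoidHom.id (P : Subgroup G)) w = 1 :=
    MonoidHom.mem_ker.mp (Abelianization.commutator_subset_ker _ hw1)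
  rw [h2] at h1
  have h3 : w ^ (P : Subgroup G).index = 1 := by
    have := congrArg Subtype.val h1
    simpa using this.symm
  have h4 : p ∣ (P : Subgroup G).index := by
    have h5 := orderOf_dvd_of_pow_eq_one h3
    rw [hwo] at h5
    exact h5
  exact P.not_dvd_index h4

/-- The property that all `p`-subgroups are abelian passes to homomorphic images. -/
theorem abelian_pgroups_map {G G' : Type*} [Group G] [Finite G] [Group G'] (f : G →* G')
    (N : Subgroup G)
    (hab : ∀ (p : ℕ), p.Prime → ∀ Q : Subgroup G, Q ≤ N → IsPGroup p Q →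
      ∀ a ∈ Q, ∀ b ∈ Q, a * b = b * a) :
    ∀ (p : ℕ), p.Prime → ∀ Q : Subgroup G', Q ≤ N.map f → IsPGroup p Q →
      ∀ a ∈ Q, ∀ b ∈ Q, a * b = b * a := by
  intro p hp Q hQN hQ a ha b hb
  haveI : Fact p.Prime := ⟨hp⟩
  obtain ⟨M, hM⟩ : ∃ M : Subgroup G, M = N ⊓ Q.comap f := ⟨_, rfl⟩
  have hMN : M ≤ N := by rw [hM]; exact inf_le_left
  have hMQ : ∀ m : M, (f.comp M.subtype) m ∈ Q := by
    intro m
    have h1 : (m : G) ∈ N ⊓ Q.comap f := by
      rw [← hM]
      exact m.2
    exact h1.2
  obtain ⟨φ, hφdef⟩ : ∃ φ : M →* Q, φ = (f.comp M.subtype).codRestrict Q hMQ := ⟨_, rfl⟩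
  have hφval : ∀ m : M, ((φ m : Q) : G') = f m := by
    intro m
    rw [hφdef]
    rfl
  have hφ : Function.Surjective φ := by
    intro q
    obtain ⟨n, hn, hnq⟩ := hQN q.2
    have hnM : n ∈ M := by
      rw [hM]
      refine ⟨hn, ?_⟩
      show f n ∈ Q
      rw [hnq]
      exact q.2
    exact ⟨⟨n, hnM⟩, Subtype.ext ((hφval _).trans hnq)⟩
  obtain ⟨P⟩ : Nonempty (Sylow p M) := inferInstance
  have hPtop : (⊤ : Subgroup Q) = ((P.mapSurjective hφ : Sylow p Q) : Subgroup Q) :=
    (P.mapSurjective hφ).is_maximal' (hQ.to_subgroup ⊤) le_top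
  rw [Sylow.coe_mapSurjective] at hPtop
  have hlift : ∀ c ∈ Q, ∃ x : G, x ∈ (P : Subgroup M).map M.subtype ∧ f x = c := by
    intro c hc
    have h1 : (⟨c, hc⟩ : Q) ∈ (P : Subgroup M).map φ := by
      rw [← hPtop]
      exact Subgroup.mem_top _
    obtain ⟨m, hm, hmc⟩ := h1
    refine ⟨(m : G), Subgroup.mem_map_of_mem M.subtype hm, ?_⟩
    rw [← hφval m, hmc]
  obtain ⟨x, hx, rfl⟩ := hlift a ha
  obtain ⟨y, hy, rfl⟩ := hlift b hb
  have hle : (P : Subgroup M).map M.subtype ≤ N :=
    (Subgroup.map_subtype_le _).trans hMN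
  have h2 := hab p hp _ hle (P.isPGroup'.map M.subtype) x hx y hy
  rw [← map_mul, h2, map_mul]

/-- If a character induced from `T` restricts irreducibly to the normal subgroup `N`, then the
inducing character restricts irreducibly to `N ∩ T`. -/
theorem irr_restrict_of_induced {H : Type u} [Group H] [Fintype H] (N : Subgroup H) [N.Normal]
    (T : Subgroup H) [Fintype T] {ψ : H → ℂ} (hψ : IsIrrCharacter H ψ)
    (hψN : IsIrrCharacter N (fun x : N => ψ x)) {η : T → ℂ} (hη : IsIrrCharacter T η)
    (hind : indFun T η = ψ) :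
    IsIrrCharacter (N.subgroupOf T) (fun x : N.subgroupOf T => η x) := by
  classical
  have hψc := Helper24.isCharacter_of_irr hψ
  have hηc := Helper24.isCharacter_of_irr hη
  have hψcf := Helper2.IsIrrCharacter.isClassFunction hψ
  -- the subgroup `N ∩ T` inside `N`
  obtain ⟨S, hS⟩ : ∃ S : Subgroup N, S = T.subgroupOf N := ⟨_, rfl⟩
  have := Fintype.ofFinite S
  have hST : ∀ s : S, ((s : N) : H) ∈ T := by
    intro s
    have h1 : (s : N) ∈ T.subgroupOf N := by
      rw [← hS]
      exact s.2
    exact Subgroup.mem_subgroupOf.mp h1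
  let j : S →* T :=
    { toFun := fun s => ⟨((s : N) : H), hST s⟩
      map_one' := rfl
      map_mul' := fun a b => rfl }
  -- the restriction of `η` to `S`
  have hηS : IsCharacter S (η ∘ j) := Helper6.isCharacter_comp_hom j hηc
  -- `η` is a constituent of the restriction of `ψ` to `T`
  have hcon : classInner (fun t : T => ψ t) η ≠ 0 := by
    have h1 := Helper2.frobenius_reciprocity T η ψ hψcf
    rw [hind, Helper2.classInner_irr hψ hψ, if_pos rfl] at h1
    have h2 : classInner (fun t : T => ψ t) η = conj (classInner η (fun t : T => ψ t)) :=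
      (Helper2.classInner_conj_symm _ _).symm
    rw [h2, ← h1]
    simp
  have hδ := Helper2.isCharacter_sub_of_constituent (Helper24.isCharacter_restrict T hψc) hη hcon
  have hδS : IsCharacter S (((fun t : T => ψ t) - η) ∘ j) := Helper6.isCharacter_comp_hom j hδ
  -- an irreducible constituent of the restriction of `η` to `S`
  have hne : (η ∘ j) ≠ 0 := by
    intro h0
    have h1 := congrFun h0 1
    have h2 := Helper24.irr_one_ne_zero hη
    apply h2
    simpa using h1
  obtain ⟨β, hβ, hβcon⟩ := Helper2.exists_irr_constituent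
    (Helper2.IsCharacter.isClassFunction hηS) hne
  have hβc := Helper24.isCharacter_of_irr hβ
  -- `β` is a constituent of the restriction of `ψ` to `S`
  have hψS : (fun s : S => ψ ((s : N) : H)) = (η ∘ j) + (((fun t : T => ψ t) - η) ∘ j) := by
    funext s
    simp only [Pi.add_apply, Function.comp_apply, Pi.sub_apply]
    ring_nf
    rfl
  have hβcon2 : classInner (fun s : S => ψ ((s : N) : H)) β ≠ 0 := by
    rw [hψS, Helper2.classInner_add_left]
    obtain ⟨m1, hm1⟩ := Helper2.classInner_char_nat hηS hβc
    obtain ⟨m2, hm2⟩ := Helper2.classInner_char_nat hδS hβc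
    rw [hm1, hm2]
    rw [hm1] at hβcon
    have h1 : m1 ≠ 0 := by
      intro h0
      apply hβcon
      rw [h0]
      simp
    have h2 : (m1 + m2 : ℕ) ≠ 0 := by omega
    exact_mod_cast h2
  -- the irreducible restriction of `ψ` to `N` is a constituent of the character induced by `β`
  have hψNcf := Helper2.IsIrrCharacter.isClassFunction hψN
  have hfr := Helper2.frobenius_reciprocity S β (fun x : N => ψ x) hψNcf
  have hcon3 : classInner (indFun S β) (fun x : N => ψ x) ≠ 0 := by
    rw [hfr]
    have h2 : classInner β (fun s : S => ψ ((s : N) : H)) =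
        conj (classInner (fun s : S => ψ ((s : N) : H)) β) :=
      (Helper2.classInner_conj_symm _ _).symm
    rw [h2]
    intro h0
    apply hβcon2
    have h3 := congrArg conj h0
    simpa using h3
  have hdeg1 := Helper2.charDegree_le_of_constituent (Helper2.isCharacter_indFun S hβc) hψN hcon3
  rw [Helper10.charDegree_indFun S hβc] at hdeg1
  -- degrees
  have hd1 : charDegree (fun x : N => ψ x) = charDegree ψ := by
    have h1 := Helper24.charDegree_spec (Helper24.isCharacter_restrict N hψc)
    have h2 := Helper24.charDegree_spec hψc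
    have h3 : ((charDegree (fun x : N => ψ x) : ℕ) : ℂ) = (charDegree ψ : ℂ) := by
      rw [← h1, ← h2]
      rfl
    exact_mod_cast h3
  have hd2 : charDegree ψ = T.index * charDegree η := by
    rw [← hind]
    exact Helper10.charDegree_indFun T hηc
  have hd3 : S.index ≤ T.index := by
    rw [hS]
    have h1 : T.relIndex N ≤ T.relIndex ⊤ := by
      apply Subgroup.relIndex_le_of_le_right le_top
      rw [Subgroup.relIndex_top_right]
      exact Subgroup.index_ne_zero_of_finite
    rw [Subgroup.relIndex_top_right] at h1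
    exact h1
  have hd4 : charDegree (η ∘ j) = charDegree η := by
    have h1 := Helper24.charDegree_spec hηS
    have h2 := Helper24.charDegree_spec hηc
    have h3 : ((charDegree (η ∘ j) : ℕ) : ℂ) = (charDegree η : ℂ) := by
      rw [← h1, ← h2]
      rfl
    exact_mod_cast h3
  have hd5 := Helper2.charDegree_le_of_constituent hηS hβ hβcon
  rw [hd4] at hd5
  have hTpos : 0 < T.index := Nat.pos_of_ne_zero Subgroup.index_ne_zero_of_finite
  have hd6 : charDegree η ≤ charDegree β := by
    rw [hd1, hd2] at hdeg1
    have h1 : T.index * charDegree η ≤ T.index * charDegree β :=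
      hdeg1.trans (Nat.mul_le_mul_right _ hd3)
    exact Nat.le_of_mul_le_mul_left h1 hTpos
  have hd7 : charDegree β = charDegree η := le_antisymm hd5 hd6
  -- hence the restriction of `η` to `S` equals `β`
  have hdiff := Helper2.isCharacter_sub_of_constituent hηS hβ hβcon
  have hzero : (η ∘ j) - β = 0 := by
    apply Helper10.char_eq_zero_of_apply_one hdiff
    rw [Pi.sub_apply, Helper24.charDegree_spec hηS, Helper24.charDegree_spec hβc, hd4, hd7]
    simp
  have hηβ : η ∘ j = β := sub_eq_zero.mp hzero
  have hirrS : IsIrrCharacter S (η ∘ j) := by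
    rw [hηβ]
    exact hβ
  -- transport to `N ∩ T` inside `T`
  let e : N.subgroupOf T ≃* S :=
    { toFun := fun x => ⟨⟨((x : T) : H), Subgroup.mem_subgroupOf.mp x.2⟩, by
        rw [hS]
        exact Subgroup.mem_subgroupOf.mpr (x : T).2⟩
      invFun := fun s => ⟨⟨((s : N) : H), hST s⟩, Subgroup.mem_subgroupOf.mpr (s : N).2⟩
      left_inv := fun x => rfl
      right_inv := fun s => rfl
      map_mul' := fun a b => rfl }
  have := Fintype.ofFinite (N.subgroupOf T)
  have h9 := Helper6.isIrrCharacter_comp_mulEquiv e hirrS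
  have h10 : (η ∘ j) ∘ e = fun x : N.subgroupOf T => η x := by
    funext x
    rfl
  rw [h10] at h9
  exact h9

set_option maxHeartbeats 800000 in
/-- A character of a solvable group restricting irreducibly to a normal subgroup all of whose
`p`-subgroups are abelian is induced from a linear character. -/
theorem msylow_aux : ∀ (n : ℕ) (H : Type u) [Group H] [Fintype H] [Group.IsSolvable H]
    (N : Subgroup H) [N.Normal], Nat.card H ≤ n →
    (∀ (p : ℕ), p.Prime → ∀ Q : Subgroup H, Q ≤ N → IsPGroup p Q →
      ∀ a ∈ Q, ∀ b ∈ Q, a * b = b * a) →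
    ∀ ψ : H → ℂ, IsIrrCharacter H ψ → IsIrrCharacter N (fun x : N => ψ x) →
    ∃ (U : Subgroup H) (lam : U →* ℂˣ), ψ = indFun U (fun h => ((lam h : ℂˣ) : ℂ)) := by
  intro n
  induction n with
  | zero =>
    intro H _ _ _ N _ hcard
    exact absurd hcard (by have : 0 < Nat.card H := Nat.card_pos; omega)
  | succ n ih =>
    intro H _ _ _ N _ hcard hab ψ hψ hψN
    classical
    have hchar := Helper24.isCharacter_of_irr hψ
    by_cases h1 : ψ 1 = 1
    · obtain ⟨lam, hlam⟩ := Helper24.exists_hom_of_linear hchar h1
      refine ⟨⊤, lam.comp (⊤ : Subgroup H).subtype, ?_⟩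
      have h2 := Helper24.indFun_top_eq (Helper2.IsIrrCharacter.isClassFunction hψ)
      rw [← h2]
      congr 1
      funext h
      exact hlam h
    by_cases hK : Helper24.charKerSubgroup hchar = ⊥
    · -- faithful case
      have hfaith : ∀ g : H, ψ g = ψ 1 → g = 1 := by
        intro g hg
        have h2 : g ∈ Helper24.charKerSubgroup hchar :=
          (Helper24.mem_charKerSubgroup hchar g).mpr hg
        rw [hK, Subgroup.mem_bot] at h2
        exact h2
      -- the derived subgroup of `N` is nontrivial
      obtain ⟨D, hDdef⟩ : ∃ D : Subgroup H, D = ⁅N, N⁆ := ⟨_, rfl⟩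
      have hDn : D.Normal := by
        rw [hDdef]
        infer_instance
      have hDN : D ≤ N := by
        rw [hDdef]
        exact Subgroup.commutator_le_left N N
      have hDne : D ≠ ⊥ := by
        intro hbot
        apply h1
        have hcomm : ∀ a b : N, a * b = b * a := by
          intro a b
          have h2 : ⁅(a : H), (b : H)⁆ ∈ D := by
            rw [hDdef]
            exact Subgroup.commutator_mem_commutator a.2 b.2
          rw [hbot, Subgroup.mem_bot, commutatorElement_eq_one_iff_mul_comm] at h2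
          exact Subtype.ext h2
        exact Helper10.irr_one_of_comm hcomm hψN
      -- a minimal normal subgroup inside the derived subgroup
      obtain ⟨A, ⟨hAn, hAD, hAne⟩, hAmin⟩ : ∃ A : Subgroup H, (A.Normal ∧ A ≤ D ∧ A ≠ ⊥) ∧
          ∀ B : Subgroup H, (B.Normal ∧ B ≤ D ∧ B ≠ ⊥) → Nat.card A ≤ Nat.card B := by
        have hne : ∃ m : ℕ, ∃ A : Subgroup H, (A.Normal ∧ A ≤ D ∧ A ≠ ⊥) ∧ Nat.card A = m :=
          ⟨_, D, ⟨hDn, le_rfl, hDne⟩, rfl⟩
        obtain ⟨A, hA, hAm⟩ := Nat.find_spec hne
        refine ⟨A, hA, fun B hB => ?_⟩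
        rw [hAm]
        exact Nat.find_min' hne ⟨B, hB, rfl⟩
      haveI := hAn
      have hAAbot : ⁅A, A⁆ = ⊥ := by
        by_contra hne
        have h2 : Nat.card A ≤ Nat.card (⁅A, A⁆ : Subgroup H) :=
          hAmin _ ⟨inferInstance, (Subgroup.commutator_le_left A A).trans hAD, hne⟩
        have h3 : ⁅A, A⁆ = A :=
          Subgroup.eq_of_le_of_card_ge (Subgroup.commutator_le_left A A) h2
        exact hAne (eq_bot_of_commutator_eq_self A h3)
      have hAcomm : ∀ a b : A, a * b = b * a := by
        intro a b
        have h2 : ⁅(a : H), (b : H)⁆ ∈ ⁅A, A⁆ := Subgroup.commutator_mem_commutator a.2 b.2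
        rw [hAAbot, Subgroup.mem_bot, commutatorElement_eq_one_iff_mul_comm] at h2
        exact Subtype.ext h2
      have := Fintype.ofFinite A
      obtain ⟨θ, hθ, hcon⟩ := Helper24.exists_constituent_restrict A hψ
      have hθ1 := Helper10.irr_one_of_comm hAcomm hθ
      have hθmul := Helper24.linear_char_mul (Helper24.isCharacter_of_irr hθ) hθ1
      obtain ⟨T, hTdef⟩ : ∃ T : Subgroup H, T = Helper6.inertia A θ := ⟨_, rfl⟩
      have hAT : A ≤ T := by
        rw [hTdef]
        exact Helper6.le_inertia A (Helper2.IsIrrCharacter.isClassFunction hθ)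
      have hTmem : ∀ g : H, g ∈ T ↔
          ∀ a : A, θ ⟨g * a * g⁻¹, hAn.conj_mem (a : H) a.2 g⟩ = θ a := by
        intro g
        rw [hTdef]
        exact Helper6.mem_inertia A θ g
      have hTne : T ≠ ⊤ := by
        intro htop
        have hinv : ∀ (g : H) (a : A), θ ⟨g * a * g⁻¹, hAn.conj_mem (a : H) a.2 g⟩ = θ a := by
          intro g
          exact (hTmem g).mp (htop ▸ Subgroup.mem_top g)
        have hres := Helper6.res_eq_smul_of_invariant A hθ hinv hψ hcon
        have hval : ∀ a : A, ψ a = ψ 1 * θ a := by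
          intro a
          have h2 := congrFun hres a
          have h3 := congrFun hres 1
          simp only [Pi.smul_apply, smul_eq_mul, OneMemClass.coe_one] at h2 h3
          rw [hθ1, mul_one] at h3
          rw [h2, h3]
        -- every element of `A` is central
        have hcentral : ∀ x ∈ A, ∀ g : H, g * x = x * g := by
          intro x hxA g
          have hxinv : (x⁻¹ : H) ∈ A := A.inv_mem hxA
          have hw1 : g * x⁻¹ * g⁻¹ ∈ A := hAn.conj_mem _ hxinv g
          have hw : ψ (x * (g * x⁻¹ * g⁻¹)) = ψ 1 := by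
            have h4 := hval (⟨x, hxA⟩ * ⟨g * x⁻¹ * g⁻¹, hw1⟩)
            rw [hθmul] at h4
            have h5 := hinv g ⟨x⁻¹, hxinv⟩
            have h6 : θ ⟨x, hxA⟩ * θ ⟨x⁻¹, hxinv⟩ = 1 := by
              rw [← hθmul, ← hθ1]
              congr 1
              apply Subtype.ext
              simp
            have h7 : ((⟨x, hxA⟩ * ⟨g * x⁻¹ * g⁻¹, hw1⟩ : A) : H) = x * (g * x⁻¹ * g⁻¹) := rfl
            rw [h7] at h4
            rw [h4, h5, h6, mul_one]
          have h8 := hfaith _ hw
          calc g * x = (x * (g * x⁻¹ * g⁻¹))⁻¹ * (x * g) := by group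
            _ = x * g := by rw [h8, inv_one, one_mul]
        -- contradiction with the triviality of `Z(N) ∩ N'`
        obtain ⟨⟨x, hxA⟩, hx1⟩ := (Subgroup.ne_bot_iff_exists_ne_one.mp hAne)
        have hxD : x ∈ ⁅N, N⁆ := by
          rw [← hDdef]
          exact hAD hxA
        rw [← Subgroup.map_subtype_commutator N] at hxD
        obtain ⟨y, hy, hyx⟩ := hxD
        have hyc : y ∈ Subgroup.center N := by
          rw [Subgroup.mem_center_iff]
          intro g
          apply Subtype.ext
          have h2 := hcentral x hxA (g : H)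
          have h3 : ((y : N) : H) = x := hyx
          show (g : H) * (y : H) = (y : H) * (g : H)
          rw [h3]
          exact h2
        have habN : ∀ (p : ℕ), p.Prime → ∀ Q : Subgroup N, IsPGroup p Q →
            ∀ a ∈ Q, ∀ b ∈ Q, a * b = b * a := by
          intro p hp Q hQ a ha b hb
          exact Subtype.ext (hab p hp (Q.map N.subtype) (Subgroup.map_subtype_le Q)
            (hQ.map N.subtype) a (Subgroup.mem_map_of_mem _ ha) b (Subgroup.mem_map_of_mem _ hb))
        have hy1 := center_inf_commutator_of_abelian_sylow habN y hy hyc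
        apply hx1
        apply Subtype.ext
        show x = 1
        rw [← hyx, hy1]
        rfl
      have := Fintype.ofFinite T
      obtain ⟨η, hη, hind, -⟩ := Cfsg.Agent.S0854.result A θ hθ T hTmem hAT ψ hψ hcon
      have hTcard : Nat.card T ≤ n := by
        have h2 : Nat.card T < Nat.card H := by
          by_contra hcon
          push Not at hcon
          apply hTne
          rw [← Subgroup.card_eq_iff_eq_top]
          exact le_antisymm (Subgroup.card_le_card_group T) hcon
        omega
      have hηS := irr_restrict_of_induced N T hψ hψN hη hind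
      have habT : ∀ (p : ℕ), p.Prime → ∀ Q : Subgroup T, Q ≤ N.subgroupOf T → IsPGroup p Q →
          ∀ a ∈ Q, ∀ b ∈ Q, a * b = b * a := by
        intro p hp Q hQN hQ a ha b hb
        have hle : Q.map T.subtype ≤ N := by
          rintro _ ⟨q, hq, rfl⟩
          exact Subgroup.mem_subgroupOf.mp (hQN hq)
        exact Subtype.ext (hab p hp (Q.map T.subtype) hle (hQ.map T.subtype) a
          (Subgroup.mem_map_of_mem _ ha) b (Subgroup.mem_map_of_mem _ hb))
      obtain ⟨H', lam', hlam'⟩ := ih T (N.subgroupOf T) hTcard habT η hη hηS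
      have hinj : Function.Injective T.subtype := Subgroup.subtype_injective T
      obtain ⟨U, hUdef⟩ : ∃ U : Subgroup H, U = H'.map T.subtype := ⟨_, rfl⟩
      have hUT : U ≤ T := by
        rw [hUdef]
        exact Subgroup.map_subtype_le H'
      have hsub : U.subgroupOf T = H' := by
        rw [hUdef]
        exact Subgroup.comap_map_eq_self_of_injective hinj H'
      have hmemH' : ∀ (y : T), (y : H) ∈ U → y ∈ H' := by
        intro y hy
        rw [← hsub]
        exact Subgroup.mem_subgroupOf.mpr hy
      let f : U →* H' :=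
        { toFun := fun h => ⟨⟨(h : H), hUT h.2⟩, hmemH' ⟨(h : H), hUT h.2⟩ h.2⟩
          map_one' := rfl
          map_mul' := fun a b => rfl }
      refine ⟨U, lam'.comp f, ?_⟩
      rw [← Helper10.indFun_trans U T hUT, ← hind, hlam']
      congr 1
      apply Helper24.indFun_congr_subgroup H' (U.subgroupOf T) hsub.symm
      intro y hy1 hy2
      rfl
    · -- non-faithful case: pass to the quotient by the kernel
      obtain ⟨K, hKdef⟩ : ∃ K : Subgroup H, K = Helper24.charKerSubgroup hchar := ⟨_, rfl⟩
      haveI hKn : K.Normal := by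
        rw [hKdef]
        infer_instance
      have hKne : K ≠ ⊥ := by
        rw [hKdef]
        exact hK
      have hKmem : ∀ g : H, g ∈ K ↔ ψ g = ψ 1 := by
        intro g
        rw [hKdef]
        exact Helper24.mem_charKerSubgroup hchar g
      have := Fintype.ofFinite (H ⧸ K)
      have hM : ∀ m ∈ K, ∀ γ : H, ψ (γ * m) = ψ γ := by
        intro m hm γ
        have h2 : γ * m = (γ * m * γ⁻¹) * γ := by group
        rw [h2]
        exact Helper6.char_mul_of_eq_degree hchar ((hKmem _).mp (hKn.conj_mem m hm γ)) γ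
      obtain ⟨β', hβ', hβval⟩ := Helper6.exists_deflation K hψ hM
      have hcardq : Nat.card (H ⧸ K) ≤ n := by
        have h2 := Subgroup.card_eq_card_quotient_mul_card_subgroup K
        have h3 : 1 < Nat.card K := by
          rw [Subgroup.one_lt_card_iff_ne_bot]
          exact hKne
        have h4 : 0 < Nat.card (H ⧸ K) := Nat.card_pos
        nlinarith
      obtain ⟨Nbar, hNbar⟩ : ∃ Nbar : Subgroup (H ⧸ K),
          Nbar = N.map (QuotientGroup.mk' K) := ⟨_, rfl⟩
      haveI : Nbar.Normal := by
        rw [hNbar]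
        exact Subgroup.Normal.map inferInstance _ (QuotientGroup.mk'_surjective K)
      have habq := abelian_pgroups_map (QuotientGroup.mk' K) N hab
      rw [← hNbar] at habq
      have hirrq : IsIrrCharacter Nbar (fun x : Nbar => β' x) := by
        have hmem : ∀ x : N, ((QuotientGroup.mk' K).comp N.subtype) x ∈ Nbar := by
          intro x
          rw [hNbar]
          exact Subgroup.mem_map_of_mem _ x.2
        obtain ⟨g, hgdef⟩ : ∃ g : N →* Nbar,
            g = ((QuotientGroup.mk' K).comp N.subtype).codRestrict Nbar hmem := ⟨_, rfl⟩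
        have hgval : ∀ x : N, ((g x : Nbar) : H ⧸ K) = ((x : H) : H ⧸ K) := by
          intro x
          rw [hgdef]
          rfl
        have hg : Function.Surjective g := by
          intro q
          have h2 : (q : H ⧸ K) ∈ N.map (QuotientGroup.mk' K) := by
            rw [← hNbar]
            exact q.2
          obtain ⟨y, hy, hyq⟩ := h2
          exact ⟨⟨y, hy⟩, Subtype.ext ((hgval _).trans hyq)⟩
        have := Fintype.ofFinite Nbar
        apply Helper6.isIrrCharacter_of_comp_surjective g hg
        have h3 : (fun x : Nbar => β' x) ∘ g = fun x : N => ψ x := by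
          funext x
          show β' ((g x : Nbar) : H ⧸ K) = ψ x
          rw [hgval]
          exact hβval x
        rw [h3]
        exact hψN
      obtain ⟨H', lam', hlam'⟩ := ih (H ⧸ K) Nbar hcardq habq β' hβ' hirrq
      refine ⟨H'.comap (QuotientGroup.mk' K),
        lam'.comp ((QuotientGroup.mk' K).subgroupComap H'), ?_⟩
      have h5 := Helper24.indFun_comap (QuotientGroup.mk' K) (QuotientGroup.mk'_surjective K) H'
        (fun h => ((lam' h : ℂˣ) : ℂ))
      have h6 : ψ = β' ∘ (QuotientGroup.mk' K) := by
        funext g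
        exact (hβval g).symm
      rw [h6, hlam', ← h5]
      rfl

end Cfsg.Agent.Helper6
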