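import Cfsg.Agent.Helper6.PPowerDeg
import Cfsg.Agent.Helper24.CharInv
import Cfsg.Agent.Helper2.CharGalois

set_option autoImplicit false

namespace Cfsg.Agent.Helper6

open Cfsg Polynomial
open scoped ComplexConjugate

/-- A character of degree prime to `p` does not vanish at a `p`-element. -/
theorem char_ne_zero_of_pow_prime_pow {G : Type*} [Group G] {χ : G → ℂ} (hχ : IsCharacter G χ)
    (p : ℕ) (hp : p.Prime) (a : ℕ) (x : G) (hx : x ^ (p ^ a) = 1) (hd : ¬ p ∣ charDegree χ) :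
    χ x ≠ 0 := by
  intro h0
  have hN : 0 < p ^ a := pow_pos hp.pos a
  have hζ := Complex.isPrimitiveRoot_exp (p ^ a) hN.ne'
  generalize Complex.exp (2 * Real.pi * Complex.I / ((p ^ a : ℕ) : ℂ)) = ζ at hζ
  obtain ⟨P, hP⟩ := Helper24.char_poly hχ x (p ^ a) hN hx ζ hζ
  have h1 : χ x = aeval ζ P := by simpa using hP 1
  have h2 : χ 1 = aeval (1 : ℂ) P := by simpa using hP 0
  have hint : IsIntegral ℤ ζ := hζ.isIntegral hN
  let ζ' : integralClosure ℤ ℂ := ⟨ζ, hint⟩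
  obtain ⟨Q, hQ⟩ := Polynomial.X_sub_C_dvd_sub_C_eval (a := (1 : ℤ)) (p := P)
  have hPd : P.eval 1 = (charDegree χ : ℤ) := by
    have h3 : aeval (1 : ℂ) P = ((P.eval 1 : ℤ) : ℂ) := by
      have h4 := Polynomial.aeval_algebraMap_apply ℂ (1 : ℤ) P
      simpa using h4
    rw [Helper24.charDegree_spec hχ, h3] at h2
    exact_mod_cast h2.symm
  have e1 : aeval ζ' P = 0 := by
    apply Subtype.ext
    rw [Polynomial.aeval_subalgebra_coe]
    show aeval ζ P = 0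
    rw [← h1, h0]
  have e2 : aeval ζ' P - ((charDegree χ : ℤ) : integralClosure ℤ ℂ) = (ζ' - 1) * aeval ζ' Q := by
    have h3 := congrArg (aeval ζ') hQ
    rw [hPd] at h3
    simpa using h3
  rw [e1, zero_sub] at e2
  obtain ⟨r, hr⟩ := exists_add_pow_prime_pow_eq hp (ζ' - 1) 1 a
  have hζ'N : ζ' ^ (p ^ a) = 1 := Subtype.ext (by
    show ζ ^ (p ^ a) = 1
    exact hζ.pow_eq_one)
  rw [sub_add_cancel, hζ'N, one_pow] at hr
  have e3 : (ζ' - 1) ^ (p ^ a) = -(p * (ζ' - 1) * r) := by linear_combination -hr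
  have e4 : (-((charDegree χ : ℤ) : integralClosure ℤ ℂ)) ^ (p ^ a) =
      (p : integralClosure ℤ ℂ) * (-((ζ' - 1) * r * aeval ζ' Q ^ (p ^ a))) := by
    rw [e2, mul_pow, e3]
    ring
  have e5 := congrArg (fun z : integralClosure ℤ ℂ => (z : ℂ)) e4
  beta_reduce at e5
  have hs : IsIntegral ℤ ((-((ζ' - 1) * r * aeval ζ' Q ^ (p ^ a)) : integralClosure ℤ ℂ) : ℂ) :=
    (-((ζ' - 1) * r * aeval ζ' Q ^ (p ^ a))).2
  have hp0 : (p : ℂ) ≠ 0 := by exact_mod_cast hp.ne_zero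
  have hsq : ((-((ζ' - 1) * r * aeval ζ' Q ^ (p ^ a)) : integralClosure ℤ ℂ) : ℂ) =
      ((((-(charDegree χ : ℤ)) ^ (p ^ a) : ℤ) / (p : ℚ) : ℚ) : ℂ) := by
    push_cast at e5 ⊢
    rw [eq_div_iff hp0, mul_comm]
    exact e5.symm
  rw [hsq] at hs
  obtain ⟨z, hz⟩ := Helper2.int_of_isIntegral_rat hs
  have hp0' : (p : ℚ) ≠ 0 := by exact_mod_cast hp.ne_zero
  have h5 : (-(charDegree χ : ℤ)) ^ (p ^ a) = (p : ℤ) * z := by
    rw [div_eq_iff hp0'] at hz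
    have h6 : (((-(charDegree χ : ℤ)) ^ (p ^ a) : ℤ) : ℚ) = ((z * (p : ℤ) : ℤ) : ℚ) := by
      push_cast at hz ⊢
      exact hz
    have h7 : (-(charDegree χ : ℤ)) ^ (p ^ a) = z * (p : ℤ) := by exact_mod_cast h6
    rw [h7, mul_comm]
  have hdvd : (p : ℤ) ∣ (-(charDegree χ : ℤ)) ^ (p ^ a) := ⟨z, h5⟩
  have h8 := Int.Prime.dvd_pow' hp hdvd
  rw [dvd_neg] at h8
  exact hd (Int.natCast_dvd_natCast.mp h8)

end Cfsg.Agent.Helper6
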