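import Cfsg.Agent.Helper25.CharPow
import Cfsg.Agent.Helper25.BlockQuot
import Cfsg.Agent.Helper25.BlockDegSq
import Cfsg.Agent.Helper24.PermBiinv
import Cfsg.Agent.Helper2.CharOrtho
import Cfsg.Agent.Helper2.CharDecomp
import Cfsg.Agent.Helper2.CharReg
import Cfsg.Agent.S0967

set_option autoImplicit false
set_option linter.unusedSectionVars false

/-!
# Norm-square sums over the principal block and a quotient by a normal subgroup of order
prime to `p` (helper6)
-/

namespace Cfsg.Agent.Helper6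

open Cfsg Cfsg.Agent.Helper25
open scoped ComplexConjugate

theorem pns_finsum_ite {ι R : Type*} [Fintype ι] [AddCommMonoid R] (s : Set ι)
    [DecidablePred (· ∈ s)] (f : ι → R) :
    ∑ᶠ i ∈ s, f i = ∑ i, if i ∈ s then f i else 0 := by
  rw [finsum_mem_eq_finite_toFinset_sum f (Set.toFinite s), ← Finset.sum_filter]
  refine Finset.sum_congr ?_ fun _ _ => rfl
  ext i
  simp

section PrincipalNormSq

variable {G : Type*} [Group G] [Fintype G] {M : Ideal AlgInt} {p : ℕ}

/-- Inflation is a bijection between the principal blocks. -/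
theorem pns_bij [Fact p.Prime] (hpM : IsPModular p M) (K : Subgroup G) [K.Normal]
    (hK : ¬ p ∣ Nat.card K) :
    Set.BijOn (inflIrr K) (principalBlock M (G ⧸ K)) (principalBlock M G) := by
  have hM := hpM.2.1.isPrime
  refine ⟨?_, ?_, ?_⟩
  · intro ψ hψ
    have h1 : SameBlock M ((oneIrr (G ⧸ K) : IrrCharacter (G ⧸ K)) : G ⧸ K → ℂ)
        (ψ : G ⧸ K → ℂ) := hψ
    exact sameBlock_inflate hM K (oneIrr (G ⧸ K)) ψ h1
  · intro ψ _ ψ' _ h
    apply Subtype.ext
    funext y
    obtain ⟨g, rfl⟩ := QuotientGroup.mk_surjective y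
    have h2 := congrFun (congrArg Subtype.val h) g
    exact h2
  · intro χ hχ
    have h1 : χ ∈ blockOf M (((oneIrr (G ⧸ K) : IrrCharacter (G ⧸ K)) : G ⧸ K → ℂ)
        ∘ (QuotientGroup.mk : G → G ⧸ K)) := hχ
    obtain ⟨ψ', h2, h3⟩ := Cfsg.Agent.S0967.result p M hpM K hK (oneIrr (G ⧸ K)) χ h1
    refine ⟨ψ', h3, ?_⟩
    apply Subtype.ext
    rw [h2]
    rfl

/-- Column orthogonality in norm-square form. -/
theorem pns_col {H : Type*} [Group H] [Fintype H] [Fintype (IrrCharacter H)] (y : H) :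
    ∑ ψ : IrrCharacter H, Complex.normSq ((ψ : H → ℂ) y)
      = (Nat.card (Subgroup.centralizer ({y} : Set H)) : ℝ) := by
  classical
  have h := Helper2.second_orthogonality (G := H) y y
  rw [if_pos (IsConj.refl y)] at h
  have h2 : ((∑ ψ : IrrCharacter H, Complex.normSq ((ψ : H → ℂ) y) : ℝ) : ℂ)
      = ((Nat.card (Subgroup.centralizer ({y} : Set H)) : ℕ) : ℂ) := by
    rw [← h, Complex.ofReal_sum]
    exact Finset.sum_congr rfl fun ψ _ => (Complex.mul_conj _).symm
  exact_mod_cast h2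

/-- The norm-square sum over the principal block: integrality, passage to the quotient by a
normal subgroup of order prime to `p`, the centralizer bound, and the one-block criterion. -/
theorem pns_main [Fact p.Prime] (hpM : IsPModular p M) (K : Subgroup G) [K.Normal]
    (hK : ¬ p ∣ Nat.card K) (x : G) :
    (∃ n : ℕ, 0 < n ∧ ∑ᶠ χ ∈ principalBlock M G, Complex.normSq ((χ : G → ℂ) x) = n) ∧
    ∑ᶠ χ ∈ principalBlock M G, Complex.normSq ((χ : G → ℂ) x)
      = ∑ᶠ ψ ∈ principalBlock M (G ⧸ K),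
          Complex.normSq ((ψ : G ⧸ K → ℂ) (QuotientGroup.mk x)) ∧
    ∑ᶠ χ ∈ principalBlock M G, Complex.normSq ((χ : G → ℂ) x)
      ≤ (Nat.card ↥(Subgroup.centralizer ({(QuotientGroup.mk x : G ⧸ K)} : Set (G ⧸ K))) : ℝ) ∧
    ((∑ᶠ χ ∈ principalBlock M G, charDegree (χ : G → ℂ) ^ 2) = K.index ↔
      ∀ B : Set (IrrCharacter (G ⧸ K)), IsPBlock M B → B = principalBlock M (G ⧸ K)) := by
  classical
  have hM := hpM.2.1.isPrime
  have := Helper24.finite_irrCharacter (G := G)
  have : Fintype (IrrCharacter G) := Fintype.ofFinite _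
  have : Fintype (G ⧸ K) := Fintype.ofFinite _
  have := Helper24.finite_irrCharacter (G := G ⧸ K)
  have : Fintype (IrrCharacter (G ⧸ K)) := Fintype.ofFinite _
  have hbij := pns_bij hpM K hK
  have e2 : ∑ᶠ χ ∈ principalBlock M G, Complex.normSq ((χ : G → ℂ) x)
      = ∑ᶠ ψ ∈ principalBlock M (G ⧸ K),
          Complex.normSq ((ψ : G ⧸ K → ℂ) (QuotientGroup.mk x)) :=
    (finsum_mem_eq_of_bijOn (inflIrr K) hbij (fun ψ _ => rfl)).symm
  have e3 : ∑ᶠ ψ ∈ principalBlock M (G ⧸ K),
      Complex.normSq ((ψ : G ⧸ K → ℂ) (QuotientGroup.mk x))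
      ≤ (Nat.card ↥(Subgroup.centralizer ({(QuotientGroup.mk x : G ⧸ K)} : Set (G ⧸ K))) : ℝ) := by
    rw [pns_finsum_ite, ← pns_col]
    refine Finset.sum_le_sum fun ψ _ => ?_
    split_ifs
    · exact le_refl _
    · exact Complex.normSq_nonneg _
  refine ⟨?_, e2, by rw [e2]; exact e3, ?_⟩
  · obtain ⟨s, hs⟩ : ∃ s : Finset (IrrCharacter G),
        s = Finset.univ.filter (· ∈ principalBlock M G) := ⟨_, rfl⟩
    have hmem : ∀ χ, χ ∈ s ↔ χ ∈ principalBlock M G := by
      intro χ
      rw [hs]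
      simp
    obtain ⟨F, hF⟩ : ∃ F : G → ℂ,
        F = ∑ χ ∈ s, ((χ : G → ℂ) * fun g => conj ((χ : G → ℂ) g)) := ⟨_, rfl⟩
    have hFc : IsCharacter G F := by
      rw [hF]
      refine Helper2.isCharacter_sum s _ fun χ _ => ?_
      exact Helper2.IsCharacter.mul (Helper24.isCharacter_of_irr χ.2)
        (Helper2.isCharacter_conj (Helper24.isCharacter_of_irr χ.2))
    have hFv : ∀ g, F g = ∑ χ ∈ s, (χ : G → ℂ) g * conj ((χ : G → ℂ) g) := by
      intro g
      rw [hF, Finset.sum_apply]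
      rfl
    have hstab : ∀ k : ℕ, k.Coprime (Nat.card G) → ∀ g : G, F (g ^ k) = F g := by
      intro k hk g
      rw [hFv, hFv]
      have hinj : Function.Injective (powIrr hk : IrrCharacter G → IrrCharacter G) := by
        intro χ χ' h
        apply Subtype.ext
        funext y
        obtain ⟨y', rfl⟩ := (powCoprime hk.symm).surjective y
        have h2 := congrFun (congrArg Subtype.val h) y'
        exact h2
      have hsurj := Finite.injective_iff_surjective.1 hinj
      refine Finset.sum_bij (fun χ _ => powIrr hk χ) ?_ ?_ ?_ ?_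
      · intro χ hχ
        rw [hmem] at hχ ⊢
        exact (powIrr_mem_principal_iff hpM hk χ).2 hχ
      · intro χ _ χ' _ h
        exact hinj h
      · intro χ' hχ'
        obtain ⟨χ, rfl⟩ := hsurj χ'
        refine ⟨χ, ?_, rfl⟩
        rw [hmem] at hχ' ⊢
        exact (powIrr_mem_principal_iff hpM hk χ).1 hχ'
      · intro χ _
        rfl
    obtain ⟨z, hz⟩ := Helper24.char_int_of_pow_stable hFc hstab x
    have hS : ∑ᶠ χ ∈ principalBlock M G, Complex.normSq ((χ : G → ℂ) x)
        = ∑ χ ∈ s, Complex.normSq ((χ : G → ℂ) x) := by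
      rw [pns_finsum_ite, hs, Finset.sum_filter]
    have hSz : (∑ χ ∈ s, Complex.normSq ((χ : G → ℂ) x) : ℝ) = (z : ℝ) := by
      have h1 : ((∑ χ ∈ s, Complex.normSq ((χ : G → ℂ) x) : ℝ) : ℂ) = ((z : ℝ) : ℂ) := by
        rw [Complex.ofReal_sum, Complex.ofReal_intCast, ← hz, hFv]
        exact Finset.sum_congr rfl fun χ _ => (Complex.mul_conj _).symm
      exact Complex.ofReal_injective h1
    have hone : (1 : ℝ) ≤ ∑ χ ∈ s, Complex.normSq ((χ : G → ℂ) x) := by
      have h1 : oneIrr G ∈ s := (hmem _).2 (mem_blockOf_self hM.ne_top (oneIrr G))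
      have h2 := Finset.single_le_sum
        (f := fun χ : IrrCharacter G => Complex.normSq ((χ : G → ℂ) x))
        (fun χ _ => Complex.normSq_nonneg _) h1
      simpa [oneIrr_apply] using h2
    rw [hSz] at hone
    have hz1 : (1 : ℤ) ≤ z := by exact_mod_cast hone
    refine ⟨z.toNat, by omega, ?_⟩
    rw [hS, hSz]
    have h3 : ((z.toNat : ℤ) : ℝ) = (z : ℝ) := by
      rw [Int.toNat_of_nonneg (by omega)]
    exact_mod_cast h3.symm
  · have hdeg : ∀ ψ : IrrCharacter (G ⧸ K),
        charDegree ((inflIrr K ψ : IrrCharacter G) : G → ℂ)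
          = charDegree (ψ : G ⧸ K → ℂ) := by
      intro ψ
      unfold charDegree
      rw [inflIrr_coe]
      simp only [Function.comp_apply, QuotientGroup.mk_one]
    have e5 : ∑ᶠ χ ∈ principalBlock M G, charDegree (χ : G → ℂ) ^ 2
        = ∑ ψ : IrrCharacter (G ⧸ K), if ψ ∈ principalBlock M (G ⧸ K)
            then charDegree (ψ : G ⧸ K → ℂ) ^ 2 else 0 := by
      rw [← finsum_mem_eq_sum_ite_nat]
      exact (finsum_mem_eq_of_bijOn (inflIrr K) hbij (fun ψ _ => by rw [hdeg])).symm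
    have e6 : ∑ ψ : IrrCharacter (G ⧸ K), charDegree (ψ : G ⧸ K → ℂ) ^ 2 = K.index := by
      have h1 := Helper2.sum_degree_sq (G := G ⧸ K)
      have h2 : ∀ ψ : IrrCharacter (G ⧸ K),
          (ψ : G ⧸ K → ℂ) 1 = (charDegree (ψ : G ⧸ K → ℂ) : ℂ) :=
        fun ψ => Helper24.charDegree_spec (Helper24.isCharacter_of_irr ψ.2)
      simp only [h2] at h1
      rw [Subgroup.index_eq_card]
      have h3 : ((∑ ψ : IrrCharacter (G ⧸ K), charDegree (ψ : G ⧸ K → ℂ) ^ 2 : ℕ) : ℂ)
          = (Nat.card (G ⧸ K) : ℂ) := by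
        rw [← h1]
        push_cast
        refine Finset.sum_congr rfl fun ψ _ => ?_
        ring
      exact_mod_cast h3
    rw [e5, ← e6]
    have hle : ∀ ψ ∈ (Finset.univ : Finset (IrrCharacter (G ⧸ K))),
        (if ψ ∈ principalBlock M (G ⧸ K) then charDegree (ψ : G ⧸ K → ℂ) ^ 2 else 0)
          ≤ charDegree (ψ : G ⧸ K → ℂ) ^ 2 := by
      intro ψ _
      split_ifs
      · exact le_refl _
      · exact Nat.zero_le _
    rw [Finset.sum_eq_sum_iff_of_le hle]
    constructor
    · intro h B hB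
      obtain ⟨χ₁, rfl⟩ := hB
      have h1 := h χ₁ (Finset.mem_univ _)
      have hχ₁ : χ₁ ∈ principalBlock M (G ⧸ K) := by
        by_contra hn
        rw [if_neg hn] at h1
        have hpos := Helper24.irr_degree_pos χ₁.2
        have h2 : charDegree (χ₁ : G ⧸ K → ℂ) ^ 2 = 0 := h1.symm
        have h3 : charDegree (χ₁ : G ⧸ K → ℂ) = 0 := by
          rcases Nat.eq_zero_or_pos (charDegree (χ₁ : G ⧸ K → ℂ)) with h | h
          · exact h
          · exact absurd h2 (Nat.pos_iff_ne_zero.1 (Nat.pow_pos h))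
        omega
      exact (blockOf_eq_of_mem hM hχ₁).symm
    · intro h ψ _
      have h1 : blockOf M (ψ : G ⧸ K → ℂ) = principalBlock M (G ⧸ K) := h _ ⟨ψ, rfl⟩
      have h2 : ψ ∈ principalBlock M (G ⧸ K) := by
        rw [← h1]
        exact mem_blockOf_self hM.ne_top ψ
      rw [if_pos h2]

end PrincipalNormSq

end Cfsg.Agent.Helper6
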