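import Cfsg.Agent.Helper25.BlockThird
import Cfsg.Agent.Helper25.BlockCover
import Cfsg.Agent.Helper25.BlockDegSq
import Cfsg.Agent.Helper24.PermChar2
import Cfsg.Agent.Helper2.CharNat
import Cfsg.Agent.Helper6.ConjChar
import Cfsg.Agent.S0964

set_option autoImplicit false
set_option linter.unusedSectionVars false

/-!
# Sums of squared degrees over principal blocks of a group and a normal subgroup (helper6)
-/

namespace Cfsg.Agent.Helper6

open Cfsg Cfsg.Agent.Helper25
open scoped ComplexConjugate

/-- The counting core: multiplicities `m`, degrees `d`, `e`, and two sets linked by `m`. -/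
theorem psq_comb {α β : Type*} [Fintype α] [Fintype β] (A : Set α) (B : Set β)
    [DecidablePred (· ∈ A)] [DecidablePred (· ∈ B)]
    (m : α → β → ℕ) (d : α → ℕ) (e : β → ℕ) (n : ℕ)
    (F1 : ∀ a, d a = ∑ b, m a b * e b)
    (F2 : ∀ b, ∑ a, m a b * d a = n * e b)
    (F3 : ∀ a ∈ A, ∀ b, m a b ≠ 0 → b ∈ B)
    (F4 : ∀ b ∈ B, ∃ a ∈ A, m a b ≠ 0) :
    (∑ b, if b ∈ B then e b ^ 2 else 0) ≤ (∑ a, if a ∈ A then d a ^ 2 else 0) ∧
    (∑ a, if a ∈ A then d a ^ 2 else 0) ≤ n * ∑ b, if b ∈ B then e b ^ 2 else 0 := by
  constructor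
  · have step1 : ∀ b, (if b ∈ B then e b ^ 2 else 0)
        ≤ ∑ a, if a ∈ A then m a b * e b ^ 2 else 0 := by
      intro b
      by_cases hb : b ∈ B
      · rw [if_pos hb]
        obtain ⟨a₀, ha₀, hm⟩ := F4 b hb
        calc e b ^ 2 ≤ m a₀ b * e b ^ 2 := Nat.le_mul_of_pos_left _ (Nat.pos_of_ne_zero hm)
          _ = (if a₀ ∈ A then m a₀ b * e b ^ 2 else 0) := by rw [if_pos ha₀]
          _ ≤ ∑ a, if a ∈ A then m a b * e b ^ 2 else 0 :=
            Finset.single_le_sum (f := fun a => if a ∈ A then m a b * e b ^ 2 else 0)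
              (fun _ _ => Nat.zero_le _) (Finset.mem_univ a₀)
      · rw [if_neg hb]
        exact Nat.zero_le _
    have step2 : ∀ a b, m a b * e b ^ 2 ≤ m a b * e b * d a := by
      intro a b
      by_cases hm : m a b = 0
      · rw [hm]
        simp
      · have h1 : m a b * e b ≤ d a := by
          rw [F1 a]
          exact Finset.single_le_sum (f := fun b => m a b * e b)
            (fun _ _ => Nat.zero_le _) (Finset.mem_univ b)
        have h2 : e b ≤ d a :=
          le_trans (Nat.le_mul_of_pos_left _ (Nat.pos_of_ne_zero hm)) h1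
        calc m a b * e b ^ 2 = m a b * e b * e b := by ring
          _ ≤ m a b * e b * d a := Nat.mul_le_mul_left _ h2
    calc (∑ b, if b ∈ B then e b ^ 2 else 0)
        ≤ ∑ b, ∑ a, if a ∈ A then m a b * e b ^ 2 else 0 :=
          Finset.sum_le_sum fun b _ => step1 b
      _ = ∑ a, ∑ b, if a ∈ A then m a b * e b ^ 2 else 0 := Finset.sum_comm
      _ ≤ ∑ a, if a ∈ A then d a ^ 2 else 0 := by
          refine Finset.sum_le_sum fun a _ => ?_
          by_cases ha : a ∈ A
          · simp only [if_pos ha]
            calc (∑ b, m a b * e b ^ 2) ≤ ∑ b, m a b * e b * d a :=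
                  Finset.sum_le_sum fun b _ => step2 a b
              _ = (∑ b, m a b * e b) * d a := by rw [Finset.sum_mul]
              _ = d a ^ 2 := by rw [← F1 a, sq]
          · simp only [if_neg ha]
            simp
  · have hterm : ∀ a, (if a ∈ A then d a ^ 2 else 0)
        ≤ ∑ b, if b ∈ B then m a b * d a * e b else 0 := by
      intro a
      by_cases ha : a ∈ A
      · rw [if_pos ha]
        have h1 : d a ^ 2 = ∑ b, d a * (m a b * e b) := by
          rw [← Finset.mul_sum, ← F1 a, sq]
        rw [h1]
        refine Finset.sum_le_sum fun b _ => ?_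
        by_cases hb : b ∈ B
        · rw [if_pos hb]
          exact le_of_eq (by ring)
        · rw [if_neg hb]
          have hm : m a b = 0 := by
            by_contra hm
            exact hb (F3 a ha b hm)
          rw [hm]
          simp
      · rw [if_neg ha]
        exact Nat.zero_le _
    calc (∑ a, if a ∈ A then d a ^ 2 else 0)
        ≤ ∑ a, ∑ b, if b ∈ B then m a b * d a * e b else 0 :=
          Finset.sum_le_sum fun a _ => hterm a
      _ = ∑ b, ∑ a, if b ∈ B then m a b * d a * e b else 0 := Finset.sum_comm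
      _ = ∑ b, if b ∈ B then n * e b ^ 2 else 0 := by
          refine Finset.sum_congr rfl fun b _ => ?_
          by_cases hb : b ∈ B
          · simp only [if_pos hb]
            rw [← Finset.sum_mul, F2 b]
            ring
          · simp only [if_neg hb]
            simp
      _ = n * ∑ b, if b ∈ B then e b ^ 2 else 0 := by
          rw [Finset.mul_sum]
          refine Finset.sum_congr rfl fun b _ => ?_
          split_ifs <;> simp

section PrincipalSq

variable {G : Type*} [Group G] [Fintype G] {M : Ideal AlgInt} {p : ℕ}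

/-- The squared degrees over the principal blocks of a group and of a normal subgroup. -/
theorem psq_main [Fact p.Prime] (hpM : IsPModular p M) (H : Subgroup G) [hHn : H.Normal]
    [Fintype H] [Fintype (IrrCharacter G)] [Fintype (IrrCharacter H)]
    [DecidablePred (· ∈ principalBlock M G)] [DecidablePred (· ∈ principalBlock M H)] :
    (∑ θ : IrrCharacter H, if θ ∈ principalBlock M H then charDegree (θ : H → ℂ) ^ 2 else 0)
      ≤ (∑ χ : IrrCharacter G,
          if χ ∈ principalBlock M G then charDegree (χ : G → ℂ) ^ 2 else 0) ∧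
    (∑ χ : IrrCharacter G, if χ ∈ principalBlock M G then charDegree (χ : G → ℂ) ^ 2 else 0)
      ≤ H.index * ∑ θ : IrrCharacter H,
          if θ ∈ principalBlock M H then charDegree (θ : H → ℂ) ^ 2 else 0 := by
  have hM := hpM.2.1.isPrime
  have hmex : ∀ (χ : IrrCharacter G) (θ : IrrCharacter H), ∃ m : ℕ,
      classInner (fun h : H => (χ : G → ℂ) h) (θ : H → ℂ) = (m : ℂ) :=
    fun χ θ => Helper2.classInner_char_nat
      (Helper24.isCharacter_restrict H (Helper24.isCharacter_of_irr χ.2))
      (Helper24.isCharacter_of_irr θ.2)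
  choose m hm using hmex
  have hdG : ∀ χ : IrrCharacter G, (χ : G → ℂ) 1 = (charDegree (χ : G → ℂ) : ℂ) :=
    fun χ => Helper24.charDegree_spec (Helper24.isCharacter_of_irr χ.2)
  have hdH : ∀ θ : IrrCharacter H, (θ : H → ℂ) 1 = (charDegree (θ : H → ℂ) : ℂ) :=
    fun θ => Helper24.charDegree_spec (Helper24.isCharacter_of_irr θ.2)
  have hHc : (Nat.card H : ℂ) ≠ 0 := by exact_mod_cast Nat.card_pos.ne'
  refine psq_comb (principalBlock M G) (principalBlock M H) m
    (fun χ => charDegree (χ : G → ℂ)) (fun θ => charDegree (θ : H → ℂ)) H.index ?_ ?_ ?_ ?_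
  · intro χ
    have hcl : IsClassFunction H (fun h : H => (χ : G → ℂ) h) := by
      intro g h
      exact (Helper2.IsIrrCharacter.isClassFunction χ.2) (g : G) (h : G)
    have h1 := congrFun (Helper2.class_fn_expansion hcl) 1
    rw [Finset.sum_apply] at h1
    simp only [Pi.smul_apply, smul_eq_mul, hm, hdH] at h1
    have h2 : (χ : G → ℂ) ((1 : H) : G) = (charDegree (χ : G → ℂ) : ℂ) := by
      rw [OneMemClass.coe_one]
      exact hdG χ
    rw [h2] at h1
    exact_mod_cast h1
  · intro θ
    have h1 : ∑ χ : IrrCharacter G, (m χ θ : ℂ) * (charDegree (χ : G → ℂ) : ℂ)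
        = (H.index : ℂ) * (charDegree (θ : H → ℂ) : ℂ) := by
      classical
      calc ∑ χ : IrrCharacter G, (m χ θ : ℂ) * (charDegree (χ : G → ℂ) : ℂ)
          = ∑ χ : IrrCharacter G, (Nat.card H : ℂ)⁻¹ * ∑ h : H,
              ((χ : G → ℂ) 1 * (χ : G → ℂ) h) * conj ((θ : H → ℂ) h) := by
            refine Finset.sum_congr rfl fun χ _ => ?_
            rw [← hm, ← hdG]
            unfold classInner
            rw [mul_assoc, Finset.sum_mul]
            congr 1
            refine Finset.sum_congr rfl fun h _ => ?_
            ring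
        _ = (Nat.card H : ℂ)⁻¹ * ∑ h : H,
              (∑ χ : IrrCharacter G, (χ : G → ℂ) 1 * (χ : G → ℂ) h)
                * conj ((θ : H → ℂ) h) := by
            rw [← Finset.mul_sum, Finset.sum_comm]
            congr 1
            refine Finset.sum_congr rfl fun h _ => ?_
            rw [Finset.sum_mul]
        _ = (Nat.card H : ℂ)⁻¹ * ∑ h : H,
              (if h = 1 then (Nat.card G : ℂ) else 0) * conj ((θ : H → ℂ) h) := by
            congr 1
            refine Finset.sum_congr rfl fun h _ => ?_
            rw [Helper24.irr_regular_sum]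
            congr 1
            exact if_congr (by simp) rfl rfl
        _ = (Nat.card H : ℂ)⁻¹ * ((Nat.card G : ℂ) * conj ((θ : H → ℂ) 1)) := by
            congr 1
            rw [Finset.sum_eq_single (1 : H)]
            · rw [if_pos rfl]
            · intro h _ hh
              rw [if_neg hh, zero_mul]
            · intro h
              exact absurd (Finset.mem_univ _) h
        _ = (H.index : ℂ) * (charDegree (θ : H → ℂ) : ℂ) := by
            rw [hdH, Complex.conj_natCast]
            have hci : (Nat.card G : ℂ) = (Nat.card H : ℂ) * (H.index : ℂ) := by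
              rw [← Nat.cast_mul, Subgroup.card_mul_index]
            rw [hci]
            field_simp
    exact_mod_cast h1
  · intro χ hχ θ hmne
    have hne : classInner (fun h : H => (χ : G → ℂ) h) (θ : H → ℂ) ≠ 0 := by
      rw [hm]
      exact_mod_cast hmne
    have hB₀G : IsPBlock M (principalBlock M G) := ⟨oneIrr G, rfl⟩
    have hB₀H : IsPBlock M (principalBlock M H) := ⟨oneIrr H, rfl⟩
    have hcon : classInner (fun n : H => ((oneIrr G : IrrCharacter G) : G → ℂ) n)
        ((oneIrr H : IrrCharacter H) : H → ℂ) ≠ 0 := by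
      unfold classInner
      simp only [oneIrr_apply, map_one, mul_one, Finset.sum_const, Finset.card_univ,
        nsmul_eq_mul]
      rw [← Nat.card_eq_fintype_card]
      exact mul_ne_zero (inv_ne_zero hHc) hHc
    obtain ⟨g, θ', hθ', hθeq⟩ := Cfsg.Agent.S0964.result p M hpM H (principalBlock M G) hB₀G
      (principalBlock M H) hB₀H (oneIrr G) (mem_blockOf_self hM.ne_top (oneIrr G))
      (oneIrr H) (mem_blockOf_self hM.ne_top (oneIrr H)) hcon χ hχ θ hne
    have h1 : SameBlock M (fun _ : H => (1 : ℂ)) (θ' : H → ℂ) := hθ'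
    have h2 := sameBlock_conjFun H g h1
    have h3 : Helper6.conjFun H g (fun _ : H => (1 : ℂ)) = fun _ : H => (1 : ℂ) := rfl
    have h4 : Helper6.conjFun H g (θ' : H → ℂ) = (θ : H → ℂ) := by
      funext n
      rw [Helper6.conjFun_apply]
      exact (hθeq n).symm
    rw [h3, h4] at h2
    exact h2
  · intro θ hθ
    by_contra hcon
    push Not at hcon
    obtain ⟨f, hf⟩ : ∃ f : G → ℂ, f = fun g => if p ∣ orderOf g then 0 else 1 := ⟨_, rfl⟩
    have hfcl : IsClassFunction G f := by
      intro g h
      rw [hf]
      simp only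
      have h1 : orderOf (h * g * h⁻¹) = orderOf g := (MulAut.conj h).orderOf_eq g
      rw [h1]
    have hexp := Helper2.class_fn_expansion hfcl
    obtain ⟨c, hc⟩ : ∃ c : IrrCharacter G → ℂ,
        c = fun (χ : IrrCharacter G) => classInner f (χ : G → ℂ) :=
      ⟨_, rfl⟩
    have hcoef : ∀ χ : IrrCharacter G, χ ∉ principalBlock M G → c χ = 0 := by
      intro χ hχ
      have h0 := regSum_eq_zero hpM χ hχ
      rw [hc]
      simp only
      unfold classInner
      have h1 : ∑ g : G, f g * conj ((χ : G → ℂ) g)
          = conj (∑ g : G, if p ∣ orderOf g then 0 else (χ : G → ℂ) g) := by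
        rw [map_sum]
        refine Finset.sum_congr rfl fun g _ => ?_
        rw [hf]
        simp only
        split_ifs <;> simp
      rw [h1, h0, map_zero, mul_zero]
    have hfh : ∀ h : H, f h = ∑ χ : IrrCharacter G, c χ * (χ : G → ℂ) h := by
      intro h
      have h1 := congrFun hexp (h : G)
      rw [Finset.sum_apply] at h1
      simp only [Pi.smul_apply, smul_eq_mul] at h1
      rw [hc]
      exact h1
    have hm' : ∀ χ : IrrCharacter G,
        (Nat.card H : ℂ)⁻¹ * ∑ h : H, (χ : G → ℂ) h * conj ((θ : H → ℂ) h) = (m χ θ : ℂ) :=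
      fun χ => hm χ θ
    have hsum : (Nat.card H : ℂ)⁻¹ * ∑ h : H, f h * conj ((θ : H → ℂ) h) = 0 := by
      calc (Nat.card H : ℂ)⁻¹ * ∑ h : H, f h * conj ((θ : H → ℂ) h)
          = (Nat.card H : ℂ)⁻¹ * ∑ h : H, ∑ χ : IrrCharacter G,
              c χ * ((χ : G → ℂ) h * conj ((θ : H → ℂ) h)) := by
            congr 1
            refine Finset.sum_congr rfl fun h _ => ?_
            rw [hfh h, Finset.sum_mul]
            refine Finset.sum_congr rfl fun χ _ => ?_
            ring
        _ = ∑ χ : IrrCharacter G, c χ * ((Nat.card H : ℂ)⁻¹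
              * ∑ h : H, (χ : G → ℂ) h * conj ((θ : H → ℂ) h)) := by
            rw [Finset.sum_comm, Finset.mul_sum]
            refine Finset.sum_congr rfl fun χ _ => ?_
            rw [← Finset.mul_sum]
            ring
        _ = 0 := by
            refine Finset.sum_eq_zero fun χ _ => ?_
            rw [hm' χ]
            by_cases hχ : χ ∈ principalBlock M G
            · rw [hcon χ hχ]
              simp
            · rw [hcoef χ hχ, zero_mul]
    have hreg : ∑ h : H, f h * conj ((θ : H → ℂ) h)
        = conj (∑ h : H, if p ∣ orderOf h then 0 else (θ : H → ℂ) h) := by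
      rw [map_sum]
      refine Finset.sum_congr rfl fun h _ => ?_
      rw [hf]
      simp only
      rw [Subgroup.orderOf_coe]
      split_ifs <;> simp
    rw [hreg] at hsum
    have hS : (∑ h : H, if p ∣ orderOf h then 0 else (θ : H → ℂ) h) = 0 := by
      rcases mul_eq_zero.1 hsum with h | h
      · exact absurd h (inv_ne_zero hHc)
      · exact (map_eq_zero _).1 h
    have hmem := (mem_principal_iff hpM θ).1 hθ
    apply hmem
    rw [regSum_div, hS, zero_div]
    exact MemLocalIdeal.zero hM.ne_top

end PrincipalSq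

end Cfsg.Agent.Helper6
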