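import Cfsg.Agent.Helper25.BlockQuot
import Cfsg.Agent.Helper25.DefectConj
import Cfsg.Agent.Helper25.BlockMinMax3
import Cfsg.Agent.Helper25.BlockOrth2
import Cfsg.Agent.Helper25.BlockIdem
import Cfsg.Agent.Helper24.ClassSum

set_option autoImplicit false
set_option linter.unusedSectionVars false

/-!
# Defect groups of blocks of a quotient by a normal `p`-subgroup (helper6)
-/

namespace Cfsg.Agent.Helper6

open Cfsg Cfsg.Agent.Helper25
open scoped ComplexConjugate

section QuotDefect

variable {G : Type*} [Group G] [Fintype G] {M : Ideal AlgInt} {p : ℕ}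

/-- Sums of an irreducible character over a coset of a normal subgroup. -/
theorem qd_sum_coset {χ : G → ℂ} (hχ : IsIrrCharacter G χ) (N : Subgroup G) [hN : N.Normal]
    [Fintype N] (x : G) :
    χ 1 * ∑ n : N, χ (x * n) = χ x * ∑ n : N, χ n := by
  have hG : (Nat.card G : ℂ) ≠ 0 := by
    have : 0 < Nat.card G := Nat.card_pos
    exact_mod_cast this.ne'
  have h1 : ∀ t : G, ∑ n : N, χ (x * (t * n * t⁻¹)) = ∑ n : N, χ (x * n) := by
    intro t
    have h := Equiv.sum_comp (MulAut.conjNormal t : N ≃* N).toEquiv (fun n : N => χ (x * n))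
    rw [← h]
    refine Finset.sum_congr rfl fun n _ => ?_
    rfl
  have h2 : ∑ n : N, χ 1 * ∑ t : G, χ (x * (t * n * t⁻¹))
      = ∑ n : N, (Nat.card G : ℂ) * χ x * χ n :=
    Finset.sum_congr rfl fun n _ => Helper24.irr_class_sum_formula hχ x n
  rw [← Finset.mul_sum, Finset.sum_comm, Finset.sum_congr rfl (fun t _ => h1 t), Finset.sum_const,
    Finset.card_univ, ← Nat.card_eq_fintype_card, nsmul_eq_mul, ← Finset.mul_sum] at h2
  have h3 : (Nat.card G : ℂ) * (χ 1 * ∑ n : N, χ (x * n))
      = (Nat.card G : ℂ) * (χ x * ∑ n : N, χ n) := by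
    linear_combination h2
  exact mul_left_cancel₀ hG h3

/-- The sum of an irreducible character over a coset of a normal subgroup not in its kernel
vanishes. -/
theorem qd_coset_sum_zero (N : Subgroup G) [hN : N.Normal] [Fintype N] (χ : IrrCharacter G)
    (hχ : ¬ ∀ n ∈ N, (χ : G → ℂ) n = (χ : G → ℂ) 1) (x : G) :
    ∑ n : N, (χ : G → ℂ) (x * n) = 0 := by
  have hNc : (Nat.card N : ℂ) ≠ 0 := by
    have : 0 < Nat.card N := Nat.card_pos
    exact_mod_cast this.ne'
  have hz : ∑ q : N, (χ : G → ℂ) q = 0 := by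
    rw [← over_one_iff N χ, not_not] at hχ
    unfold classInner at hχ
    rcases mul_eq_zero.1 hχ with h | h
    · exact absurd (inv_eq_zero.1 h) hNc
    · refine Eq.trans (Finset.sum_congr rfl fun q _ => ?_) h
      rw [oneIrr_apply, map_one, mul_one]
  have h1 := qd_sum_coset χ.2 N x
  rw [hz, mul_zero] at h1
  rcases mul_eq_zero.1 h1 with h | h
  · exact absurd h (Helper24.irr_one_ne_zero χ.2)
  · exact h

/-- Summing a block idempotent over a coset of a normal subgroup gives the idempotent of the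
characters of the quotient inflating into the block. -/
theorem qd_blockCoeff_sum (N : Subgroup G) [hN : N.Normal] [Fintype N]
    (B : Set (IrrCharacter G)) (x : G) :
    ∑ n : N, blockCoeff B (x * n)
      = blockCoeff {β : IrrCharacter (G ⧸ N) | inflIrr N β ∈ B}
          (QuotientGroup.mk x : G ⧸ N) := by
  classical
  have := Helper24.finite_irrCharacter (G := G)
  have : Fintype (IrrCharacter G) := Fintype.ofFinite _
  have := Helper24.finite_irrCharacter (G := G ⧸ N)
  have : Fintype (IrrCharacter (G ⧸ N)) := Fintype.ofFinite _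
  have hcard : (Nat.card G : ℂ) = (Nat.card (G ⧸ N) : ℂ) * (Nat.card N : ℂ) := by
    rw [← Nat.cast_mul, ← Subgroup.card_eq_card_quotient_mul_card_subgroup N]
  have hNc : (Nat.card N : ℂ) ≠ 0 := by
    have : 0 < Nat.card N := Nat.card_pos
    exact_mod_cast this.ne'
  have hQc : (Nat.card (G ⧸ N) : ℂ) ≠ 0 := by
    have : 0 < Nat.card (G ⧸ N) := Nat.card_pos
    exact_mod_cast this.ne'
  have key : ∑ β : IrrCharacter (G ⧸ N), (Nat.card N : ℂ)
        * (if β ∈ {β : IrrCharacter (G ⧸ N) | inflIrr N β ∈ B} then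
            (β : G ⧸ N → ℂ) 1 * conj ((β : G ⧸ N → ℂ) (QuotientGroup.mk x)) else 0)
      = ∑ χ : IrrCharacter G, ∑ n : N,
          (if χ ∈ B then (χ : G → ℂ) 1 * conj ((χ : G → ℂ) (x * n)) else 0) := by
    refine Fintype.sum_of_injective (inflIrr N) ?_ _ _ ?_ ?_
    · intro β β' h
      apply Subtype.ext
      funext q
      obtain ⟨g, rfl⟩ := QuotientGroup.mk_surjective q
      exact congrArg (fun χ : IrrCharacter G => (χ : G → ℂ) g) h
    · intro χ hχ
      by_cases hB : χ ∈ B
      · simp only [if_pos hB]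
        rw [← Finset.mul_sum, ← map_sum]
        have hk : ¬ ∀ n ∈ N, (χ : G → ℂ) n = (χ : G → ℂ) 1 := by
          intro hk
          obtain ⟨β, hβ⟩ := exists_deflation_of_ker N χ hk
          exact hχ ⟨β, Subtype.ext hβ.symm⟩
        rw [qd_coset_sum_zero N χ hk x, map_zero, mul_zero]
      · simp only [if_neg hB, Finset.sum_const_zero]
    · intro β
      by_cases hB : inflIrr N β ∈ B
      · rw [if_pos (show β ∈ {β : IrrCharacter (G ⧸ N) | inflIrr N β ∈ B} from hB)]
        simp only [if_pos hB]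
        rw [← Finset.mul_sum, ← map_sum]
        have hs : ∑ n : N, (inflIrr N β : G → ℂ) (x * n)
            = (Nat.card N : ℂ) * (β : G ⧸ N → ℂ) (QuotientGroup.mk x) := by
          have hn : ∀ n : N, (inflIrr N β : G → ℂ) (x * n)
              = (β : G ⧸ N → ℂ) (QuotientGroup.mk x) := by
            intro n
            rw [inflIrr_coe, Function.comp_apply]
            congr 1
            rw [QuotientGroup.mk_mul, (QuotientGroup.eq_one_iff (n : G)).2 n.2, mul_one]
          rw [Finset.sum_congr rfl (fun n _ => hn n), Finset.sum_const, Finset.card_univ,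
            ← Nat.card_eq_fintype_card, nsmul_eq_mul]
        rw [hs, map_mul, Complex.conj_natCast]
        have h1 : (inflIrr N β : G → ℂ) 1 = (β : G ⧸ N → ℂ) 1 := by
          rw [inflIrr_coe, Function.comp_apply, QuotientGroup.mk_one]
        rw [h1]
        ring
      · rw [if_neg (show ¬ β ∈ {β : IrrCharacter (G ⧸ N) | inflIrr N β ∈ B} from hB)]
        simp only [if_neg hB, Finset.sum_const_zero, mul_zero]
  unfold blockCoeff
  rw [← Finset.mul_sum]
  simp_rw [finsum_mem_eq_sum_ite]
  rw [Finset.sum_comm, ← key, ← Finset.mul_sum, hcard]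
  field_simp

/-- Additivity of idempotent coefficients over disjoint sets of characters. -/
theorem qd_blockCoeff_union (S T : Set (IrrCharacter G)) (hST : Disjoint S T) (y : G) :
    blockCoeff (S ∪ T) y = blockCoeff S y + blockCoeff T y := by
  have := Helper24.finite_irrCharacter (G := G)
  unfold blockCoeff
  rw [finsum_mem_union hST (Set.toFinite S) (Set.toFinite T), mul_add]

/-- A union of blocks whose idempotent coefficient at `y` is a unit contains a block with the
same property. -/
theorem qd_union (hM : M.IsPrime) (y : G) :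
    ∀ (n : ℕ) (U : Set (IrrCharacter G)), U.ncard = n →
      (∀ χ ∈ U, ∀ ψ : IrrCharacter G, SameBlock M (χ : G → ℂ) (ψ : G → ℂ) → ψ ∈ U) →
      ¬ MemLocalIdeal M (blockCoeff U y) →
      ∃ χ ∈ U, ¬ MemLocalIdeal M (blockCoeff (blockOf M (χ : G → ℂ)) y) := by
  have := Helper24.finite_irrCharacter (G := G)
  intro n
  induction n using Nat.strong_induction_on with
  | _ n ih =>
    intro U hn hcl hU
    have hne : U.Nonempty := by
      by_contra h
      rw [Set.not_nonempty_iff_eq_empty] at h
      apply hU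
      rw [h]
      unfold blockCoeff
      rw [finsum_mem_empty, mul_zero]
      exact MemLocalIdeal.zero hM.ne_top
    obtain ⟨χ, hχ⟩ := hne
    by_cases hc : MemLocalIdeal M (blockCoeff (blockOf M (χ : G → ℂ)) y)
    · have hsub : blockOf M (χ : G → ℂ) ⊆ U := fun ψ hψ => hcl χ hχ ψ hψ
      have hdisj : Disjoint (blockOf M (χ : G → ℂ)) (U \ blockOf M (χ : G → ℂ)) :=
        Set.disjoint_sdiff_right
      have hUeq : U = blockOf M (χ : G → ℂ) ∪ (U \ blockOf M (χ : G → ℂ)) := by
        rw [Set.union_sdiff_cancel hsub]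
      have hU' : ¬ MemLocalIdeal M (blockCoeff (U \ blockOf M (χ : G → ℂ)) y) := by
        intro h
        apply hU
        rw [hUeq, qd_blockCoeff_union _ _ hdisj]
        exact MemLocalIdeal.add hM hc h
      have hlt : (U \ blockOf M (χ : G → ℂ)).ncard < n := by
        rw [← hn]
        apply Set.ncard_lt_ncard _ (Set.toFinite U)
        refine ⟨Set.sdiff_subset, fun h => ?_⟩
        exact (h hχ).2 (mem_blockOf_self hM.ne_top χ)
      obtain ⟨χ', hχ', hres⟩ := ih _ hlt (U \ blockOf M (χ : G → ℂ)) rfl (by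
        intro ψ hψ ψ' hs
        refine ⟨hcl ψ hψ.1 ψ' hs, fun h => hψ.2 ?_⟩
        exact sameBlock_trans hM h (sameBlock_symm hs)) hU'
      exact ⟨χ', hχ'.1, hres⟩
    · exact ⟨χ, hχ, hc⟩

/-- The quotient of a block by a normal `p`-subgroup. -/
theorem qd_main [Fact p.Prime] (hpM : IsPModular p M) (N : Subgroup G) [hNn : N.Normal]
    (hN : IsPGroup p N) (B : Set (IrrCharacter G)) (hB : IsPBlock M B) :
    ∃ Bbar : Set (IrrCharacter (G ⧸ N)), IsPBlock M Bbar ∧
      (∀ χ ∈ Bbar, ∀ ψ : IrrCharacter G,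
        (ψ : G → ℂ) = (χ : G ⧸ N → ℂ) ∘ QuotientGroup.mk → ψ ∈ B) ∧
      ∀ Dbar : Subgroup (G ⧸ N), IsDefectGroup p M Bbar Dbar ↔
        ∃ P : Subgroup G, IsDefectGroup p M B P ∧ Dbar = P.map (QuotientGroup.mk' N) := by
  classical
  have hM := hpM.2.1.isPrime
  have hp := hpM.1
  have : Fintype N := Fintype.ofFinite _
  have : Fintype (G ⧸ N) := Fintype.ofFinite _
  obtain ⟨x, hdc⟩ := exists_defectClass hM hB
  have hxreg : ¬ p ∣ orderOf x := by
    intro h
    apply hdc.2.1
    rw [osima hpM hB x h]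
    exact MemLocalIdeal.zero hM.ne_top
  have hxC : x ∈ Subgroup.centralizer (N : Set G) := by
    by_contra h
    apply hdc.2.1
    rw [blockCoeff_eq_zero_of_not_centralizer hpM N hN hB x h]
    exact MemLocalIdeal.zero hM.ne_top
  have hsum : ∑ n : N, blockCoeff B (x * n) = blockCoeff B x := by
    rw [Finset.sum_eq_single (1 : N)]
    · rw [OneMemClass.coe_one, mul_one]
    · intro n _ hn
      apply osima hpM hB
      obtain ⟨k, hk⟩ := (IsPGroup.iff_orderOf.1 hN) n
      have hk0 : k ≠ 0 := by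
        rintro rfl
        rw [pow_zero, orderOf_eq_one_iff] at hk
        exact hn hk
      have hcomm : Commute x (n : G) := (hxC (n : G) n.2).symm
      have hcop : (orderOf x).Coprime (orderOf (n : G)) := by
        rw [Subgroup.orderOf_coe, hk]
        exact Nat.Coprime.pow_right k ((Nat.Prime.coprime_iff_not_dvd hp).2 hxreg).symm
      rw [hcomm.orderOf_mul_eq_mul_orderOf_of_coprime hcop, Subgroup.orderOf_coe, hk]
      exact Dvd.dvd.mul_left (dvd_pow_self p hk0) _
    · intro h
      exact absurd (Finset.mem_univ _) h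
  obtain ⟨U, hUdef⟩ : ∃ U : Set (IrrCharacter (G ⧸ N)), U = {β | inflIrr N β ∈ B} := ⟨_, rfl⟩
  have hU : blockCoeff U (QuotientGroup.mk x : G ⧸ N) = blockCoeff B x := by
    rw [hUdef, ← qd_blockCoeff_sum N B x, hsum]
  have hUcl : ∀ β ∈ U, ∀ β' : IrrCharacter (G ⧸ N),
      SameBlock M (β : G ⧸ N → ℂ) (β' : G ⧸ N → ℂ) → β' ∈ U := by
    intro β hβ β' hs
    rw [hUdef] at hβ ⊢
    have h1 := sameBlock_inflate hM N β β' hs
    obtain ⟨χ₀, rfl⟩ := id hB
    exact sameBlock_trans hM (mem_blockOf.1 hβ) h1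
  have hUn : ¬ MemLocalIdeal M (blockCoeff U (QuotientGroup.mk x : G ⧸ N)) := by
    rw [hU]
    exact hdc.2.1
  obtain ⟨β, hβU, hβc⟩ := qd_union hM (QuotientGroup.mk x : G ⧸ N) _ U rfl hUcl hUn
  have hBbar : IsPBlock M (blockOf M (β : G ⧸ N → ℂ)) := ⟨β, rfl⟩
  have hinB : ∀ χ ∈ blockOf M (β : G ⧸ N → ℂ), inflIrr N χ ∈ B := by
    intro χ hχ
    have h := hUcl β hβU χ hχ
    rw [hUdef] at h
    exact h
  have hfib := fibIdx_eq_one N hN x hxC hxreg
  have hdcbar : IsDefectClass M (blockOf M (β : G ⧸ N → ℂ)) (QuotientGroup.mk x : G ⧸ N) := by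
    refine ⟨blockCoeff_memLocalRing hM hBbar _, hβc, ?_⟩
    intro χ hχ
    have h1 := hdc.2.2 (inflIrr N χ) (hinB χ hχ)
    rw [inflIrr_coe, centralChar_inflate, hfib, Nat.cast_one, one_mul] at h1
    exact h1
  obtain ⟨P₀⟩ : Nonempty (Sylow p (Subgroup.centralizer ({x} : Set G))) := inferInstance
  have hD : IsDefectGroup p M B ((P₀ : Subgroup (Subgroup.centralizer ({x} : Set G))).map
      (Subgroup.centralizer ({x} : Set G)).subtype) := ⟨x, hdc, P₀, rfl⟩
  have hcod : ∀ c : Subgroup.centralizer ({x} : Set G),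
      ((QuotientGroup.mk' N).comp (Subgroup.centralizer ({x} : Set G)).subtype) c
        ∈ Subgroup.centralizer ({(QuotientGroup.mk x : G ⧸ N)} : Set (G ⧸ N)) :=
    fun c => centralizer_le_comap N x c.2
  obtain ⟨f, hf⟩ : ∃ f : Subgroup.centralizer ({x} : Set G) →*
      Subgroup.centralizer ({(QuotientGroup.mk x : G ⧸ N)} : Set (G ⧸ N)),
      f = ((QuotientGroup.mk' N).comp (Subgroup.centralizer ({x} : Set G)).subtype).codRestrict
        _ hcod := ⟨_, rfl⟩
  have hfsurj : Function.Surjective f := by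
    intro c
    obtain ⟨g, hg⟩ := QuotientGroup.mk'_surjective N (c : G ⧸ N)
    have hgC : g ∈ Subgroup.centralizer ({x} : Set G) := by
      have h1 : (Subgroup.centralizer ({x} : Set G)).relIndex
          ((Subgroup.centralizer ({(QuotientGroup.mk' N x)} : Set (G ⧸ N))).comap
            (QuotientGroup.mk' N)) = 1 := hfib
      rw [Subgroup.relIndex_eq_one] at h1
      apply h1
      rw [Subgroup.mem_comap, hg]
      exact c.2
    refine ⟨⟨g, hgC⟩, ?_⟩
    apply Subtype.ext
    rw [hf]
    exact hg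
  have hDbar : IsDefectGroup p M (blockOf M (β : G ⧸ N → ℂ))
      (((P₀ : Subgroup (Subgroup.centralizer ({x} : Set G))).map
        (Subgroup.centralizer ({x} : Set G)).subtype).map (QuotientGroup.mk' N)) := by
    refine ⟨QuotientGroup.mk x, hdcbar, P₀.mapSurjective hfsurj, ?_⟩
    rw [Sylow.coe_mapSurjective, Subgroup.map_map, Subgroup.map_map, hf]
    rfl
  obtain ⟨D, hDdef⟩ : ∃ D : Subgroup G, D = (P₀ : Subgroup (Subgroup.centralizer ({x} : Set G))).map
      (Subgroup.centralizer ({x} : Set G)).subtype := ⟨_, rfl⟩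
  rw [← hDdef] at hD hDbar
  refine ⟨blockOf M (β : G ⧸ N → ℂ), hBbar, ?_, ?_⟩
  · intro χ hχ ψ hψ
    have h1 := hinB χ hχ
    have h2 : ψ = inflIrr N χ := Subtype.ext hψ
    rw [h2]
    exact h1
  · intro Dbar
    have hconjmap : ∀ (y : G) (E : Subgroup G),
        (E.map (MulAut.conj y).toMonoidHom).map (QuotientGroup.mk' N)
          = (E.map (QuotientGroup.mk' N)).map
              (MulAut.conj (QuotientGroup.mk' N y)).toMonoidHom := by
      intro y E
      rw [Subgroup.map_map, Subgroup.map_map]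
      congr 1
    constructor
    · intro hDb
      obtain ⟨ybar, hle⟩ := defectGroup_le_conj hpM hBbar hDbar hDb
      obtain ⟨y, rfl⟩ := QuotientGroup.mk'_surjective N ybar
      have hcard : Nat.card ((D.map (QuotientGroup.mk' N)).map
          (MulAut.conj (QuotientGroup.mk' N y)).toMonoidHom) ≤ Nat.card Dbar := by
        rw [Subgroup.card_map_of_injective (MulAut.conj (QuotientGroup.mk' N y)).injective,
          card_defectGroup hpM hBbar _ hDbar, card_defectGroup hpM hBbar _ hDb]
      have heq := Subgroup.eq_of_le_of_card_ge hle hcard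
      refine ⟨D.map (MulAut.conj y).toMonoidHom, isDefectGroup_conj hD y, ?_⟩
      rw [heq, hconjmap]
    · rintro ⟨P, hP, rfl⟩
      obtain ⟨y, hle⟩ := defectGroup_le_conj hpM hB hD hP
      have hcard : Nat.card (D.map (MulAut.conj y).toMonoidHom) ≤ Nat.card P := by
        rw [Subgroup.card_map_of_injective (MulAut.conj y).injective,
          card_defectGroup hpM hB _ hD, card_defectGroup hpM hB _ hP]
      have heq := Subgroup.eq_of_le_of_card_ge hle hcard
      rw [heq, hconjmap]
      exact isDefectGroup_conj hDbar _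

end QuotDefect

end Cfsg.Agent.Helper6
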