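import Cfsg.Agent.Helper25.BlockQuot
import Cfsg.Agent.Helper25.BlockMinMax2
import Cfsg.Agent.Helper25.BlockMinMax3
import Cfsg.Agent.Helper25.BlockIdem
import Cfsg.Agent.Helper17.Basic

set_option autoImplicit false
set_option linter.unusedSectionVars false

/-!
# Defect groups of a block of a quotient lie in images of defect groups (helper6)
-/

namespace Cfsg.Agent.Helper6

open Cfsg Cfsg.Agent.Helper25
open scoped ComplexConjugate

section QuotDefect2

variable {G : Type*} [Group G] [Fintype G] {M : Ideal AlgInt} {p : ℕ}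

/-- A defect group of a block of `G ⧸ N` contained in the block `B` of `G` lies in the image of
a defect group of `B`. -/
theorem qd2_main [Fact p.Prime] (hpM : IsPModular p M) (N : Subgroup G) [hNn : N.Normal]
    (Bbar : Set (IrrCharacter (G ⧸ N))) (hBbar : IsPBlock M Bbar) (B : Set (IrrCharacter G))
    (hB : IsPBlock M B)
    (hsub : ∀ χ ∈ Bbar, ∀ ψ : IrrCharacter G,
      (ψ : G → ℂ) = (χ : G ⧸ N → ℂ) ∘ QuotientGroup.mk → ψ ∈ B)
    (Dbar : Subgroup (G ⧸ N)) (hDbar : IsDefectGroup p M Bbar Dbar) :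
    ∃ P : Subgroup G, IsDefectGroup p M B P ∧ Dbar ≤ P.map (QuotientGroup.mk' N) := by
  classical
  have hM := hpM.2.1.isPrime
  have hp := hpM.1
  have : Fintype (G ⧸ N) := Fintype.ofFinite _
  obtain ⟨β, hβ⟩ : ∃ β : IrrCharacter (G ⧸ N), β ∈ Bbar := by
    obtain ⟨β, hBeq⟩ := id hBbar
    exact ⟨β, by rw [hBeq]; exact mem_blockOf_self hM.ne_top β⟩
  have hβB : inflIrr N β ∈ B := hsub β hβ (inflIrr N β) rfl
  have hclaim : ∀ k : G, IsDefectClass M B k →
      ¬ p ∣ fibIdx N k ∧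
        ¬ MemLocalIdeal M (centralChar (β : G ⧸ N → ℂ) (QuotientGroup.mk k : G ⧸ N)) := by
    intro k hk
    have h1 := hk.2.2 (inflIrr N β) hβB
    rw [inflIrr_coe, centralChar_inflate] at h1
    constructor
    · intro hdvd
      apply h1
      exact MemLocalIdeal.mul_right hM ((memLocalIdeal_natCast_iff hpM _).2 hdvd)
        (memLocalRing_of_isIntegral hM.ne_top (centralChar_isIntegral β _))
    · intro hmem
      apply h1
      exact MemLocalIdeal.mul_left hM (memLocalRing_natCast hM.ne_top _) hmem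
  obtain ⟨k, hk⟩ := exists_defectClass hM hB
  obtain ⟨xbar, hxdc, Qbar, hDeq⟩ := hDbar
  have hDp : IsPGroup p Dbar := by
    rw [hDeq]
    exact Qbar.isPGroup'.map _
  have hDle : Dbar ≤ Subgroup.centralizer ({xbar} : Set (G ⧸ N)) := by
    rw [hDeq]
    exact Subgroup.map_subtype_le _
  obtain ⟨ybar, hconj, hDy⟩ := minmax_core hpM hBbar β hβ (QuotientGroup.mk k) (hclaim k hk).2
    xbar hxdc.2.1 Dbar hDp hDle
  obtain ⟨cbar, hc⟩ := isConj_iff.1 hconj
  obtain ⟨c, rfl⟩ := QuotientGroup.mk_surjective cbar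
  obtain ⟨k', hk'def⟩ : ∃ k' : G, k' = c * k * c⁻¹ := ⟨_, rfl⟩
  have hk' : IsDefectClass M B k' := by
    rw [hk'def]
    exact isDefectClass_conj hk c
  have hyk' : ybar = (QuotientGroup.mk k' : G ⧸ N) := by
    rw [← hc, hk'def]
    simp
  rw [hyk'] at hDy
  have hfib := (hclaim k' hk').1
  obtain ⟨P₁⟩ : Nonempty (Sylow p (Subgroup.centralizer ({k'} : Set G))) := inferInstance
  obtain ⟨D', hD'def⟩ : ∃ D' : Subgroup G,
      D' = (P₁ : Subgroup (Subgroup.centralizer ({k'} : Set G))).map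
        (Subgroup.centralizer ({k'} : Set G)).subtype := ⟨_, rfl⟩
  have hD' : IsDefectGroup p M B D' := by
    rw [hD'def]
    exact ⟨k', hk', P₁, rfl⟩
  have hD'p : IsPGroup p D' := by
    rw [hD'def]
    exact P₁.isPGroup'.map _
  have hD'C : D' ≤ Subgroup.centralizer ({k'} : Set G) := by
    rw [hD'def]
    exact Subgroup.map_subtype_le _
  obtain ⟨C₁, hC₁def⟩ : ∃ C₁ : Subgroup G,
      C₁ = (Subgroup.centralizer ({(QuotientGroup.mk' N k')} : Set (G ⧸ N))).comap
        (QuotientGroup.mk' N) := ⟨_, rfl⟩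
  have hCC₁ : Subgroup.centralizer ({k'} : Set G) ≤ C₁ := by
    rw [hC₁def]
    exact centralizer_le_comap N k'
  have hrel : ¬ p ∣ D'.relIndex C₁ := by
    rw [← Subgroup.relIndex_mul_relIndex D' _ C₁ hD'C hCC₁]
    intro h
    rcases (Nat.Prime.dvd_mul hp).1 h with h | h
    · apply P₁.not_dvd_index
      have he : D'.subgroupOf (Subgroup.centralizer ({k'} : Set G))
          = (P₁ : Subgroup (Subgroup.centralizer ({k'} : Set G))) := by
        rw [hD'def]
        exact Subgroup.comap_map_eq_self_of_injective (Subgroup.subtype_injective _) _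
      have h2 : D'.relIndex (Subgroup.centralizer ({k'} : Set G))
          = (P₁ : Subgroup (Subgroup.centralizer ({k'} : Set G))).index := by
        show (D'.subgroupOf (Subgroup.centralizer ({k'} : Set G))).index = _
        rw [he]
      rw [← h2]
      exact h
    · apply hfib
      rw [hC₁def] at h
      exact h
  have hS₁p : IsPGroup p (D'.subgroupOf C₁) := hD'p.comap_subtype
  obtain ⟨S₁, hS₁⟩ : ∃ S₁ : Sylow p C₁, (S₁ : Subgroup C₁) = D'.subgroupOf C₁ :=
    ⟨hS₁p.toSylow hrel, rfl⟩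
  have hcod : ∀ g : C₁, ((QuotientGroup.mk' N).comp C₁.subtype) g
      ∈ Subgroup.centralizer ({(QuotientGroup.mk k' : G ⧸ N)} : Set (G ⧸ N)) := by
    intro g
    exact hC₁def.le g.2
  obtain ⟨f₁, hf₁⟩ : ∃ f₁ : C₁ →*
      Subgroup.centralizer ({(QuotientGroup.mk k' : G ⧸ N)} : Set (G ⧸ N)),
      f₁ = ((QuotientGroup.mk' N).comp C₁.subtype).codRestrict _ hcod := ⟨_, rfl⟩
  have hf₁surj : Function.Surjective f₁ := by
    intro q
    obtain ⟨g, hg⟩ := QuotientGroup.mk'_surjective N (q : G ⧸ N)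
    have hgC : g ∈ C₁ := by
      rw [hC₁def, Subgroup.mem_comap, hg]
      exact q.2
    refine ⟨⟨g, hgC⟩, ?_⟩
    apply Subtype.ext
    rw [hf₁]
    exact hg
  obtain ⟨Sbar, hSbar⟩ : ∃ Sbar : Sylow p
      (Subgroup.centralizer ({(QuotientGroup.mk k' : G ⧸ N)} : Set (G ⧸ N))),
      (Sbar : Subgroup (Subgroup.centralizer ({(QuotientGroup.mk k' : G ⧸ N)} : Set (G ⧸ N))))
        = (S₁ : Subgroup C₁).map f₁ := ⟨S₁.mapSurjective hf₁surj, rfl⟩
  have hQp : IsPGroup p (Dbar.subgroupOf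
      (Subgroup.centralizer ({(QuotientGroup.mk k' : G ⧸ N)} : Set (G ⧸ N)))) :=
    hDp.comap_subtype
  obtain ⟨cq, hcq⟩ := Helper17.exists_conj_le_sylow Sbar _ hQp
  obtain ⟨c₂, hc₂⟩ := QuotientGroup.mk'_surjective N (cq : G ⧸ N)
  refine ⟨D'.map (MulAut.conj c₂⁻¹).toMonoidHom, isDefectGroup_conj hD' _, ?_⟩
  intro d hd
  have hdC : d ∈ Subgroup.centralizer ({(QuotientGroup.mk k' : G ⧸ N)} : Set (G ⧸ N)) := hDy hd
  have hmem : (MulAut.conj cq).toMonoidHom ⟨d, hdC⟩
      ∈ (Sbar : Subgroup (Subgroup.centralizer ({(QuotientGroup.mk k' : G ⧸ N)} : Set (G ⧸ N)))) :=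
    hcq (Subgroup.mem_map_of_mem _ (Subgroup.mem_subgroupOf.2 hd))
  rw [hSbar, hS₁] at hmem
  obtain ⟨g, hgD, hg⟩ := hmem
  have hgD' : (g : G) ∈ D' := Subgroup.mem_subgroupOf.1 hgD
  have hval : (QuotientGroup.mk' N (g : G)) = (cq : G ⧸ N) * d * (cq : G ⧸ N)⁻¹ := by
    have h := congrArg (fun z : Subgroup.centralizer
      ({(QuotientGroup.mk k' : G ⧸ N)} : Set (G ⧸ N)) => (z : G ⧸ N)) hg
    rw [hf₁] at h
    simpa [MulAut.conj_apply] using h
  refine ⟨c₂⁻¹ * g * c₂, ⟨(g : G), hgD', by simp [MulAut.conj_apply]⟩, ?_⟩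
  rw [map_mul, map_mul, map_inv, hc₂, hval]
  group

end QuotDefect2

end Cfsg.Agent.Helper6
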