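import Mathlib
import Cfsg.Prelude.Def_ClassicalGeometry

set_option autoImplicit false

namespace Cfsg.Agent.Helper6.SpTorus

open Matrix

variable {m : ℕ} {F : Type*} [Field F]

/-- The sign of the standard symplectic form at a basis index. -/
def sg (m : ℕ) (F : Type*) [Field F] : Fin m ⊕ Fin m → F := Sum.elim (fun _ => -1) (fun _ => 1)

theorem sg_mul_self (a : Fin m ⊕ Fin m) : sg m F a * sg m F a = 1 := by
  cases a <;> simp [sg]

theorem sg_ne_zero (a : Fin m ⊕ Fin m) : sg m F a ≠ 0 := by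
  cases a <;> simp [sg]

theorem sg_swap (a : Fin m ⊕ Fin m) : sg m F (Sum.swap a) = - sg m F a := by
  cases a <;> simp [sg]

theorem spt_J_apply (a b : Fin m ⊕ Fin m) :
    Matrix.J (Fin m) F a b = if b = Sum.swap a then sg m F a else 0 := by
  rcases a with a | a <;> rcases b with b | b
  · simp [Matrix.J]
  · simp only [Matrix.J, sg, Matrix.fromBlocks_apply₁₂, Matrix.neg_apply, Matrix.one_apply,
      Sum.swap_inl, Sum.inr.injEq, Sum.elim_inl]
    by_cases h : a = b
    · rw [if_pos h, if_pos h.symm]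
    · rw [if_neg h, if_neg (Ne.symm h), neg_zero]
  · simp only [Matrix.J, sg, Matrix.fromBlocks_apply₂₁, Matrix.one_apply,
      Sum.swap_inr, Sum.inl.injEq, Sum.elim_inr]
    by_cases h : a = b
    · rw [if_pos h, if_pos h.symm]
    · rw [if_neg h, if_neg (Ne.symm h)]
  · simp [Matrix.J]

/-- Row-monomial matrices. -/
def monR (τ : Fin m ⊕ Fin m → Fin m ⊕ Fin m) (c : Fin m ⊕ Fin m → F) :
    Matrix (Fin m ⊕ Fin m) (Fin m ⊕ Fin m) F := fun i j => if j = τ i then c i else 0

theorem monR_J (τ : Fin m ⊕ Fin m → Fin m ⊕ Fin m) (c : Fin m ⊕ Fin m → F)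
    (a b : Fin m ⊕ Fin m) :
    (monR τ c * Matrix.J (Fin m) F * (monR τ c)ᵀ) a b =
      c a * c b * Matrix.J (Fin m) F (τ a) (τ b) := by
  simp only [Matrix.mul_apply, Matrix.transpose_apply, monR]
  simp only [ite_mul, zero_mul, mul_ite, mul_zero, Finset.sum_ite_eq', Finset.mem_univ, if_true]
  ring

theorem monR_symp_iff (τ : Fin m ⊕ Fin m → Fin m ⊕ Fin m) (hτ : Function.Injective τ)
    (c : Fin m ⊕ Fin m → F) :
    monR τ c ∈ Matrix.symplecticGroup (Fin m) F ↔
      (∀ a, τ (Sum.swap a) = Sum.swap (τ a)) ∧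
        ∀ a, c a * c (Sum.swap a) * sg m F (τ a) = sg m F a := by
  rw [SymplecticGroup.mem_iff]
  constructor
  · intro h
    have key : ∀ a b, c a * c b * Matrix.J (Fin m) F (τ a) (τ b) = Matrix.J (Fin m) F a b := by
      intro a b
      rw [← monR_J, h]
    have h1 : ∀ a, τ (Sum.swap a) = Sum.swap (τ a) := by
      intro a
      have h2 := key a (Sum.swap a)
      rw [spt_J_apply a, if_pos rfl, spt_J_apply] at h2
      by_contra hne
      rw [if_neg hne, mul_zero] at h2
      exact sg_ne_zero a h2.symm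
    refine ⟨h1, fun a => ?_⟩
    have h2 := key a (Sum.swap a)
    rw [spt_J_apply a, if_pos rfl, spt_J_apply, if_pos (h1 a)] at h2
    exact h2
  · rintro ⟨h1, h2⟩
    ext a b
    rw [monR_J, spt_J_apply, spt_J_apply a]
    by_cases hb : b = Sum.swap a
    · subst hb
      rw [if_pos (h1 a), if_pos rfl]
      exact h2 a
    · have : τ b ≠ Sum.swap (τ a) := by
        rw [← h1 a]
        exact fun h => hb (hτ h)
      rw [if_neg this, if_neg hb, mul_zero]

theorem mem_span_single_iff (i₀ : Fin m ⊕ Fin m) (v : Fin m ⊕ Fin m → F) :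
    v ∈ (Submodule.span F {(Pi.single i₀ (1 : F) : Fin m ⊕ Fin m → F)} :
      Submodule F (Fin m ⊕ Fin m → F)) ↔ ∀ i, i ≠ i₀ → v i = 0 := by
  rw [Submodule.mem_span_singleton]
  constructor
  · rintro ⟨a, rfl⟩ i hi
    simp [Pi.single_eq_of_ne hi]
  · intro h
    refine ⟨v i₀, ?_⟩
    funext i
    by_cases hi : i = i₀
    · subst hi
      simp
    · simp [Pi.single_eq_of_ne hi, h i hi]

/-- The diagonal torus of the symplectic group, as the common stabilizer of the axes. -/
def torus (m : ℕ) (F : Type*) [Field F] : Subgroup (Matrix.symplecticGroup (Fin m) F) :=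
  ⨅ i : Fin m ⊕ Fin m, Cfsg.stabilizing (Cfsg.spToMat m F)
    ((Submodule.span F {(Pi.single i (1 : F) : Fin m ⊕ Fin m → F)} :
      Submodule F (Fin m ⊕ Fin m → F)) : Set (Fin m ⊕ Fin m → F))

theorem diag_eq_monR (A : Matrix (Fin m ⊕ Fin m) (Fin m ⊕ Fin m) F)
    (h : ∀ i j, i ≠ j → A i j = 0) : A = monR id (fun i => A i i) := by
  ext i j
  simp only [monR, id]
  by_cases hij : j = i
  · subst hij
    rw [if_pos rfl]
  · rw [if_neg hij]
    exact h i j (Ne.symm hij)

theorem diag_ne_zero (g : Matrix.symplecticGroup (Fin m) F)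
    (h : ∀ i j, i ≠ j → (g : Matrix (Fin m ⊕ Fin m) (Fin m ⊕ Fin m) F) i j = 0)
    (i : Fin m ⊕ Fin m) : (g : Matrix (Fin m ⊕ Fin m) (Fin m ⊕ Fin m) F) i i ≠ 0 := by
  have h1 := diag_eq_monR _ h
  have h2 : monR id (fun i => (g : Matrix (Fin m ⊕ Fin m) (Fin m ⊕ Fin m) F) i i) ∈
      Matrix.symplecticGroup (Fin m) F := by
    rw [← h1]
    exact g.2
  have h3 := ((monR_symp_iff id Function.injective_id _).mp h2).2 i
  intro h0
  rw [h0, zero_mul, zero_mul] at h3
  exact sg_ne_zero i h3.symm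

theorem mem_torus_iff (g : Matrix.symplecticGroup (Fin m) F) :
    g ∈ torus m F ↔
      ∀ i j, i ≠ j → (g : Matrix (Fin m ⊕ Fin m) (Fin m ⊕ Fin m) F) i j = 0 := by
  unfold torus
  rw [Subgroup.mem_iInf]
  constructor
  · intro h i j hij
    have h1 : ∀ v, v ∈ (Submodule.span F {(Pi.single j (1 : F) : Fin m ⊕ Fin m → F)} :
        Submodule F (Fin m ⊕ Fin m → F)) ↔
        (g : Matrix (Fin m ⊕ Fin m) (Fin m ⊕ Fin m) F) *ᵥ v ∈
          (Submodule.span F {(Pi.single j (1 : F) : Fin m ⊕ Fin m → F)} :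
        Submodule F (Fin m ⊕ Fin m → F)) := h j
    have h2 := (h1 (Pi.single j 1)).mp (Submodule.mem_span_singleton_self _)
    rw [mem_span_single_iff] at h2
    have h3 := h2 i hij
    rw [Matrix.mulVec_single_one] at h3
    exact h3
  · intro h i₀
    show ∀ v, v ∈ (Submodule.span F {(Pi.single i₀ (1 : F) : Fin m ⊕ Fin m → F)} :
        Submodule F (Fin m ⊕ Fin m → F)) ↔
        (g : Matrix (Fin m ⊕ Fin m) (Fin m ⊕ Fin m) F) *ᵥ v ∈
          (Submodule.span F {(Pi.single i₀ (1 : F) : Fin m ⊕ Fin m → F)} :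
        Submodule F (Fin m ⊕ Fin m → F))
    intro v
    rw [mem_span_single_iff, mem_span_single_iff]
    have hmv : ∀ i, ((g : Matrix (Fin m ⊕ Fin m) (Fin m ⊕ Fin m) F) *ᵥ v) i =
        (g : Matrix (Fin m ⊕ Fin m) (Fin m ⊕ Fin m) F) i i * v i := by
      intro i
      rw [Matrix.mulVec, dotProduct]
      rw [Finset.sum_eq_single i]
      · intro b _ hb
        rw [h i b (Ne.symm hb), zero_mul]
      · intro hi
        exact absurd (Finset.mem_univ i) hi
    constructor
    · intro hv i hi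
      rw [hmv, hv i hi, mul_zero]
    · intro hv i hi
      have := hv i hi
      rw [hmv] at this
      rcases mul_eq_zero.mp this with h0 | h0
      · exact absurd h0 (diag_ne_zero g h i)
      · exact h0


theorem monR_mem_normalizer (g : Matrix.symplecticGroup (Fin m) F)
    (τ : Fin m ⊕ Fin m → Fin m ⊕ Fin m) (hτ : Function.Bijective τ) (c : Fin m ⊕ Fin m → F)
    (hc : ∀ i, c i ≠ 0)
    (hg : (g : Matrix (Fin m ⊕ Fin m) (Fin m ⊕ Fin m) F) = monR τ c) :
    g ∈ Subgroup.normalizer (torus m F : Set (Matrix.symplecticGroup (Fin m) F)) := by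
  rw [Subgroup.mem_normalizer_iff]
  intro h
  rw [mem_torus_iff, mem_torus_iff]
  have hmul : ((g * h * g⁻¹ : Matrix.symplecticGroup (Fin m) F) :
      Matrix (Fin m ⊕ Fin m) (Fin m ⊕ Fin m) F) * (g : Matrix (Fin m ⊕ Fin m) (Fin m ⊕ Fin m) F) =
      (g : Matrix (Fin m ⊕ Fin m) (Fin m ⊕ Fin m) F) *
        (h : Matrix (Fin m ⊕ Fin m) (Fin m ⊕ Fin m) F) := by
    have h1 : g * h * g⁻¹ * g = g * h := by group
    have h2 := congrArg (Subtype.val) h1
    exact h2
  have key : ∀ i j, ((g * h * g⁻¹ : Matrix.symplecticGroup (Fin m) F) :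
      Matrix (Fin m ⊕ Fin m) (Fin m ⊕ Fin m) F) i j * c j =
      c i * (h : Matrix (Fin m ⊕ Fin m) (Fin m ⊕ Fin m) F) (τ i) (τ j) := by
    intro i j
    have h1 := congrFun (congrFun hmul i) (τ j)
    rw [Matrix.mul_apply, Matrix.mul_apply, hg] at h1
    simp only [monR] at h1
    rw [Finset.sum_eq_single j, Finset.sum_eq_single (τ i)] at h1
    · rw [if_pos rfl, if_pos rfl] at h1
      exact h1
    · intro b _ hb
      rw [if_neg hb, zero_mul]
    · intro hi
      exact absurd (Finset.mem_univ _) hi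
    · intro b _ hb
      rw [if_neg (fun hh => hb (hτ.1 hh).symm), mul_zero]
    · intro hi
      exact absurd (Finset.mem_univ _) hi
  constructor
  · intro hd i j hij
    have h1 := key i j
    rw [hd (τ i) (τ j) (fun hh => hij (hτ.1 hh)), mul_zero] at h1
    rcases mul_eq_zero.mp h1 with h0 | h0
    · exact h0
    · exact absurd h0 (hc j)
  · intro hd i' j' hij
    obtain ⟨i, rfl⟩ := hτ.2 i'
    obtain ⟨j, rfl⟩ := hτ.2 j'
    have h1 := key i j
    rw [hd i j (fun hh => hij (congrArg τ hh)), zero_mul] at h1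
    rcases mul_eq_zero.mp h1.symm with h0 | h0
    · exact absurd h0 (hc i)
    · exact h0

/-- The entries of the rank-one torus elements. -/
def torD (j₀ : Fin m) (t : F) : Fin m ⊕ Fin m → F :=
  fun a => if a = Sum.inl j₀ then t else if a = Sum.inr j₀ then t⁻¹ else 1

theorem torD_symp (j₀ : Fin m) (t : F) (ht : t ≠ 0) :
    monR id (torD j₀ t) ∈ Matrix.symplecticGroup (Fin m) F := by
  rw [monR_symp_iff id Function.injective_id]
  refine ⟨fun a => rfl, fun a => ?_⟩
  have h1 : torD j₀ t a * torD j₀ t (Sum.swap a) = 1 := by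
    rcases a with a | a
    · by_cases ha : a = j₀
      · subst ha
        simp [torD, ht]
      · simp [torD, ha]
    · by_cases ha : a = j₀
      · subst ha
        simp [torD, ht]
      · simp [torD, ha]
  rw [h1, one_mul]
  rfl

theorem torD_ne (j₀ : Fin m) (t : F) (ht : t ≠ 0) (ht2 : t * t ≠ 1) (j j' : Fin m ⊕ Fin m)
    (hj : j = Sum.inl j₀ ∨ j = Sum.inr j₀) (hne : j ≠ j') : torD j₀ t j ≠ torD j₀ t j' := by
  have ht1 : t ≠ 1 := by
    rintro rfl
    exact ht2 (one_mul 1)
  have hinv : t⁻¹ ≠ t := by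
    intro h
    apply ht2
    nth_rewrite 1 [← h]
    exact inv_mul_cancel₀ ht
  have hinv1 : t⁻¹ ≠ 1 := by
    intro h
    exact ht1 (inv_eq_one.mp h)
  rcases hj with rfl | rfl
  · by_cases h1 : j' = Sum.inr j₀
    · subst h1
      simp only [torD, if_true, reduceCtorEq, if_false]
      exact fun h => hinv h.symm
    · simp only [torD, if_true, if_neg (Ne.symm hne), if_neg h1]
      exact ht1
  · by_cases h1 : j' = Sum.inl j₀
    · subst h1
      simp only [torD, if_true, reduceCtorEq, if_false]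
      exact hinv
    · simp only [torD, if_true, reduceCtorEq, if_false, if_neg (Ne.symm hne), if_neg h1]
      exact hinv1

theorem normalizer_row_unique (hF : ∃ t : F, t ≠ 0 ∧ t * t ≠ 1)
    (g : Matrix.symplecticGroup (Fin m) F)
    (hg : g ∈ Subgroup.normalizer (torus m F : Set (Matrix.symplecticGroup (Fin m) F)))
    (i j j' : Fin m ⊕ Fin m)
    (hj : (g : Matrix (Fin m ⊕ Fin m) (Fin m ⊕ Fin m) F) i j ≠ 0)
    (hj' : (g : Matrix (Fin m ⊕ Fin m) (Fin m ⊕ Fin m) F) i j' ≠ 0) : j = j' := by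
  by_contra hne
  obtain ⟨t, ht, ht2⟩ := hF
  obtain ⟨j₀, hj₀⟩ : ∃ j₀ : Fin m, j = Sum.inl j₀ ∨ j = Sum.inr j₀ := by
    rcases j with j | j
    · exact ⟨j, Or.inl rfl⟩
    · exact ⟨j, Or.inr rfl⟩
  let h : Matrix.symplecticGroup (Fin m) F := ⟨monR id (torD j₀ t), torD_symp j₀ t ht⟩
  have hh : ∀ a b, (h : Matrix (Fin m ⊕ Fin m) (Fin m ⊕ Fin m) F) a b =
      if b = a then torD j₀ t a else 0 := fun a b => rfl
  have hT : h ∈ torus m F := by
    rw [mem_torus_iff]
    intro a b hab
    rw [hh, if_neg (Ne.symm hab)]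
  have hT' := (Subgroup.mem_normalizer_iff.mp hg h).mp hT
  rw [mem_torus_iff] at hT'
  have hmul : ((g * h * g⁻¹ : Matrix.symplecticGroup (Fin m) F) :
      Matrix (Fin m ⊕ Fin m) (Fin m ⊕ Fin m) F) * (g : Matrix (Fin m ⊕ Fin m) (Fin m ⊕ Fin m) F) =
      (g : Matrix (Fin m ⊕ Fin m) (Fin m ⊕ Fin m) F) *
        (h : Matrix (Fin m ⊕ Fin m) (Fin m ⊕ Fin m) F) := by
    have h1 : g * h * g⁻¹ * g = g * h := by group
    have h2 := congrArg (Subtype.val) h1
    exact h2
  have key : ∀ k, (g : Matrix (Fin m ⊕ Fin m) (Fin m ⊕ Fin m) F) i k ≠ 0 →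
      ((g * h * g⁻¹ : Matrix.symplecticGroup (Fin m) F) :
      Matrix (Fin m ⊕ Fin m) (Fin m ⊕ Fin m) F) i i = torD j₀ t k := by
    intro k hk
    have h1 := congrFun (congrFun hmul i) k
    rw [Matrix.mul_apply, Matrix.mul_apply] at h1
    rw [Finset.sum_eq_single i, Finset.sum_eq_single k] at h1
    · rw [hh, if_pos rfl, mul_comm] at h1
      exact mul_left_cancel₀ hk h1
    · intro b _ hb
      rw [hh, if_neg (Ne.symm hb), mul_zero]
    · intro hi
      exact absurd (Finset.mem_univ _) hi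
    · intro b _ hb
      rw [hT' i b (Ne.symm hb), zero_mul]
    · intro hi
      exact absurd (Finset.mem_univ _) hi
  exact torD_ne j₀ t ht ht2 j j' hj₀ hne ((key j hj).symm.trans (key j' hj'))

theorem normalizer_monR (hF : ∃ t : F, t ≠ 0 ∧ t * t ≠ 1)
    (g : Matrix.symplecticGroup (Fin m) F)
    (hg : g ∈ Subgroup.normalizer (torus m F : Set (Matrix.symplecticGroup (Fin m) F))) :
    ∃ (τ : Fin m ⊕ Fin m → Fin m ⊕ Fin m) (c : Fin m ⊕ Fin m → F), Function.Bijective τ ∧
      (∀ i, c i ≠ 0) ∧ (g : Matrix (Fin m ⊕ Fin m) (Fin m ⊕ Fin m) F) = monR τ c := by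
  have hinv : (g : Matrix (Fin m ⊕ Fin m) (Fin m ⊕ Fin m) F) *
      ((g⁻¹ : Matrix.symplecticGroup (Fin m) F) : Matrix (Fin m ⊕ Fin m) (Fin m ⊕ Fin m) F) = 1 := by
    have h1 : g * g⁻¹ = 1 := mul_inv_cancel g
    exact congrArg (Subtype.val) h1
  have hex : ∀ i, ∃ k, (g : Matrix (Fin m ⊕ Fin m) (Fin m ⊕ Fin m) F) i k ≠ 0 := by
    intro i
    by_contra hcon
    push Not at hcon
    have h1 := congrFun (congrFun hinv i) i
    rw [Matrix.mul_apply, Matrix.one_apply_eq] at h1
    rw [Finset.sum_eq_zero (fun k _ => by rw [hcon k, zero_mul])] at h1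
    exact zero_ne_one h1
  choose τ hτ using hex
  have huniq : ∀ i j, (g : Matrix (Fin m ⊕ Fin m) (Fin m ⊕ Fin m) F) i j ≠ 0 → j = τ i :=
    fun i j hj => normalizer_row_unique hF g hg i j (τ i) hj (hτ i)
  have hrow : ∀ i i', ((g : Matrix (Fin m ⊕ Fin m) (Fin m ⊕ Fin m) F) *
      ((g⁻¹ : Matrix.symplecticGroup (Fin m) F) : Matrix (Fin m ⊕ Fin m) (Fin m ⊕ Fin m) F)) i i' =
      (g : Matrix (Fin m ⊕ Fin m) (Fin m ⊕ Fin m) F) i (τ i) *
      ((g⁻¹ : Matrix.symplecticGroup (Fin m) F) : Matrix (Fin m ⊕ Fin m) (Fin m ⊕ Fin m) F)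
        (τ i) i' := by
    intro i i'
    rw [Matrix.mul_apply, Finset.sum_eq_single (τ i)]
    · intro b _ hb
      by_cases h0 : (g : Matrix (Fin m ⊕ Fin m) (Fin m ⊕ Fin m) F) i b = 0
      · rw [h0, zero_mul]
      · exact absurd (huniq i b h0) hb
    · intro hi
      exact absurd (Finset.mem_univ _) hi
  have hinj : Function.Injective τ := by
    intro i i' hii
    by_contra hne
    have h1 := hrow i i
    rw [hinv, Matrix.one_apply_eq] at h1
    have h2 := hrow i' i
    rw [hinv, Matrix.one_apply_ne (Ne.symm hne)] at h2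
    rcases mul_eq_zero.mp h2.symm with h0 | h0
    · exact hτ i' h0
    · rw [← hii] at h0
      rw [h0, mul_zero] at h1
      exact one_ne_zero h1
  refine ⟨τ, fun i => (g : Matrix (Fin m ⊕ Fin m) (Fin m ⊕ Fin m) F) i (τ i),
    ⟨hinj, Finite.injective_iff_surjective.mp hinj⟩, hτ, ?_⟩
  ext i j
  simp only [monR]
  by_cases hj : j = τ i
  · subst hj
    rw [if_pos rfl]
  · rw [if_neg hj]
    by_contra h0
    exact hj (huniq i j h0)


/-- The swap of the two halves, as a permutation. -/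
def swapPerm (m : ℕ) : Equiv.Perm (Fin m ⊕ Fin m) := Equiv.sumComm (Fin m) (Fin m)

theorem swapPerm_apply (a : Fin m ⊕ Fin m) : swapPerm m a = Sum.swap a := rfl

theorem cycleType_swapPerm (m : ℕ) : (swapPerm m).cycleType = Multiset.replicate m 2 := by
  have hsq : swapPerm m ^ 2 = 1 := by
    ext a
    rw [pow_two, Equiv.Perm.mul_apply, swapPerm_apply, swapPerm_apply, Sum.swap_swap]
    rfl
  have hall : ∀ n ∈ (swapPerm m).cycleType, n = 2 := by
    intro n hn
    have h1 := Equiv.Perm.dvd_of_mem_cycleType hn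
    have h2 := Equiv.Perm.two_le_of_mem_cycleType hn
    have h3 : n ∣ 2 := h1.trans (orderOf_dvd_of_pow_eq_one hsq)
    have h4 := Nat.le_of_dvd (by norm_num) h3
    omega
  have h5 := Multiset.eq_replicate_card.mpr hall
  have hsupp : (swapPerm m).support = Finset.univ := by
    ext a
    simp only [Equiv.Perm.mem_support, Finset.mem_univ, iff_true, swapPerm_apply]
    rcases a with a | a <;> simp
  have h6 := Equiv.Perm.sum_cycleType (swapPerm m)
  rw [hsupp, h5, Multiset.sum_replicate, Finset.card_univ, Fintype.card_sum, Fintype.card_fin,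
    smul_eq_mul] at h6
  have h7 : Multiset.card (swapPerm m).cycleType = m := by omega
  rw [h5, h7]

theorem card_centralizer_swapPerm (m : ℕ) :
    Nat.card (Subgroup.centralizer {swapPerm m}) = 2 ^ m * m.factorial := by
  rw [Equiv.Perm.nat_card_centralizer, cycleType_swapPerm, Multiset.sum_replicate,
    Multiset.prod_replicate, Fintype.card_sum, Fintype.card_fin, smul_eq_mul]
  have h1 : m + m - m * 2 = 0 := by omega
  rw [h1, Nat.factorial_zero, one_mul]
  by_cases hm : m = 0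
  · subst hm
    simp
  · have h2 : (Multiset.replicate m 2).toFinset = {2} := by
      ext x
      simp [hm]
    rw [h2, Finset.prod_singleton, Multiset.count_replicate_self]

/-- The coefficients of a monomial symplectic matrix in terms of the free parameters. -/
def cOf (τ : Fin m ⊕ Fin m → Fin m ⊕ Fin m) (t : Fin m → Fˣ) : Fin m ⊕ Fin m → F :=
  Sum.elim (fun i => (t i : F)) (fun i => - sg m F (τ (Sum.inl i)) * (((t i)⁻¹ : Fˣ) : F))

theorem cOf_ne_zero (τ : Fin m ⊕ Fin m → Fin m ⊕ Fin m) (t : Fin m → Fˣ) (a : Fin m ⊕ Fin m) :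
    cOf τ t a ≠ 0 := by
  rcases a with a | a
  · exact (t a).ne_zero
  · simp only [cOf, Sum.elim_inr]
    exact mul_ne_zero (neg_ne_zero.mpr (sg_ne_zero _)) ((t a)⁻¹).ne_zero

theorem cOf_rel (τ : Fin m ⊕ Fin m → Fin m ⊕ Fin m)
    (hτ : ∀ a, τ (Sum.swap a) = Sum.swap (τ a)) (t : Fin m → Fˣ) (a : Fin m ⊕ Fin m) :
    cOf τ t a * cOf τ t (Sum.swap a) * sg m F (τ a) = sg m F a := by
  rcases a with a | a
  · simp only [cOf, Sum.elim_inl, Sum.swap_inl, Sum.elim_inr]
    have h1 : (t a : F) * (((t a)⁻¹ : Fˣ) : F) = 1 := by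
      rw [← Units.val_mul, mul_inv_cancel, Units.val_one]
    calc (t a : F) * (-sg m F (τ (Sum.inl a)) * (((t a)⁻¹ : Fˣ) : F)) * sg m F (τ (Sum.inl a))
        = - (((t a : F) * (((t a)⁻¹ : Fˣ) : F)) *
            (sg m F (τ (Sum.inl a)) * sg m F (τ (Sum.inl a)))) := by ring
      _ = sg m F (Sum.inl a) := by
        rw [h1, sg_mul_self, one_mul]
        rfl
  · simp only [cOf, Sum.elim_inl, Sum.swap_inr, Sum.elim_inr]
    have h1 : (t a : F) * (((t a)⁻¹ : Fˣ) : F) = 1 := by
      rw [← Units.val_mul, mul_inv_cancel, Units.val_one]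
    have h2 : sg m F (τ (Sum.inr a)) = - sg m F (τ (Sum.inl a)) := by
      have := hτ (Sum.inl a)
      rw [Sum.swap_inl] at this
      rw [this, sg_swap]
    rw [h2]
    calc -sg m F (τ (Sum.inl a)) * (((t a)⁻¹ : Fˣ) : F) * (t a : F) * -sg m F (τ (Sum.inl a))
        = ((t a : F) * (((t a)⁻¹ : Fˣ) : F)) *
            (sg m F (τ (Sum.inl a)) * sg m F (τ (Sum.inl a))) := by ring
      _ = sg m F (Sum.inr a) := by
        rw [h1, sg_mul_self, one_mul]
        rfl

theorem monR_injective (τ τ' : Fin m ⊕ Fin m → Fin m ⊕ Fin m) (c c' : Fin m ⊕ Fin m → F)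
    (hc : ∀ i, c i ≠ 0) (h : monR τ c = monR τ' c') : τ = τ' ∧ c = c' := by
  have h1 : ∀ i, τ i = τ' i := by
    intro i
    have h2 := congrFun (congrFun h i) (τ i)
    simp only [monR, if_true] at h2
    by_contra hne
    rw [if_neg hne] at h2
    exact hc i h2
  refine ⟨funext h1, funext fun i => ?_⟩
  have h2 := congrFun (congrFun h i) (τ i)
  simp only [monR, if_true] at h2
  rw [if_pos (h1 i)] at h2
  exact h2

theorem card_normalizer_torus [Finite F] (hF : ∃ t : F, t ≠ 0 ∧ t * t ≠ 1) (m : ℕ) :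
    Nat.card ↥(Subgroup.normalizer (torus m F : Set (Matrix.symplecticGroup (Fin m) F))) =
      2 ^ m * m.factorial * (Nat.card F - 1) ^ m := by
  have hcomm : ∀ τ : ↥(Subgroup.centralizer {swapPerm m}), ∀ a,
      (τ : Equiv.Perm (Fin m ⊕ Fin m)) (Sum.swap a) =
        Sum.swap ((τ : Equiv.Perm (Fin m ⊕ Fin m)) a) := by
    intro τ a
    have h1 := Subgroup.mem_centralizer_iff.mp τ.2 (swapPerm m) rfl
    have h2 := DFunLike.congr_fun h1 a
    rw [Equiv.Perm.mul_apply, Equiv.Perm.mul_apply, swapPerm_apply, swapPerm_apply] at h2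
    exact h2.symm
  have hsymp : ∀ p : ↥(Subgroup.centralizer {swapPerm m}) × (Fin m → Fˣ),
      monR (p.1 : Equiv.Perm (Fin m ⊕ Fin m)) (cOf (p.1 : Equiv.Perm (Fin m ⊕ Fin m)) p.2) ∈
        Matrix.symplecticGroup (Fin m) F := by
    intro p
    rw [monR_symp_iff _ (p.1 : Equiv.Perm (Fin m ⊕ Fin m)).injective]
    exact ⟨hcomm p.1, cOf_rel _ (hcomm p.1) p.2⟩
  have hnorm : ∀ p : ↥(Subgroup.centralizer {swapPerm m}) × (Fin m → Fˣ),
      (⟨_, hsymp p⟩ : Matrix.symplecticGroup (Fin m) F) ∈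
        Subgroup.normalizer (torus m F : Set (Matrix.symplecticGroup (Fin m) F)) := by
    intro p
    exact monR_mem_normalizer _ _ (p.1 : Equiv.Perm (Fin m ⊕ Fin m)).bijective _
      (cOf_ne_zero _ p.2) rfl
  have hbij : Function.Bijective
      (fun p : ↥(Subgroup.centralizer {swapPerm m}) × (Fin m → Fˣ) =>
        (⟨⟨_, hsymp p⟩, hnorm p⟩ :
          ↥(Subgroup.normalizer (torus m F : Set (Matrix.symplecticGroup (Fin m) F))))) := by
    constructor
    · rintro ⟨τ, t⟩ ⟨τ', t'⟩ h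
      have h1 : monR (τ : Equiv.Perm (Fin m ⊕ Fin m)) (cOf (τ : Equiv.Perm (Fin m ⊕ Fin m)) t) =
          monR (τ' : Equiv.Perm (Fin m ⊕ Fin m)) (cOf (τ' : Equiv.Perm (Fin m ⊕ Fin m)) t') :=
        congrArg (fun x : ↥(Subgroup.normalizer
          (torus m F : Set (Matrix.symplecticGroup (Fin m) F))) =>
            ((x : Matrix.symplecticGroup (Fin m) F) :
              Matrix (Fin m ⊕ Fin m) (Fin m ⊕ Fin m) F)) h
      obtain ⟨h2, h3⟩ := monR_injective _ _ _ _ (cOf_ne_zero _ t) h1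
      have h4 : τ = τ' := Subtype.ext (DFunLike.coe_injective h2)
      have h5 : t = t' := by
        funext i
        apply Units.ext
        exact congrFun h3 (Sum.inl i)
      rw [h4, h5]
    · rintro ⟨g, hg⟩
      obtain ⟨τ, c, hτ, hc, hgm⟩ := normalizer_monR hF g hg
      have hmem : monR τ c ∈ Matrix.symplecticGroup (Fin m) F := by
        rw [← hgm]
        exact g.2
      obtain ⟨h1, h2⟩ := (monR_symp_iff τ hτ.1 c).mp hmem
      have hcent : Equiv.ofBijective τ hτ ∈ Subgroup.centralizer {swapPerm m} := by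
        rw [Subgroup.mem_centralizer_iff]
        intro x hx
        rw [Set.mem_singleton_iff] at hx
        subst hx
        ext a
        rw [Equiv.Perm.mul_apply, Equiv.Perm.mul_apply, swapPerm_apply, swapPerm_apply,
          Equiv.ofBijective_apply, Equiv.ofBijective_apply]
        exact (h1 a).symm
      refine ⟨(⟨Equiv.ofBijective τ hτ, hcent⟩, fun i => Units.mk0 (c (Sum.inl i)) (hc _)), ?_⟩
      apply Subtype.ext
      apply Subtype.ext
      show monR _ _ = (g : Matrix (Fin m ⊕ Fin m) (Fin m ⊕ Fin m) F)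
      rw [hgm]
      have hc' : cOf (⇑(Equiv.ofBijective τ hτ)) (fun i => Units.mk0 (c (Sum.inl i)) (hc _)) = c := by
        funext a
        rcases a with a | a
        · rfl
        · simp only [cOf, Sum.elim_inr, Equiv.ofBijective_apply, Units.val_inv_eq_inv_val,
            Units.val_mk0]
          have h3 := h2 (Sum.inl a)
          rw [Sum.swap_inl] at h3
          have h4 : sg m F (Sum.inl a) = -1 := rfl
          rw [h4] at h3
          have h5 : c (Sum.inr a) = - sg m F (τ (Sum.inl a)) * (c (Sum.inl a))⁻¹ := by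
            have h6 : c (Sum.inl a) * (c (Sum.inr a) * sg m F (τ (Sum.inl a))) = -1 := by
              rw [← h3]; ring
            have h7 : c (Sum.inr a) * sg m F (τ (Sum.inl a)) = - (c (Sum.inl a))⁻¹ := by
              rw [eq_neg_iff_add_eq_zero]
              have h8 : c (Sum.inl a) * (c (Sum.inr a) * sg m F (τ (Sum.inl a)) +
                  (c (Sum.inl a))⁻¹) = 0 := by
                rw [mul_add, h6, mul_inv_cancel₀ (hc _)]
                ring
              rcases mul_eq_zero.mp h8 with h0 | h0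
              · exact absurd h0 (hc _)
              · exact h0
            calc c (Sum.inr a) = (c (Sum.inr a) * sg m F (τ (Sum.inl a))) *
                  sg m F (τ (Sum.inl a)) := by
                  rw [mul_assoc, sg_mul_self, mul_one]
              _ = - sg m F (τ (Sum.inl a)) * (c (Sum.inl a))⁻¹ := by
                  rw [h7]; ring
          exact h5.symm
      show monR (⇑(Equiv.ofBijective τ hτ)) _ = monR τ c
      rw [hc']
      rfl
  rw [← Nat.card_congr (Equiv.ofBijective _ hbij), Nat.card_prod, card_centralizer_swapPerm,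
    Nat.card_fun, Nat.card_units, Nat.card_eq_fintype_card (α := Fin m), Fintype.card_fin]

end Cfsg.Agent.Helper6.SpTorus
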