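import Cfsg.Agent.Helper25.BlockCount
import Cfsg.Agent.Helper25.BlockQuot
import Cfsg.Agent.Helper25.HeightZero2
import Cfsg.Agent.Helper2.CharOrtho

set_option autoImplicit false

/-!
# Counting the blocks of a group with a normal Sylow subgroup (helper6)
-/

namespace Cfsg.Agent.Helper6

open Cfsg Cfsg.Agent.Helper25
open scoped ComplexConjugate

section SylowBlockCount

variable {H : Type*} [Group H] [Fintype H] {M : Ideal AlgInt} {p : ℕ}

/-- Conjugates of elements centralizing a normal subgroup centralize it. -/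
theorem sbc_conj_mem_centralizer (Q : Subgroup H) [hQn : Q.Normal] {g : H}
    (hg : g ∈ Subgroup.centralizer (Q : Set H)) (c : H) :
    c * g * c⁻¹ ∈ Subgroup.centralizer (Q : Set H) := by
  rw [Subgroup.mem_centralizer_iff] at hg ⊢
  intro q hq
  have hq' : c⁻¹ * q * c ∈ (Q : Set H) := by
    have := hQn.conj_mem q hq c⁻¹
    rwa [inv_inv] at this
  have h1 := hg (c⁻¹ * q * c) hq'
  calc q * (c * g * c⁻¹) = c * ((c⁻¹ * q * c) * g) * c⁻¹ := by group
    _ = c * (g * (c⁻¹ * q * c)) * c⁻¹ := by rw [h1]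
    _ = c * g * c⁻¹ * q := by group

/-- The two descriptions of the regular classes centralizing a normal subgroup agree. -/
theorem sbc_class_iff (Q : Subgroup H) [hQn : Q.Normal] (C : ConjClasses H) :
    (∃ g : H, ConjClasses.mk g = C ∧ (¬ p ∣ orderOf g ∧ g ∈ Subgroup.centralizer (Q : Set H)))
      ↔ ∀ n : H, ConjClasses.mk n = C →
        ¬ p ∣ orderOf n ∧ n ∈ Subgroup.centralizer (Q : Set H) := by
  constructor
  · rintro ⟨g, rfl, hg1, hg2⟩ n hn
    have hc : IsConj g n := (ConjClasses.mk_eq_mk_iff_isConj.1 hn).symm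
    obtain ⟨c, hc⟩ := isConj_iff.1 hc
    rw [← hc]
    refine ⟨?_, sbc_conj_mem_centralizer Q hg2 c⟩
    have h1 : orderOf (c * g * c⁻¹) = orderOf g := (MulAut.conj c).orderOf_eq g
    rw [h1]
    exact hg1
  · intro h
    obtain ⟨g, rfl⟩ := ConjClasses.mk_surjective C
    exact ⟨g, rfl, h g rfl⟩

/-- The number of blocks is at most the number of regular classes centralizing a normal
`p`-subgroup. -/
theorem sbc_le [Fact p.Prime] (hpM : IsPModular p M) (Q : Subgroup H) [Q.Normal]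
    (hQ : IsPGroup p Q) :
    Nat.card {b : Set (IrrCharacter H) // IsPBlock M b}
      ≤ Nat.card {C : ConjClasses H // ∀ n : H, ConjClasses.mk n = C →
          ¬ p ∣ orderOf n ∧ n ∈ Subgroup.centralizer (Q : Set H)} := by
  have hM := hpM.2.1.isPrime
  have h1 := card_blocks_le (G := H) hM (fun _ => True)
    (fun g => ¬ p ∣ orderOf g ∧ g ∈ Subgroup.centralizer (Q : Set H)) (by
      intro B B' hB _ hB' _ g hg χ hχ
      by_cases hreg : p ∣ orderOf g
      · rw [osima hpM hB' g hreg, mul_zero]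
        exact MemLocalIdeal.zero hM.ne_top
      · have hgC : g ∉ Subgroup.centralizer (Q : Set H) := fun h => hg ⟨hreg, h⟩
        exact MemLocalIdeal.mul_right hM
          (centralChar_mem_of_not_centralizer hpM Q hQ χ g hgC)
          (blockCoeff_memLocalRing hM hB' g))
  have e1 : Nat.card {b : Set (IrrCharacter H) // IsPBlock M b}
      = Nat.card {B : Set (IrrCharacter H) // IsPBlock M B ∧ True} :=
    Nat.card_congr (Equiv.subtypeEquivRight (fun b => by simp))
  have e2 : Nat.card {C : ConjClasses H // ∃ g : H, ConjClasses.mk g = C ∧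
        (¬ p ∣ orderOf g ∧ g ∈ Subgroup.centralizer (Q : Set H))}
      = Nat.card {C : ConjClasses H // ∀ n : H, ConjClasses.mk n = C →
          ¬ p ∣ orderOf n ∧ n ∈ Subgroup.centralizer (Q : Set H)} :=
    Nat.card_congr (Equiv.subtypeEquivRight (fun C => sbc_class_iff Q C))
  rw [e1, ← e2]
  exact h1

/-- Every block of a group with a normal Sylow `p`-subgroup has it as a defect group. -/
theorem sbc_defect [Fact p.Prime] (hpM : IsPModular p M) (Q : Subgroup H) [Q.Normal]
    (hQ : IsPGroup p Q) (hQi : ¬ p ∣ Nat.card (H ⧸ Q)) {b : Set (IrrCharacter H)}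
    (hb : IsPBlock M b) : IsDefectGroup p M b Q := by
  have hM := hpM.2.1.isPrime
  have hp := hpM.1
  obtain ⟨g, hdc⟩ := exists_defectClass hM hb
  obtain ⟨χ₀, rfl⟩ := hb
  have hχ₀ := mem_blockOf_self hM.ne_top χ₀
  have hgC : g ∈ Subgroup.centralizer (Q : Set H) := by
    by_contra hg
    exact hdc.2.2 χ₀ hχ₀ (centralChar_mem_of_not_centralizer hpM Q hQ χ₀ g hg)
  have hle : Q ≤ Subgroup.centralizer ({g} : Set H) := by
    intro q hq
    rw [Subgroup.mem_centralizer_singleton_iff]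
    exact Subgroup.mem_centralizer_iff.1 hgC q hq
  obtain ⟨P'⟩ : Nonempty (Sylow p (Subgroup.centralizer ({g} : Set H))) := inferInstance
  refine ⟨g, hdc, P', ?_⟩
  have hp' : IsPGroup p (Q.subgroupOf (Subgroup.centralizer ({g} : Set H))) :=
    hQ.comap_subtype
  have hle2 := IsPGroup.le_sylow_of_normal hp' P'
  apply le_antisymm
  · intro q hq
    exact ⟨⟨q, hle hq⟩, hle2 (Subgroup.mem_subgroupOf.2 hq), rfl⟩
  · rintro x ⟨y, hy, rfl⟩
    obtain ⟨k, hk⟩ := P'.isPGroup' ⟨y, hy⟩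
    have hk' : ((y : H)) ^ p ^ k = 1 := by
      have h2 := congrArg (fun z : (P' : Subgroup (Subgroup.centralizer ({g} : Set H))) =>
        ((z : Subgroup.centralizer ({g} : Set H)) : H)) hk
      simpa using h2
    have h3 : ((y : H) : H ⧸ Q) ^ p ^ k = 1 := by
      rw [← QuotientGroup.mk_pow, hk', QuotientGroup.mk_one]
    have h4 : orderOf ((y : H) : H ⧸ Q) ∣ p ^ k := orderOf_dvd_of_pow_eq_one h3
    have h5 : orderOf ((y : H) : H ⧸ Q) ∣ Nat.card (H ⧸ Q) := orderOf_dvd_natCard _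
    have hco : (p ^ k).Coprime (Nat.card (H ⧸ Q)) :=
      Nat.Coprime.pow_left k ((Nat.Prime.coprime_iff_not_dvd hp).2 hQi)
    have h6 : orderOf ((y : H) : H ⧸ Q) = 1 :=
      Nat.eq_one_of_dvd_coprimes hco h4 h5
    have h7 : ((y : H) : H ⧸ Q) = 1 := orderOf_eq_one_iff.1 h6
    exact (QuotientGroup.eq_one_iff _).1 h7

/-- Regular elements, one of them centralizing the normal `p`-subgroup `Q`, whose images in
the quotient by `Q` are conjugate, are conjugate. -/
theorem sbc_conj_of_quot (hp : p.Prime) (Q : Subgroup H) [hQn : Q.Normal] (hQ : IsPGroup p Q)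
    {x y : H} (hx : ¬ p ∣ orderOf x) (hxC : x ∈ Subgroup.centralizer (Q : Set H))
    (hy : ¬ p ∣ orderOf y)
    (h : IsConj (QuotientGroup.mk x : H ⧸ Q) (QuotientGroup.mk y : H ⧸ Q)) : IsConj x y := by
  obtain ⟨c', hc⟩ := isConj_iff.1 h
  obtain ⟨c, rfl⟩ := QuotientGroup.mk_surjective c'
  have hq : (c * x * c⁻¹)⁻¹ * y ∈ Q := by
    apply (QuotientGroup.eq (s := Q)).1
    rw [← hc]
    simp
  have hx'C := sbc_conj_mem_centralizer Q hxC c
  have hx'o : orderOf (c * x * c⁻¹) = orderOf x := (MulAut.conj c).orderOf_eq x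
  obtain ⟨X, hX⟩ : ∃ X : H, X = c * x * c⁻¹ := ⟨_, rfl⟩
  rw [← hX] at hq hx'C hx'o
  obtain ⟨q, hqdef⟩ : ∃ q : H, q = X⁻¹ * y := ⟨_, rfl⟩
  rw [← hqdef] at hq
  have hy' : y = X * q := by
    rw [hqdef]
    group
  have hcomm : Commute X q := ((Subgroup.mem_centralizer_iff.1 hx'C) q hq).symm
  have h1 : y ^ orderOf X = q ^ orderOf X := by
    rw [hy', hcomm.mul_pow, pow_orderOf_eq_one, one_mul]
  obtain ⟨k, hk⟩ := hQ ⟨q, hq⟩
  have hk' : q ^ p ^ k = 1 := by
    have h2 := congrArg (fun z : Q => (z : H)) hk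
    simpa using h2
  have h2 : orderOf (q ^ orderOf X) ∣ p ^ k := by
    apply orderOf_dvd_of_pow_eq_one
    rw [← pow_mul, mul_comm, pow_mul, hk', one_pow]
  have h3 : orderOf (q ^ orderOf X) ∣ orderOf y := by
    rw [← h1]
    exact orderOf_pow_dvd _
  have h4 : orderOf (q ^ orderOf X) = 1 :=
    Nat.eq_one_of_dvd_coprimes
      (Nat.Coprime.pow_left k ((Nat.Prime.coprime_iff_not_dvd hp).2 hy)) h2 h3
  have h5 : q ^ orderOf X = 1 := orderOf_eq_one_iff.1 h4
  have h6 : orderOf q ∣ orderOf X := orderOf_dvd_of_pow_eq_one h5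
  have h7 : orderOf q ∣ p ^ k := orderOf_dvd_of_pow_eq_one hk'
  have hxX : ¬ p ∣ orderOf X := by
    rw [hx'o]
    exact hx
  have h8 : orderOf q = 1 :=
    Nat.eq_one_of_dvd_coprimes
      (Nat.Coprime.pow_left k ((Nat.Prime.coprime_iff_not_dvd hp).2 hxX)) h7 h6
  have h9 : q = 1 := orderOf_eq_one_iff.1 h8
  rw [h9, mul_one] at hy'
  rw [hy', hX]
  exact isConj_iff.2 ⟨c, rfl⟩

/-- With a normal Sylow `p`-subgroup `Q`, the regular classes centralizing `Q` are at most as
numerous as the blocks. -/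
theorem sbc_ge [Fact p.Prime] (hpM : IsPModular p M) (Q : Subgroup H) [hQn : Q.Normal]
    (hQ : IsPGroup p Q) (hQi : ¬ p ∣ Nat.card (H ⧸ Q)) :
    Nat.card {C : ConjClasses H // ∀ n : H, ConjClasses.mk n = C →
          ¬ p ∣ orderOf n ∧ n ∈ Subgroup.centralizer (Q : Set H)}
      ≤ Nat.card {b : Set (IrrCharacter H) // IsPBlock M b} := by
  classical
  have hM := hpM.2.1.isPrime
  have hp := hpM.1
  have : Fintype (H ⧸ Q) := Fintype.ofFinite _
  have := Helper24.finite_irrCharacter (G := H)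
  have : Fintype (IrrCharacter H) := Fintype.ofFinite _
  have := Helper24.finite_irrCharacter (G := H ⧸ Q)
  have : Fintype (IrrCharacter (H ⧸ Q)) := Fintype.ofFinite _
  have : Fintype {b : Set (IrrCharacter H) // IsPBlock M b} := Fintype.ofFinite _
  have : Fintype {C : ConjClasses H // ∀ n : H, ConjClasses.mk n = C →
          ¬ p ∣ orderOf n ∧ n ∈ Subgroup.centralizer (Q : Set H)} := Fintype.ofFinite _
  rw [Nat.card_eq_fintype_card, Nat.card_eq_fintype_card]
  have hrep : ∀ b : {b : Set (IrrCharacter H) // IsPBlock M b},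
      ∃ χ : IrrCharacter H, χ ∈ b.1 := by
    intro b
    obtain ⟨χ, hχ⟩ := b.2
    exact ⟨χ, by rw [hχ]; exact mem_blockOf_self hM.ne_top χ⟩
  choose rep hrepmem using hrep
  obtain ⟨xr, hxr⟩ : ∃ xr : {C : ConjClasses H // ∀ n : H, ConjClasses.mk n = C →
      ¬ p ∣ orderOf n ∧ n ∈ Subgroup.centralizer (Q : Set H)} → H,
      xr = fun K => Quotient.out K.1 := ⟨_, rfl⟩
  have hxr0 : ∀ K, ConjClasses.mk (xr K) = K.1 := by
    intro K
    rw [hxr]
    exact Quotient.out_eq K.1
  have hxr1 : ∀ K, ¬ p ∣ orderOf (xr K) ∧ xr K ∈ Subgroup.centralizer (Q : Set H) :=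
    fun K => K.2 _ (hxr0 K)
  have hxr2 : ∀ K K', IsConj (xr K) (xr K') → K = K' := by
    intro K K' h
    apply Subtype.ext
    rw [← hxr0 K, ← hxr0 K']
    exact ConjClasses.mk_eq_mk_iff_isConj.2 h
  obtain ⟨u, hu⟩ : ∃ u : {C : ConjClasses H // ∀ n : H, ConjClasses.mk n = C →
      ¬ p ∣ orderOf n ∧ n ∈ Subgroup.centralizer (Q : Set H)} → ℕ,
      u = fun K => Nat.card (Subgroup.centralizer
          ({(QuotientGroup.mk (xr K) : H ⧸ Q)} : Set (H ⧸ Q)))
        * (Subgroup.centralizer ({xr K} : Set H)).index := ⟨_, rfl⟩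
  have hu1 : ∀ K, ¬ p ∣ u K := by
    intro K hdvd
    rw [hu] at hdvd
    rcases (Nat.Prime.dvd_mul hp).1 hdvd with h | h
    · exact hQi (dvd_trans h (Subgroup.card_subgroup_dvd_card _))
    · have hle : Q ≤ Subgroup.centralizer ({xr K} : Set H) := by
        intro q hq
        rw [Subgroup.mem_centralizer_singleton_iff]
        exact Subgroup.mem_centralizer_iff.1 (hxr1 K).2 q hq
      have h2 := Subgroup.index_dvd_of_le hle
      rw [Subgroup.index_eq_card] at h2
      exact hQi (dvd_trans h h2)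
  have hu0 : ∀ K, (u K : ℂ) ≠ 0 := by
    intro K h0
    have h1 : u K = 0 := by exact_mod_cast h0
    exact hu1 K (h1 ▸ dvd_zero p)
  obtain ⟨c, hc⟩ : ∃ c : {C : ConjClasses H // ∀ n : H, ConjClasses.mk n = C →
      ¬ p ∣ orderOf n ∧ n ∈ Subgroup.centralizer (Q : Set H)} → IrrCharacter (H ⧸ Q) → ℂ,
      c = fun K (ψ : IrrCharacter (H ⧸ Q)) => (ψ : H ⧸ Q → ℂ) 1
        * conj ((ψ : H ⧸ Q → ℂ) (QuotientGroup.mk (xr K) : H ⧸ Q)) / (u K : ℂ) := ⟨_, rfl⟩
  have hint : ∀ (ψ : IrrCharacter (H ⧸ Q)) (y : H ⧸ Q), IsIntegral ℤ ((ψ : H ⧸ Q → ℂ) y) :=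
    fun ψ y => Helper2.IsCharacter.isIntegral (Helper24.isCharacter_of_irr ψ.2) y
  have hc1 : ∀ K ψ, MemLocalRing M (c K ψ) := by
    intro K ψ
    rw [hc]
    simp only
    rw [div_eq_mul_inv]
    refine MemLocalRing.mul hM (MemLocalRing.mul hM ?_ ?_) ?_
    · exact memLocalRing_of_isIntegral hM.ne_top (hint ψ 1)
    · exact memLocalRing_of_isIntegral hM.ne_top
        (map_isIntegral_int (starRingEnd ℂ) (hint ψ _))
    · refine MemLocalRing.inv (memLocalRing_natCast hM.ne_top (u K)) ?_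
      rw [memLocalIdeal_natCast_iff hpM]
      exact hu1 K
  have hexact : ∀ K K', ∑ ψ : IrrCharacter (H ⧸ Q),
      c K ψ * centralChar (inflIrr Q ψ : H → ℂ) (xr K') = if K = K' then 1 else 0 := by
    intro K K'
    have hterm : ∀ ψ : IrrCharacter (H ⧸ Q),
        c K ψ * centralChar (inflIrr Q ψ : H → ℂ) (xr K')
        = (((Subgroup.centralizer ({xr K'} : Set H)).index : ℂ) / (u K : ℂ))
          * ((ψ : H ⧸ Q → ℂ) (QuotientGroup.mk (xr K') : H ⧸ Q)
            * conj ((ψ : H ⧸ Q → ℂ) (QuotientGroup.mk (xr K) : H ⧸ Q))) := by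
      intro ψ
      have h1 : (ψ : H ⧸ Q → ℂ) 1 ≠ 0 := Helper24.irr_one_ne_zero ψ.2
      have h2 := hu0 K
      rw [hc, inflIrr_coe]
      unfold centralChar
      simp only [Function.comp_apply, QuotientGroup.mk_one]
      field_simp
    rw [Finset.sum_congr rfl fun ψ _ => hterm ψ, ← Finset.mul_sum,
      Helper2.second_orthogonality]
    by_cases hKK : K = K'
    · subst hKK
      rw [if_pos (IsConj.refl _), if_pos rfl]
      have h2 := hu0 K
      have h3 : (u K : ℂ) = (Nat.card (Subgroup.centralizer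
          ({(QuotientGroup.mk (xr K) : H ⧸ Q)} : Set (H ⧸ Q))) : ℂ)
          * ((Subgroup.centralizer ({xr K} : Set H)).index : ℂ) := by
        rw [hu]
        push_cast
        rfl
      rw [div_mul_eq_mul_div, div_eq_one_iff_eq h2, h3, mul_comm]
    · rw [if_neg hKK, if_neg, mul_zero]
      intro hconj
      apply hKK
      exact (hxr2 K' K (sbc_conj_of_quot hp Q hQ (hxr1 K').1 (hxr1 K').2 (hxr1 K).1 hconj)).symm
  refine card_le_of_pairing hM
    (fun K b => ∑ ψ : IrrCharacter (H ⧸ Q), if inflIrr Q ψ ∈ b.1 then c K ψ else 0)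
    (fun b K' => centralChar (rep b : H → ℂ) (xr K')) ?_ ?_ ?_
  · intro K b
    refine memLocalRing_sum hM _ _ fun ψ _ => ?_
    split_ifs
    · exact hc1 K ψ
    · exact MemLocalRing.zero hM.ne_top
  · intro b K'
    exact memLocalRing_of_isIntegral hM.ne_top (centralChar_isIntegral _ _)
  · intro K K'
    have hswap : ∑ ψ : IrrCharacter (H ⧸ Q),
        c K ψ * centralChar (inflIrr Q ψ : H → ℂ) (xr K')
        = ∑ b : {b : Set (IrrCharacter H) // IsPBlock M b}, ∑ ψ : IrrCharacter (H ⧸ Q),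
          if inflIrr Q ψ ∈ b.1 then c K ψ * centralChar (inflIrr Q ψ : H → ℂ) (xr K')
          else 0 := by
      rw [Finset.sum_comm]
      refine Finset.sum_congr rfl fun ψ _ => ?_
      rw [Finset.sum_eq_single (⟨blockOf M (inflIrr Q ψ : H → ℂ), ⟨_, rfl⟩⟩ :
        {b : Set (IrrCharacter H) // IsPBlock M b})]
      · rw [if_pos (mem_blockOf_self hM.ne_top _)]
      · intro b _ hb
        rw [if_neg]
        intro hmem
        apply hb
        apply Subtype.ext
        obtain ⟨χ₁, h1⟩ := b.2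
        show b.1 = blockOf M (inflIrr Q ψ : H → ℂ)
        rw [h1] at hmem ⊢
        exact blockOf_eq_of_mem hM hmem
      · intro h
        exact absurd (Finset.mem_univ _) h
    have hsum : (∑ b : {b : Set (IrrCharacter H) // IsPBlock M b},
        (∑ ψ : IrrCharacter (H ⧸ Q), if inflIrr Q ψ ∈ b.1 then c K ψ else 0)
          * centralChar (rep b : H → ℂ) (xr K')) - (if K = K' then 1 else 0)
        = ∑ b : {b : Set (IrrCharacter H) // IsPBlock M b}, ∑ ψ : IrrCharacter (H ⧸ Q),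
          if inflIrr Q ψ ∈ b.1 then c K ψ * (centralChar (rep b : H → ℂ) (xr K')
            - centralChar (inflIrr Q ψ : H → ℂ) (xr K')) else 0 := by
      rw [← hexact K K', hswap, ← Finset.sum_sub_distrib]
      refine Finset.sum_congr rfl fun b _ => ?_
      rw [Finset.sum_mul, ← Finset.sum_sub_distrib]
      refine Finset.sum_congr rfl fun ψ _ => ?_
      split_ifs
      · ring
      · ring
    rw [hsum]
    refine memLocalIdeal_sum hM _ _ fun b _ => ?_
    refine memLocalIdeal_sum hM _ _ fun ψ _ => ?_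
    split_ifs with hmem
    · refine MemLocalIdeal.mul_left hM (hc1 K ψ) ?_
      exact sameBlock_of_mem_block hM b.2 (hrepmem b) hmem (xr K')
    · exact MemLocalIdeal.zero hM.ne_top

end SylowBlockCount

end Cfsg.Agent.Helper6
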