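import Mathlib

set_option autoImplicit false

namespace Cfsg.Agent.Helper6

open Module

section SymmSim

variable {F : Type*} [Field F]

/-- Two bilinear forms whose Gram matrices in two bases are proportional are similar through
the linear equivalence matching the bases. -/
theorem bilin_equiv_of_bases {V W : Type*} [AddCommGroup V] [Module F V] [AddCommGroup W]
    [Module F W] {ι : Type*} (B₁ : LinearMap.BilinForm F V) (B₂ : LinearMap.BilinForm F W)
    (b₁ : Basis ι F V) (b₂ : Basis ι F W) (c : F)
    (h : ∀ i j, B₂ (b₂ i) (b₂ j) = c * B₁ (b₁ i) (b₁ j)) (x y : V) :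
    B₂ (b₁.equiv b₂ (Equiv.refl ι) x) (b₁.equiv b₂ (Equiv.refl ι) y) = c * B₁ x y := by
  have key : B₂.compl₁₂ (b₁.equiv b₂ (Equiv.refl ι) : V →ₗ[F] W)
      (b₁.equiv b₂ (Equiv.refl ι) : V →ₗ[F] W) = c • B₁ := by
    apply b₁.ext
    intro i
    apply b₁.ext
    intro j
    simp only [LinearMap.compl₁₂_apply, LinearEquiv.coe_coe, Basis.equiv_apply, Equiv.refl_apply,
      LinearMap.smul_apply, smul_eq_mul]
    exact h i j
  have := congrArg (fun B : LinearMap.BilinForm F V => B x y) key
  simpa using this

/-- Determinant identity for a self-similarity of a non-degenerate bilinear form on `ι → F`. -/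
theorem det_of_self_similar {ι : Type*} [Fintype ι] [DecidableEq ι]
    (B : LinearMap.BilinForm F (ι → F)) (hB : B.Nondegenerate) (c : F)
    (g : (ι → F) →ₗ[F] (ι → F)) (hg : ∀ x y, c * B (g x) (g y) = B x y) :
    c ^ Fintype.card ι * ((LinearMap.toMatrix' g).det * (LinearMap.toMatrix' g).det) = 1 := by
  have hdet : (LinearMap.BilinForm.toMatrix' B).det ≠ 0 := by
    rw [← Matrix.nondegenerate_iff_det_ne_zero]
    exact LinearMap.BilinForm.nondegenerate_toMatrix'_iff.mpr hB
  have key : B = (c • B).comp g g := by
    apply LinearMap.ext₂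
    intro x y
    simp only [LinearMap.BilinForm.comp_apply, LinearMap.smul_apply, smul_eq_mul]
    exact (hg x y).symm
  have h := congrArg (fun B => (LinearMap.BilinForm.toMatrix' B).det) key
  simp only [LinearMap.BilinForm.toMatrix'_comp, map_smul, Matrix.det_mul, Matrix.det_transpose,
    Matrix.det_smul] at h
  have h' : (LinearMap.BilinForm.toMatrix' B).det * (c ^ Fintype.card ι *
      ((LinearMap.toMatrix' g).det * (LinearMap.toMatrix' g).det)) =
      (LinearMap.BilinForm.toMatrix' B).det * 1 := by
    linear_combination -h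
  exact mul_left_cancel₀ hdet h'

end SymmSim

end Cfsg.Agent.Helper6
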