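import Mathlib
import Cfsg.Agent.Helper6.Zass
import Cfsg.Agent.Helper12.TransferWP

set_option autoImplicit false

namespace Cfsg.Agent.Helper6.Zass

open MulAction
open scoped commutatorElement

variable {G Ω : Type*} [Group G] [MulAction G Ω]

/-- If a non-identity element of the two-point stabilizer is conjugated into it by `g`, then `g`
preserves the pair. -/
theorem setwise_of_conj_mem (h3 : NoThree G Ω) {a b : Ω} (hab : a ≠ b) (g x : G) (hx1 : x ≠ 1)
    (hxa : x • a = a) (hxb : x • b = b) (hga : (g * x * g⁻¹) • a = a)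
    (hgb : (g * x * g⁻¹) • b = b) :
    (g • a = a ∧ g • b = b) ∨ (g • a = b ∧ g • b = a) := by
  have hconj : ∀ c : Ω, (g * x * g⁻¹) • c = c ↔ x • (g⁻¹ • c) = g⁻¹ • c := by
    intro c
    rw [mul_smul, mul_smul, eq_inv_smul_iff]
  rw [hconj] at hga hgb
  have hfix : ∀ c : Ω, x • c = c → c = a ∨ c = b := by
    intro c hc
    by_contra hcon
    push Not at hcon
    exact hx1 (h3 x a b c hab (Ne.symm hcon.2) (Ne.symm hcon.1) hxa hxb hc)
  have hne : g⁻¹ • a ≠ g⁻¹ • b := fun h => hab (smul_left_cancel g⁻¹ h)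
  rcases hfix _ hga with h1 | h1 <;> rcases hfix _ hgb with h2' | h2'
  · exact absurd (h1.trans h2'.symm) hne
  · left
    rw [inv_smul_eq_iff] at h1 h2'
    exact ⟨h1.symm, h2'.symm⟩
  · right
    rw [inv_smul_eq_iff] at h1 h2'
    exact ⟨h2'.symm, h1.symm⟩
  · exact absurd (h1.trans h2'.symm) hne

/-- A simple Zassenhaus group is perfect. -/
theorem zass_commutator_eq_top [Fintype Ω] (hZ : Cfsg.IsZassenhausGroup G Ω) [IsSimpleGroup G] :
    ⁅(⊤ : Subgroup G), (⊤ : Subgroup G)⁆ = ⊤ := by
  have hn := zass_card_ge_three hZ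
  have h2 : TwoTrans G Ω := zass_twoTrans hZ
  have h3 := zass_noThree hZ
  have hnormal : (⁅(⊤ : Subgroup G), (⊤ : Subgroup G)⁆).Normal := by
    rw [← commutator_def]; infer_instance
  rcases hnormal.eq_bot_or_eq_top with hbot | htop
  · exfalso
    have hcomm : ∀ x y : G, x * y = y * x := by
      intro x y
      have : ⁅x, y⁆ ∈ ⁅(⊤ : Subgroup G), (⊤ : Subgroup G)⁆ :=
        Subgroup.commutator_mem_commutator (Subgroup.mem_top x) (Subgroup.mem_top y)
      rw [hbot, Subgroup.mem_bot, commutatorElement_eq_one_iff_mul_comm] at this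
      exact this
    obtain ⟨a, b, c, hab, hac, hbc⟩ := Fintype.two_lt_card_iff.mp hn
    obtain ⟨x, hx1, hxa, _⟩ := zass_exists_tps_ne_one hZ hab
    have hfix : ∀ d : Ω, x • d = d := by
      intro d
      obtain ⟨g, hg⟩ := pretrans h2 a d
      rw [← hg, ← mul_smul, hcomm x g, mul_smul, hxa]
    exact hx1 (h3 x a b c hab hbc hac (hfix a) (hfix b) (hfix c))
  · exact htop

/-- A Sylow `p`-subgroup (`p` odd) containing a non-identity element of the two-point stabilizer
fixes both points. -/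
theorem sylow_fixes_pair [Finite G] [Fintype Ω] (h3 : NoThree G Ω) {a b : Ω} (hab : a ≠ b)
    {p : ℕ} [Fact p.Prime] (hp : p ≠ 2) (S : Sylow p G) (z : G) (hz1 : z ≠ 1)
    (hza : z • a = a) (hzb : z • b = b) (hzS : z ∈ S) :
    ∀ s ∈ S, s • a = a ∧ s • b = b := by
  have hp2 : 2 < p := by
    have := (Fact.out : p.Prime).two_le
    omega
  have hfixz : ∀ c : Ω, z • c = c → c = a ∨ c = b := by
    intro c hc
    by_contra hcon
    push Not at hcon
    exact hz1 (h3 z a b c hab (Ne.symm hcon.2) (Ne.symm hcon.1) hza hzb hc)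
  -- fixed points of the cyclic group generated by z
  have hP : IsPGroup p (Subgroup.zpowers z) :=
    S.isPGroup'.to_le (by rw [Subgroup.zpowers_le]; exact hzS)
  have hfixP : fixedPoints (Subgroup.zpowers z) Ω = {a, b} := by
    ext c
    simp only [mem_fixedPoints, Subtype.forall, Set.mem_insert_iff, Set.mem_singleton_iff]
    constructor
    · intro h
      exact hfixz c (h z (Subgroup.mem_zpowers z))
    · intro h m hm
      obtain ⟨k, rfl⟩ := Subgroup.mem_zpowers_iff.mp hm
      have hzc : z • c = c := by rcases h with rfl | rfl <;> assumption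
      show (z ^ k) • c = c
      exact (MulAction.mem_stabilizer_iff.mp
        ((MulAction.stabilizer G c).zpow_mem (MulAction.mem_stabilizer_iff.mpr hzc) k))
  have hmod1 := hP.card_modEq_card_fixedPoints Ω
  rw [hfixP] at hmod1
  have hcard2 : Nat.card ↥({a, b} : Set Ω) = 2 := by
    rw [Nat.card_coe_set_eq, Set.ncard_pair hab]
  rw [hcard2] at hmod1
  have hmod2 := S.isPGroup'.card_modEq_card_fixedPoints Ω
  have hsub : fixedPoints (S : Subgroup G) Ω ⊆ {a, b} := by
    intro c hc
    simp only [mem_fixedPoints, Subtype.forall] at hc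
    exact hfixz c (hc z hzS)
  have heq : fixedPoints (S : Subgroup G) Ω = {a, b} := by
    by_contra hne
    have hlt : (fixedPoints (S : Subgroup G) Ω).ncard < ({a, b} : Set Ω).ncard :=
      Set.ncard_lt_ncard (lt_of_le_of_ne hsub hne) (Set.toFinite _)
    rw [Set.ncard_pair hab] at hlt
    have hmod3 : Nat.card ↥(fixedPoints (S : Subgroup G) Ω) ≡ 2 [MOD p] :=
      hmod2.symm.trans hmod1
    rw [Nat.card_coe_set_eq] at hmod3
    unfold Nat.ModEq at hmod3
    rw [Nat.mod_eq_of_lt (by omega), Nat.mod_eq_of_lt hp2] at hmod3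
    omega
  intro s hs
  have ha : a ∈ fixedPoints (S : Subgroup G) Ω := by rw [heq]; simp
  have hb : b ∈ fixedPoints (S : Subgroup G) Ω := by rw [heq]; simp
  simp only [mem_fixedPoints, Subtype.forall] at ha hb
  exact ⟨ha s hs, hb s hs⟩

/-- In a simple Zassenhaus group with two-point stabilizer `E` of odd order, a homomorphism from
the point stabilizer to a commutative group whose restriction to `E` is invariant under an element
swapping the two points is trivial on `E`. -/
theorem tps_lam_trivial [Finite G] [Fintype Ω] (hZ : Cfsg.IsZassenhausGroup G Ω) [IsSimpleGroup G]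
    {a b : Ω} (hab : a ≠ b)
    (hodd : Odd (Nat.card ↥(stabilizer G a ⊓ stabilizer G b : Subgroup G)))
    {A : Type*} [CommGroup A] (lam : stabilizer G a →* A) (w : G) (hwa : w • a = b)
    (hwb : w • b = a)
    (hinv : ∀ (y : G) (hy : y ∈ stabilizer G a) (hyw : w⁻¹ * y * w ∈ stabilizer G a),
      y • b = b → lam ⟨w⁻¹ * y * w, hyw⟩ = lam ⟨y, hy⟩) :
    ∀ (y : G) (hy : y ∈ stabilizer G a), y • b = b → lam ⟨y, hy⟩ = 1 := by
  classical
  have h2 : TwoTrans G Ω := zass_twoTrans hZ
  have h3 := zass_noThree hZ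
  have hEmem : ∀ y : G, y ∈ (stabilizer G a ⊓ stabilizer G b : Subgroup G)
      ↔ y • a = a ∧ y • b = b := fun y => by
    rw [Subgroup.mem_inf, mem_stabilizer_iff, mem_stabilizer_iff]
  obtain ⟨K, hK⟩ : ∃ K : Subgroup G, K = (lam.ker).map (stabilizer G a).subtype := ⟨_, rfl⟩
  have hKmem : ∀ y : G, y ∈ K ↔ ∃ hy : y ∈ stabilizer G a, lam ⟨y, hy⟩ = 1 := by
    intro y
    rw [hK, Subgroup.mem_map]
    constructor
    · rintro ⟨⟨x, hx⟩, hxk, rfl⟩
      exact ⟨hx, MonoidHom.mem_ker.mp hxk⟩
    · rintro ⟨hy, h⟩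
      exact ⟨⟨y, hy⟩, MonoidHom.mem_ker.mpr h, rfl⟩
  have hwinvb : w⁻¹ • b = a := by rw [inv_smul_eq_iff, hwa]
  -- key: E ≤ K
  have hEK : (stabilizer G a ⊓ stabilizer G b : Subgroup G) ≤ K := by
    have hdvd : Nat.card ↥(stabilizer G a ⊓ stabilizer G b : Subgroup G)
        ∣ Nat.card ↥((stabilizer G a ⊓ stabilizer G b : Subgroup G) ⊓ K) := by
      rw [Nat.dvd_iff_prime_pow_dvd_dvd]
      intro p k hp hpk
      by_cases hk : k = 0
      · subst hk; simp
      haveI : Fact p.Prime := ⟨hp⟩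
      have hpe : p ∣ Nat.card ↥(stabilizer G a ⊓ stabilizer G b : Subgroup G) :=
        dvd_trans (dvd_pow_self p hk) hpk
      have hp2 : p ≠ 2 := by
        rintro rfl
        exact (Nat.not_even_iff_odd.mpr hodd) (even_iff_two_dvd.mpr hpe)
      obtain ⟨⟨z, hzE⟩, hz⟩ := exists_prime_orderOf_dvd_card' p hpe
      have hzo : orderOf z = p := by
        rw [← hz]; exact (Subgroup.orderOf_mk z hzE).symm
      have hz1 : z ≠ 1 := by
        rintro rfl
        rw [orderOf_one] at hzo
        exact hp.one_lt.ne hzo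
      have hzab : z • a = a ∧ z • b = b := (hEmem z).mp hzE
      have hPz : IsPGroup p (Subgroup.zpowers z) := by
        apply IsPGroup.of_card (n := 1)
        rw [Nat.card_zpowers, hzo, pow_one]
      obtain ⟨S, hS⟩ := hPz.exists_le_sylow
      have hzS : z ∈ S := hS (Subgroup.mem_zpowers z)
      have hSfix := sylow_fixes_pair h3 hab hp2 S z hz1 hzab.1 hzab.2 hzS
      have hSE : (S : Subgroup G) ≤ (stabilizer G a ⊓ stabilizer G b : Subgroup G) :=
        fun s hs => (hEmem s).mpr (hSfix s hs)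
      have hfocal := Cfsg.Agent.Helper12.sylow_inf_commutator_le S K ?_
      · rw [zass_commutator_eq_top hZ, inf_top_eq] at hfocal
        have hSK : (S : Subgroup G) ≤ (stabilizer G a ⊓ stabilizer G b : Subgroup G) ⊓ K :=
          le_inf hSE (hfocal.trans inf_le_right)
        have h1 : p ^ k ∣ Nat.card G := dvd_trans hpk (Subgroup.card_subgroup_dvd_card _)
        exact dvd_trans (S.pow_dvd_card_of_pow_dvd_card h1) (Subgroup.card_dvd_of_le hSK)
      · -- the focal hypothesis
        intro a' g ha' hga'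
        by_cases ha1 : a' = 1
        · subst ha1
          simp only [inv_one, mul_one, inv_mul_cancel, one_mul]
          exact K.one_mem
        have ha'ab := hSfix a' ha'
        have hcab := hSfix _ hga'
        have ha'N : a' ∈ stabilizer G a := mem_stabilizer_iff.mpr ha'ab.1
        have hcN : g⁻¹ * a' * g ∈ stabilizer G a := mem_stabilizer_iff.mpr hcab.1
        have hkey : lam ⟨g⁻¹ * a' * g, hcN⟩ = lam ⟨a', ha'N⟩ := by
          have hc1 : (g⁻¹ * a' * g⁻¹⁻¹) • a = a := by rw [inv_inv]; exact hcab.1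
          have hc2 : (g⁻¹ * a' * g⁻¹⁻¹) • b = b := by rw [inv_inv]; exact hcab.2
          rcases setwise_of_conj_mem h3 hab g⁻¹ a' ha1 ha'ab.1 ha'ab.2 hc1 hc2 with
            ⟨hga, _⟩ | ⟨hga, hgb⟩
          · have hgN : g⁻¹ ∈ stabilizer G a := mem_stabilizer_iff.mpr hga
            have e1 : (⟨g⁻¹ * a' * g, hcN⟩ : stabilizer G a)
                = ⟨g⁻¹, hgN⟩ * ⟨a', ha'N⟩ * (⟨g⁻¹, hgN⟩ : stabilizer G a)⁻¹ := by
              apply Subtype.ext
              simp
            rw [e1, map_mul, map_mul, map_inv, mul_comm, inv_mul_cancel_left]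
          · have hyN : g⁻¹ * w ∈ stabilizer G a := by
              rw [mem_stabilizer_iff, mul_smul, hwa, hgb]
            have hwN : w⁻¹ * a' * w ∈ stabilizer G a := by
              rw [mem_stabilizer_iff, mul_smul, mul_smul, hwa, ha'ab.2, hwinvb]
            have e1 : (⟨g⁻¹ * a' * g, hcN⟩ : stabilizer G a)
                = ⟨g⁻¹ * w, hyN⟩ * ⟨w⁻¹ * a' * w, hwN⟩
                  * (⟨g⁻¹ * w, hyN⟩ : stabilizer G a)⁻¹ := by
              apply Subtype.ext
              simp only [Subgroup.coe_mul, Subgroup.coe_inv]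
              group
            rw [e1, map_mul, map_mul, map_inv, mul_comm, inv_mul_cancel_left]
            exact hinv a' ha'N hwN ha'ab.2
        rw [hKmem]
        refine ⟨(stabilizer G a).mul_mem ((stabilizer G a).inv_mem ha'N) hcN, ?_⟩
        have e2 : (⟨a'⁻¹ * (g⁻¹ * a' * g), (stabilizer G a).mul_mem
            ((stabilizer G a).inv_mem ha'N) hcN⟩ : stabilizer G a)
            = (⟨a', ha'N⟩ : stabilizer G a)⁻¹ * ⟨g⁻¹ * a' * g, hcN⟩ := by
          apply Subtype.ext
          simp
        rw [e2, map_mul, map_inv, hkey, inv_mul_cancel]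
    have heq : (stabilizer G a ⊓ stabilizer G b : Subgroup G) ⊓ K
        = (stabilizer G a ⊓ stabilizer G b : Subgroup G) :=
      Subgroup.eq_of_le_of_card_ge inf_le_left (Nat.le_of_dvd Nat.card_pos hdvd)
    rw [← heq]
    exact inf_le_right
  intro y hy hyb
  have hyK : y ∈ K := hEK ((hEmem y).mpr ⟨mem_stabilizer_iff.mp hy, hyb⟩)
  obtain ⟨_, h⟩ := (hKmem y).mp hyK
  exact h

end Cfsg.Agent.Helper6.Zass
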