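import Mathlib

set_option autoImplicit false

namespace Cfsg.Agent.Helper6.Zass

open scoped commutatorElement

/-- An element normalizing a cyclic `q`-subgroup (`q` odd) whose square centralizes it either
centralizes or inverts the subgroup. -/
theorem zo_cyclic_invol {G : Type*} [Group G] (S : Subgroup G) [IsCyclic S]
    {q : ℕ} (hq : q.Prime) (hq2 : q ≠ 2) (hS : IsPGroup q S) (g : G)
    (hg : ∀ x ∈ S, g * x * g⁻¹ ∈ S) (hg2 : ∀ x ∈ S, g * (g * x * g⁻¹) * g⁻¹ = x) :
    (∀ x ∈ S, g * x * g⁻¹ = x) ∨ (∀ x ∈ S, g * x * g⁻¹ = x⁻¹) := by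
  obtain ⟨⟨x₀, hx₀⟩, hgen⟩ := IsCyclic.exists_generator (α := S)
  have hpow : ∀ x ∈ S, ∃ j : ℤ, x₀ ^ j = x := by
    intro x hx
    obtain ⟨j, hj⟩ := Subgroup.mem_zpowers_iff.mp (hgen ⟨x, hx⟩)
    refine ⟨j, ?_⟩
    have := congrArg (Subtype.val) hj
    simpa using this
  obtain ⟨k, hk⟩ := hpow _ (hg x₀ hx₀)
  obtain ⟨i, hi⟩ : ∃ i : ℕ, orderOf x₀ = q ^ i := by
    obtain ⟨i, hi⟩ := hS ⟨x₀, hx₀⟩
    have h1 : x₀ ^ q ^ i = 1 := by
      have := congrArg Subtype.val hi
      simpa using this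
    obtain ⟨j, -, hj⟩ := (Nat.dvd_prime_pow hq).mp (orderOf_dvd_of_pow_eq_one h1)
    exact ⟨j, hj⟩
  have hkk : x₀ ^ (k * k - 1) = 1 := by
    have h2 := hg2 x₀ hx₀
    rw [← hk, ← conj_zpow, ← hk, ← zpow_mul] at h2
    rw [zpow_sub, zpow_one, h2, mul_inv_cancel]
  have hdvd : ((q : ℤ) ^ i) ∣ (k - 1) * (k + 1) := by
    have := (orderOf_dvd_iff_zpow_eq_one).mpr hkk
    rw [hi] at this
    have e : (k - 1) * (k + 1) = k * k - 1 := by ring
    rw [e]
    exact_mod_cast this
  have hqi : Prime (q : ℤ) := Nat.prime_iff_prime_int.mp hq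
  have hcases : ((q : ℤ) ^ i) ∣ (k - 1) ∨ ((q : ℤ) ^ i) ∣ (k + 1) := by
    by_cases h1 : (q : ℤ) ∣ k - 1
    · left
      have h2 : ¬ (q : ℤ) ∣ k + 1 := by
        intro h2
        have h3 : (q : ℤ) ∣ 2 := by
          have := dvd_sub h2 h1
          have e : k + 1 - (k - 1) = 2 := by ring
          rwa [e] at this
        have h4 : q ∣ 2 := by exact_mod_cast h3
        have := (Nat.prime_dvd_prime_iff_eq hq Nat.prime_two).mp h4
        exact hq2 this
      exact hqi.pow_dvd_of_dvd_mul_right i h2 hdvd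
    · right
      exact hqi.pow_dvd_of_dvd_mul_left i h1 hdvd
  rcases hcases with h | h
  · left
    have hx1 : x₀ ^ (k - 1) = 1 := by
      apply orderOf_dvd_iff_zpow_eq_one.mp
      rw [hi]; exact_mod_cast h
    have hxk : x₀ ^ k = x₀ := by
      have e : k = (k - 1) + 1 := by ring
      rw [e, zpow_add_one, hx1, one_mul]
    intro x hx
    obtain ⟨j, rfl⟩ := hpow x hx
    rw [← conj_zpow, ← hk, hxk]
  · right
    have hx1 : x₀ ^ (k + 1) = 1 := by
      apply orderOf_dvd_iff_zpow_eq_one.mp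
      rw [hi]; exact_mod_cast h
    have hxk : x₀ ^ k = x₀⁻¹ := by
      rw [zpow_add_one] at hx1
      exact eq_inv_of_mul_eq_one_left hx1
    intro x hx
    obtain ⟨j, rfl⟩ := hpow x hx
    rw [← conj_zpow, ← hk, hxk, inv_zpow]

/-- Abstract core: a Z-group `E` of odd order normalized by `t`, such that for each prime not
dividing the order of the derived subgroup a Sylow subgroup is inverted by an element of `E t`,
is commutative and inverted by `t`. -/
theorem zo_abstract {G : Type*} [Group G] (E : Subgroup G) [Finite E] [IsZGroup E]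
    (hodd : Odd (Nat.card E)) (t : G) (ht : ∀ h ∈ E, t * h * t⁻¹ ∈ E)
    (ht' : ∀ h ∈ E, t⁻¹ * h * t ∈ E)
    (hQ : ∀ q : ℕ, q.Prime → q ∣ Nat.card E → ¬ q ∣ Nat.card ↥⁅E, E⁆ →
      ∃ Q : Subgroup G, Q ≤ E ∧ (∀ k : ℕ, q ^ k ∣ Nat.card E → q ^ k ∣ Nat.card Q) ∧
        ∃ g : G, g * t⁻¹ ∈ E ∧ ∀ x ∈ Q, g * x * g⁻¹ = x⁻¹) :
    (∀ x ∈ E, ∀ y ∈ E, x * y = y * x) ∧ ∀ h ∈ E, t * h * t⁻¹ = h⁻¹ := by
  classical
  obtain ⟨D, hD⟩ : ∃ D : Subgroup G, D = ⁅E, E⁆ := ⟨_, rfl⟩
  rw [← hD] at hQ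
  have hDE : D ≤ E := by
    rw [hD, Subgroup.commutator_le]
    intro u hu v hv
    rw [commutatorElement_def]
    exact E.mul_mem (E.mul_mem (E.mul_mem hu hv) (E.inv_mem hu)) (E.inv_mem hv)
  have hconjD : ∀ n : G, (∀ h ∈ E, n * h * n⁻¹ ∈ E) → ∀ x ∈ D, n * x * n⁻¹ ∈ D := by
    intro n hn x hx
    have hle : D ≤ D.comap (MulAut.conj n).toMonoidHom := by
      rw [hD, Subgroup.commutator_le]
      intro u hu v hv
      rw [Subgroup.mem_comap]
      have e : (MulAut.conj n).toMonoidHom ⁅u, v⁆ = ⁅n * u * n⁻¹, n * v * n⁻¹⁆ := by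
        simp only [MulEquiv.coe_toMonoidHom, MulAut.conj_apply, commutatorElement_def]
        group
      rw [e]
      exact Subgroup.commutator_mem_commutator (hn u hu) (hn v hv)
    have := hle hx
    rw [Subgroup.mem_comap] at this
    simpa [MulAut.conj_apply] using this
  have hnormD : ∀ n : G, (∀ h ∈ E, n * h * n⁻¹ ∈ E) → (∀ h ∈ E, n⁻¹ * h * n ∈ E) →
      n ∈ Subgroup.normalizer (D : Set G) := by
    intro n hn hn'
    rw [Subgroup.mem_normalizer_iff]
    intro x
    constructor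
    · exact hconjD n hn x
    · intro hx
      have h1 := hconjD n⁻¹ (fun h hh => by rw [inv_inv]; exact hn' h hh) _ hx
      have e : n⁻¹ * (n * x * n⁻¹) * n⁻¹⁻¹ = x := by group
      rwa [e] at h1
  have hD' : D = (commutator E).map E.subtype := by
    rw [hD, Subgroup.map_subtype_commutator]
  have hcardD : Nat.card (commutator E) = Nat.card D := by
    rw [hD', Subgroup.card_map_of_injective E.subtype_injective]
  have hcycC : IsCyclic (commutator E) := IsZGroup.isCyclic_commutator E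
  have hcycD : IsCyclic D := by
    rw [hD']
    exact isCyclic_of_surjective _
      ((commutator E).equivMapOfInjective E.subtype E.subtype_injective).surjective
  obtain ⟨⟨x₀, hx₀⟩, hgen⟩ := IsCyclic.exists_generator (α := D)
  have hDpow : ∀ x ∈ D, ∃ j : ℤ, x₀ ^ j = x := by
    intro x hx
    obtain ⟨j, hj⟩ := Subgroup.mem_zpowers_iff.mp (hgen ⟨x, hx⟩)
    refine ⟨j, ?_⟩
    have := congrArg (Subtype.val) hj
    simpa using this
  -- the subgroup of elements inverted modulo D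
  let I : Subgroup G :=
    { carrier := {h | h ∈ E ∧ t * h * t⁻¹ * h ∈ D}
      mul_mem' := by
        rintro h₁ h₂ ⟨h1E, h1D⟩ ⟨h2E, h2D⟩
        refine ⟨E.mul_mem h1E h2E, ?_⟩
        have e : t * (h₁ * h₂) * t⁻¹ * (h₁ * h₂)
            = (t * h₁ * t⁻¹ * h₁) * ⁅h₁⁻¹, t * h₂ * t⁻¹⁆ * (t * h₂ * t⁻¹ * h₂) := by
          rw [commutatorElement_def]; group
        rw [e]
        refine D.mul_mem (D.mul_mem h1D ?_) h2D
        rw [hD]
        exact Subgroup.commutator_mem_commutator (E.inv_mem h1E) (ht _ h2E)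
      one_mem' := by
        refine ⟨E.one_mem, ?_⟩
        have e : t * 1 * t⁻¹ * 1 = (1 : G) := by group
        rw [e]; exact D.one_mem
      inv_mem' := by
        rintro h ⟨hE, hDm⟩
        refine ⟨E.inv_mem hE, ?_⟩
        have e : t * h⁻¹ * t⁻¹ * h⁻¹ = h * (t * h * t⁻¹ * h)⁻¹ * h⁻¹ := by group
        rw [e]
        exact hconjD h (fun y hy => E.mul_mem (E.mul_mem hE hy) (E.inv_mem hE)) _
          (D.inv_mem hDm) }
  have hImem : ∀ h : G, h ∈ I ↔ h ∈ E ∧ t * h * t⁻¹ * h ∈ D := fun h => Iff.rfl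
  have hIleE : I ≤ E := fun h hh => ((hImem h).mp hh).1
  have hDI : D ≤ I := fun x hx =>
    (hImem x).mpr ⟨hDE hx, D.mul_mem (hconjD t ht x hx) hx⟩
  have hcop := IsZGroup.coprime_commutator_index (G := E)
  have hmul : Nat.card D * (commutator E).index = Nat.card E := by
    rw [← hcardD]; exact Subgroup.card_mul_index _
  have hIE : I = E := by
    haveI : Finite I := Finite.of_injective (Subgroup.inclusion hIleE)
      (Subgroup.inclusion_injective hIleE)
    apply Subgroup.eq_of_le_of_card_ge hIleE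
    apply Nat.le_of_dvd Nat.card_pos
    rw [Nat.dvd_iff_prime_pow_dvd_dvd]
    intro p k hp hpk
    by_cases hk : k = 0
    · subst hk; simp
    have hpE : p ∣ Nat.card E := dvd_trans (dvd_pow_self p hk) hpk
    by_cases hpD : p ∣ Nat.card D
    · have hpidx : ¬ p ∣ (commutator E).index := by
        intro h
        rw [hcardD] at hcop
        have := Nat.dvd_gcd hpD h
        rw [hcop] at this
        exact hp.one_lt.ne' (Nat.dvd_one.mp this)
      have hc : (p ^ k).Coprime (commutator E).index :=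
        Nat.Coprime.pow_left k ((Nat.Prime.coprime_iff_not_dvd hp).mpr hpidx)
      rw [← hmul] at hpk
      exact dvd_trans (hc.dvd_of_dvd_mul_right hpk) (Subgroup.card_dvd_of_le hDI)
    · obtain ⟨Q, hQE, hQk, g, hgE, hginv⟩ := hQ p hp hpE hpD
      have hQI : Q ≤ I := by
        intro x hx
        refine (hImem x).mpr ⟨hQE hx, ?_⟩
        have gen : ∀ y : G, g * x * g⁻¹ = y →
            t * x * t⁻¹ * x = (g * t⁻¹)⁻¹ * y * (g * t⁻¹) * x := by
          intro y hy; rw [← hy]; group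
        have e : t * x * t⁻¹ * x = ⁅(g * t⁻¹)⁻¹, x⁻¹⁆ := by
          rw [gen _ (hginv x hx), commutatorElement_def, inv_inv, inv_inv]
        rw [e, hD]
        exact Subgroup.commutator_mem_commutator (E.inv_mem hgE) (E.inv_mem (hQE hx))
      exact dvd_trans (hQk k hpk) (Subgroup.card_dvd_of_le hQI)
  have hIall : ∀ h ∈ E, t * h * t⁻¹ * h ∈ D := fun h hh =>
    ((hImem h).mp (hIE ▸ hh)).2
  have hcent2 : ∀ h ∈ E, h * h ∈ Subgroup.centralizer (D : Set G) := by
    intro h hh
    have hTn : t ∈ Subgroup.normalizer (D : Set G) := hnormD t ht ht'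
    have hHn : h ∈ Subgroup.normalizer (D : Set G) :=
      hnormD h (fun y hy => E.mul_mem (E.mul_mem hh hy) (E.inv_mem hh))
        (fun y hy => E.mul_mem (E.mul_mem (E.inv_mem hh) hy) hh)
    have hW : t * h * t⁻¹ * h ∈ D := hIall h hh
    have hWc : t * h * t⁻¹ * h ∈ Subgroup.centralizer (D : Set G) := by
      rw [Subgroup.mem_centralizer_iff]
      intro x hx
      obtain ⟨j, rfl⟩ := hDpow x hx
      obtain ⟨j', hj'⟩ := hDpow _ hW
      rw [← hj']
      exact zpow_mul_comm x₀ j j'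
    have hker : (⟨t, hTn⟩ * ⟨h, hHn⟩ * ⟨t, hTn⟩⁻¹ * ⟨h, hHn⟩ :
        Subgroup.normalizer (D : Set G)) ∈ D.normalizerMonoidHom.ker := by
      rw [Subgroup.normalizerMonoidHom_ker, Subgroup.mem_subgroupOf]
      exact hWc
    rw [MonoidHom.mem_ker, map_mul, map_mul, map_mul, map_inv] at hker
    have hcomm : ∀ φ ψ : MulAut D, φ * ψ = ψ * φ := fun φ ψ =>
      (IsCyclic.mulAutMulEquiv D).injective (by rw [map_mul, map_mul, mul_comm])
    rw [hcomm (D.normalizerMonoidHom ⟨t, hTn⟩), mul_inv_cancel_right, ← map_mul] at hker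
    have hker2 : (⟨h, hHn⟩ * ⟨h, hHn⟩ : Subgroup.normalizer (D : Set G))
        ∈ D.normalizerMonoidHom.ker := MonoidHom.mem_ker.mpr hker
    rw [Subgroup.normalizerMonoidHom_ker, Subgroup.mem_subgroupOf] at hker2
    exact hker2
  have hcent : ∀ h ∈ E, h ∈ Subgroup.centralizer (D : Set G) := by
    intro h hh
    have hord : Odd (orderOf h) := by
      have h1 : orderOf h ∣ Nat.card E := by
        have := orderOf_dvd_natCard (⟨h, hh⟩ : E)
        rwa [Subgroup.orderOf_mk] at this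
      exact Odd.of_dvd_nat hodd h1
    obtain ⟨m, hm⟩ := hord
    have e1 : h = (h * h) ^ (m + 1) := by
      rw [← pow_two, ← pow_mul]
      have e : 2 * (m + 1) = orderOf h + 1 := by omega
      rw [e, pow_succ, pow_orderOf_eq_one, one_mul]
    rw [e1]
    exact Subgroup.pow_mem _ (hcent2 h hh) _
  have hcommE : ∀ x ∈ E, ∀ y ∈ E, x * y = y * x := by
    intro x hx y hy
    have hf : (Abelianization.of (G := E)).ker ≤ Subgroup.center E := by
      rw [Abelianization.ker_of]
      intro w hw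
      rw [Subgroup.mem_center_iff]
      intro z
      have hwD : (w : G) ∈ D := by
        rw [hD']
        exact Subgroup.mem_map_of_mem E.subtype hw
      have := (Subgroup.mem_centralizer_iff.mp (hcent z z.2)) w hwD
      exact Subtype.ext this.symm
    have := commutative_of_cyclic_center_quotient (Abelianization.of (G := E)) hf ⟨x, hx⟩ ⟨y, hy⟩
    exact congrArg Subtype.val this
  refine ⟨hcommE, ?_⟩
  intro h hh
  have hDbot : D = ⊥ := by
    rw [hD, Subgroup.commutator_eq_bot_iff_le_centralizer]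
    intro x hx
    rw [Subgroup.mem_centralizer_iff]
    intro y hy
    exact hcommE y hy x hx
  have h1 := hIall h hh
  rw [hDbot, Subgroup.mem_bot] at h1
  exact eq_inv_of_mul_eq_one_left h1

end Cfsg.Agent.Helper6.Zass
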